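import Mathlib

/-!
# The quadratic extension attached to an anisotropic binary form
-/

set_option autoImplicit false
set_option linter.unusedSectionVars false
set_option linter.unusedSimpArgs false
set_option linter.unusedVariables false

namespace Cfsg.Agent.Lib.SpinM

open QuadraticAlgebra Equiv

variable {F : Type*} [Field F] {a b : F}

/-- The quadratic extension. -/
abbrev KK (a b : F) := QuadraticAlgebra F (-b) a

/-- The norm. -/
noncomputable abbrev NN' (y : KK a b) : F := QuadraticAlgebra.norm y

theorem N_def (y : KK a b) : NN' y = y.re * y.re + a * y.re * y.im + b * y.im * y.im := by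
  rw [NN', norm_def]
  ring

/-- The polar form of the norm. -/
def bw (y z : KK a b) : F := 2 * y.re * z.re + a * (y.re * z.im + y.im * z.re) + 2 * b * y.im * z.im

theorem bw_comm (y z : KK a b) : bw y z = bw z y := by
  simp only [bw]
  ring

theorem bw_add_left (y y' z : KK a b) : bw (y + y') z = bw y z + bw y' z := by
  simp only [bw, re_add, im_add]
  ring

theorem bw_add_right (y z z' : KK a b) : bw y (z + z') = bw y z + bw y z' := by
  simp only [bw, re_add, im_add]
  ring

theorem bw_sub_left (y y' z : KK a b) : bw (y - y') z = bw y z - bw y' z := by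
  simp only [bw, re_sub, im_sub]
  ring

theorem bw_sub_right (y z z' : KK a b) : bw y (z - z') = bw y z - bw y z' := by
  simp only [bw, re_sub, im_sub]
  ring

theorem bw_neg_left (y z : KK a b) : bw (-y) z = - bw y z := by
  simp only [bw, re_neg, im_neg]
  ring

theorem bw_neg_right (y z : KK a b) : bw y (-z) = - bw y z := by
  simp only [bw, re_neg, im_neg]
  ring

theorem bw_smul_left (t : F) (y z : KK a b) : bw (t • y) z = t * bw y z := by
  simp only [bw, re_smul, im_smul, smul_eq_mul]
  ring

theorem bw_smul_right (t : F) (y z : KK a b) : bw y (t • z) = t * bw y z := by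
  simp only [bw, re_smul, im_smul, smul_eq_mul]
  ring

theorem bw_zero_left (z : KK a b) : bw 0 z = 0 := by
  simp [bw]

theorem bw_zero_right (z : KK a b) : bw z 0 = 0 := by
  simp [bw]

theorem bw_self (y : KK a b) : bw y y = 2 * NN' y := by
  rw [N_def]
  simp only [bw]
  ring

theorem N_add (y z : KK a b) : NN' (y + z) = NN' y + NN' z + bw y z := by
  simp only [N_def, bw, re_add, im_add]
  ring

theorem N_neg (y : KK a b) : NN' (-y) = NN' y := by
  simp only [N_def, re_neg, im_neg]
  ring

theorem N_sub (y z : KK a b) : NN' (y - z) = NN' y + NN' z - bw y z := by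
  simp only [N_def, bw, re_sub, im_sub]
  ring

theorem N_smul (t : F) (y : KK a b) : NN' (t • y) = t * t * NN' y := by
  simp only [N_def, re_smul, im_smul, smul_eq_mul]
  ring

theorem N_mul (y z : KK a b) : NN' (y * z) = NN' y * NN' z := map_mul _ _ _

theorem N_one : NN' (1 : KK a b) = 1 := map_one _

theorem N_star (y : KK a b) : NN' (star y) = NN' y := norm_star y

/-- The algebra map. -/
theorem coe_N (y : KK a b) : algebraMap F (KK a b) (NN' y) = y * star y := algebraMap_norm_eq_mul_star y

theorem coe_bw (y z : KK a b) : algebraMap F (KK a b) (bw y z) = y * star z + z * star y := by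
  ext
  · simp only [bw, algebraMap_re, re_add, re_mul, re_star, im_star]
    ring
  · simp only [bw, algebraMap_im, im_add, im_mul, re_star, im_star]
    ring

theorem bw_mul_mul (x y z : KK a b) : bw (x * y) (x * z) = NN' x * bw y z := by
  apply algebraMap_injective (R := F) (a := -b) (b := a)
  rw [map_mul, coe_bw, coe_N, coe_bw, star_mul', star_mul']
  ring

section Field

variable [Fact (∀ r : F, r ^ 2 ≠ -b + a * r)]

theorem N_eq_zero {y : KK a b} : NN' y = 0 ↔ y = 0 := norm_eq_zero_iff_eq_zero

theorem N_ne_zero {y : KK a b} (h : y ≠ 0) : NN' y ≠ 0 := fun e => h (N_eq_zero.mp e)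

theorem star_ne_zero' {y : KK a b} (h : y ≠ 0) : star y ≠ 0 := fun e => h (by
  have := congrArg star e
  rwa [star_star, star_zero] at this)

/-- The element with the inverse norm. -/
noncomputable def iv (y : KK a b) : KK a b := (NN' y)⁻¹ • y

theorem iv_eq (y : KK a b) : iv y = (star y)⁻¹ := by
  by_cases h : y = 0
  · simp [iv, h]
  · rw [iv, Algebra.smul_def, map_inv₀, coe_N]
    have := star_ne_zero' h
    field_simp

theorem N_iv (y : KK a b) : NN' (iv y) = (NN' y)⁻¹ := by
  rw [iv, N_smul]
  by_cases h : y = 0
  · simp [h]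
  · have := N_ne_zero h
    field_simp

theorem iv_ne_zero {y : KK a b} (h : y ≠ 0) : iv y ≠ 0 := by
  rw [iv_eq]
  exact inv_ne_zero (star_ne_zero' h)

theorem iv_iv (y : KK a b) : iv (iv y) = y := by
  rw [iv_eq, iv_eq, star_inv₀, star_star, inv_inv]

theorem iv_neg (y : KK a b) : iv (-y) = - iv y := by
  rw [iv_eq, iv_eq, star_neg, inv_neg]

theorem iv_one : iv (1 : KK a b) = 1 := by
  rw [iv_eq, star_one, inv_one]

theorem bw_iv {y : KK a b} (h : y ≠ 0) : bw y (iv y) = 2 := by
  rw [iv, bw_smul_right, bw_self]
  have := N_ne_zero h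
  field_simp

theorem bw_iv_left (y z : KK a b) : bw (iv y) z = (NN' y)⁻¹ * bw y z := by
  rw [iv, bw_smul_left]

/-- The reflection. -/
noncomputable def tauF (y z : KK a b) : KK a b := z - ((NN' y)⁻¹ * bw y z) • y

theorem tauF_inv (y : KK a b) : Function.Involutive (tauF y) := by
  intro z
  by_cases h : y = 0
  · simp [tauF, h, bw_zero_left]
  · have h1 := N_ne_zero h
    have e : bw y (tauF y z) = - bw y z := by
      rw [tauF, bw_sub_right, bw_smul_right, bw_self]
      field_simp
      ring
    rw [tauF, e, tauF]
    have e2 : (NN' y)⁻¹ * -bw y z = -((NN' y)⁻¹ * bw y z) := by ring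
    rw [e2, neg_smul]
    abel

/-- The reflection as a permutation. -/
noncomputable def tauP (y : KK a b) : Perm (KK a b) := (tauF_inv y).toPerm

@[simp] theorem tauP_apply (y z : KK a b) : tauP y z = z - ((NN' y)⁻¹ * bw y z) • y := rfl

theorem tauP_inv (y : KK a b) : (tauP y)⁻¹ = tauP y := by
  ext1 z
  rfl

theorem tauF_eq {y : KK a b} (h : y ≠ 0) (z : KK a b) : tauP y z = - (y * star z / star y) := by
  have h1 := star_ne_zero' h
  rw [tauP_apply, Algebra.smul_def, map_mul, map_inv₀, coe_N, coe_bw]
  field_simp
  ring

theorem tauP_self {y : KK a b} (h : y ≠ 0) : tauP y y = - y := by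
  rw [tauP_apply, bw_self]
  have := N_ne_zero h
  have e : (NN' y)⁻¹ * (2 * NN' y) = 2 := by
    field_simp
  rw [e, two_smul]
  abel

theorem N_tauP {y : KK a b} (h : y ≠ 0) (z : KK a b) : NN' (tauP y z) = NN' z := by
  have h1 := N_ne_zero h
  rw [tauP_apply, N_sub, N_smul, bw_smul_right, bw_comm z y]
  field_simp
  ring

theorem bw_tauP {y : KK a b} (h : y ≠ 0) (z z' : KK a b) : bw (tauP y z) (tauP y z') = bw z z' := by
  have h1 := N_ne_zero h
  rw [tauP_apply, tauP_apply, bw_sub_left, bw_sub_right, bw_sub_right, bw_smul_left, bw_smul_right, bw_smul_right,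
    bw_smul_left, bw_self, bw_comm z y]
  field_simp
  ring

/-- Multiplication as a permutation. -/
noncomputable def mulP (ζ : KK a b) (h : ζ ≠ 0) : Perm (KK a b) where
  toFun z := ζ * z
  invFun z := ζ⁻¹ * z
  left_inv z := by
    simp only
    field_simp
  right_inv z := by
    simp only
    field_simp

@[simp] theorem mulP_apply (ζ : KK a b) (h : ζ ≠ 0) (z : KK a b) : mulP ζ h z = ζ * z := rfl

theorem div_star_ne {x : KK a b} (h : x ≠ 0) : x / star x ≠ 0 := div_ne_zero h (star_ne_zero' h)

theorem N_div_star {x : KK a b} (h : x ≠ 0) : NN' (x / star x) = 1 := by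
  have h1 := N_ne_zero h
  have e : x = (x / star x) * star x := by
    have := star_ne_zero' h
    field_simp
  have e2 := congrArg NN' e
  rw [N_mul, N_star] at e2
  exact (mul_right_cancel₀ h1 (by rw [one_mul]; exact e2.symm))

/-- The rotation attached to an element. -/
noncomputable def rotP (x : KK a b) (h : x ≠ 0) : Perm (KK a b) := mulP (x / star x) (div_star_ne h)

theorem rot_eq {x : KK a b} (h : x ≠ 0) : tauP x * (tauP 1)⁻¹ = rotP x h := by
  rw [tauP_inv]
  ext1 z
  have h1 : (1 : KK a b) ≠ 0 := one_ne_zero
  have e : (tauP x * tauP (1 : KK a b) : Perm (KK a b)) z = tauP x (tauP 1 z) := rfl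
  rw [e, tauF_eq h, tauF_eq h1, rotP, mulP_apply]
  simp only [star_neg, star_div₀, star_mul', star_star, star_one, one_mul, div_one]
  have := star_ne_zero' h
  field_simp

section Finite

variable [Fintype F]

theorem omega_ne_star : (ω : KK a b) ≠ star ω := by
  classical
  intro e
  have h1 := congrArg QuadraticAlgebra.im e
  have h2 := congrArg QuadraticAlgebra.re e
  simp only [omega_re, omega_im, re_star, im_star, mul_one, zero_add] at h1 h2
  have h3 : (2 : F) = 0 := by linear_combination h1
  have hchar : ringChar F = 2 := by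
    have := CharTwo.of_one_ne_zero_of_two_eq_zero (R := F) one_ne_zero h3
    exact ringChar.eq F 2
  obtain ⟨c, hc⟩ := FiniteField.isSquare_of_char_two hchar (-b)
  apply (Fact.out : ∀ r : F, r ^ 2 ≠ -b + a * r) c
  rw [hc, ← h2]
  ring

/-- Elements of norm one of order larger than two. -/
theorem exists_xi : ∃ ξ : KK a b, NN' ξ = 1 ∧ ξ * ξ ≠ 1 := by
  classical
  have key : ∀ x : KK a b, x ≠ star x → x ≠ - star x → ∃ ξ : KK a b, NN' ξ = 1 ∧ ξ * ξ ≠ 1 := by
    intro x h1 h3
    have hx : x ≠ 0 := by
      rintro rfl
      simp at h1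
    refine ⟨x / star x, N_div_star hx, ?_⟩
    intro e
    have h4 := star_ne_zero' hx
    have h5 : (x - star x) * (x + star x) = 0 := by
      have e2 : x * x = star x * star x := by
        field_simp at e
        linear_combination e
      linear_combination e2
    rcases mul_eq_zero.mp h5 with h6 | h6
    · exact h1 (sub_eq_zero.mp h6)
    · exact h3 (eq_neg_of_add_eq_zero_left h6)
  have hω := omega_ne_star (a := a) (b := b)
  by_cases h1 : (ω : KK a b) = - star ω
  · -- the trace of `ω` is zero
    have h2 : a = 0 := by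
      have := congrArg QuadraticAlgebra.re h1
      simpa using this
    have h3 : (2 : F) ≠ 0 := by
      intro h3
      apply hω
      ext
      · simp [h2]
      · simp
        linear_combination h3
    refine key (1 + ω) ?_ ?_
    · intro e
      apply hω
      have : star (1 + ω : KK a b) = 1 + star ω := by simp
      rw [this] at e
      exact add_left_cancel e
    · intro e
      have e2 := congrArg QuadraticAlgebra.re e
      simp [h2] at e2
      apply h3
      linear_combination e2
  · exact key ω hω h1

end Finite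

/-- The elements of given polar value. -/
theorem exists_bw_one [Fintype F] : ∃ y₀ : KK a b, bw 1 y₀ = 1 := by
  by_cases h : a = 0
  · have h3 : (2 : F) ≠ 0 := by
      intro h3
      apply omega_ne_star (a := a) (b := b)
      ext
      · simp [h]
      · simp
        linear_combination h3
    refine ⟨⟨2⁻¹, 0⟩, ?_⟩
    simp only [bw, re_one, im_one]
    simp
    field_simp
  · refine ⟨⟨0, a⁻¹⟩, ?_⟩
    simp only [bw, re_one, im_one]
    simp
    field_simp

theorem exists_bw [Fintype F] {x : KK a b} (h : x ≠ 0) (t : F) : ∃ z : KK a b, bw x z = t := by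
  obtain ⟨y₀, hy⟩ := exists_bw_one (a := a) (b := b)
  refine ⟨t • (star y₀ / star x), ?_⟩
  apply algebraMap_injective (R := F) (a := -b) (b := a)
  have h1 := star_ne_zero' h
  have e1 := coe_bw (1 : KK a b) y₀
  rw [hy, map_one] at e1
  simp only [star_one, mul_one, one_mul] at e1
  rw [coe_bw, Algebra.smul_def, star_mul', star_div₀, star_star, star_star]
  have e2 : star (algebraMap F (KK a b) t) = algebraMap F (KK a b) t := by
    ext <;> simp
  rw [e2]
  have e3 : x * (algebraMap F (KK a b) t * (y₀ / x)) + algebraMap F (KK a b) t * (star y₀ / star x) * star x =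
      algebraMap F (KK a b) t * (star y₀ + y₀) := by
    field_simp
    ring
  rw [e3, ← e1, mul_one]

theorem cayley {ζ : KK a b} (h : NN' ζ = 1) (x : KK a b) : bw x ((ζ - 1) * x) = - NN' ((ζ - 1) * x) := by
  have e : (ζ - 1) * x = ζ * x - x := by ring
  rw [e, bw_sub_right, N_sub, N_mul, h, one_mul, bw_self, bw_comm x (ζ * x)]
  ring

/-- Isometries of the extension are semilinear. -/
theorem isometry_semi [Fintype F] {r : KK a b → KK a b} (hadd : ∀ y z, r (y + z) = r y + r z) (hsmul : ∀ (t : F) y, r (t • y) = t • r y)
    (hN : ∀ y, NN' (r y) = NN' y) : ∃ μ : KK a b, NN' μ = 1 ∧ ((∀ z, r z = μ * z) ∨ (∀ z, r z = μ * star z)) := by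
  have hμ : NN' (r 1) = 1 := by rw [hN, N_one]
  have hμ0 : r 1 ≠ 0 := fun e => by
    rw [e] at hμ
    simp at hμ
  set μ := r 1 with hμd
  have hbw : ∀ y z, bw (r y) (r z) = bw y z := by
    intro y z
    have h1 := N_add (r y) (r z)
    rw [← hadd, hN, hN, hN, N_add] at h1
    linear_combination -h1
  set τ := μ⁻¹ * r ω with hτ
  have e1 : r ω = μ * τ := by
    rw [hτ]
    field_simp
  have h2 : bw 1 τ = a := by
    have h3 := hbw 1 ω
    rw [← hμd, e1] at h3
    have h4 : bw μ (μ * τ) = bw (μ * 1) (μ * τ) := by rw [mul_one]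
    rw [h4, bw_mul_mul, hμ, one_mul] at h3
    rw [h3]
    simp [bw]
  have h5 : NN' τ = b := by
    have h3 := hN ω
    rw [e1, N_mul, hμ, one_mul] at h3
    rw [h3, N_def]
    simp
  have h6 : (τ - ω) * (τ - star ω) = 0 := by
    have c1 := coe_bw (1 : KK a b) τ
    rw [h2] at c1
    simp only [star_one, mul_one, one_mul] at c1
    have c2 := coe_N τ
    rw [h5] at c2
    have c3 := coe_bw (1 : KK a b) ω
    have c4 : bw (1 : KK a b) ω = a := by simp [bw]
    rw [c4] at c3
    simp only [star_one, mul_one, one_mul] at c3
    have c5 := coe_N (ω : KK a b)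
    have c6 : NN' (ω : KK a b) = b := by
      rw [N_def]
      simp
    rw [c6] at c5
    have e5 : (τ - ω) * (τ - star ω) = τ * τ - τ * (star ω + ω) + ω * star ω := by ring
    rw [e5, ← c3, ← c5, c2, c1]
    ring
  have hz : ∀ z : KK a b, z = z.re • (1 : KK a b) + z.im • ω := by
    intro z
    ext <;> simp
  have hr : ∀ z : KK a b, r z = z.re • μ + z.im • (μ * τ) := by
    intro z
    conv_lhs => rw [hz z]
    rw [hadd, hsmul, hsmul, ← hμd, e1]
  refine ⟨μ, hμ, ?_⟩
  rcases mul_eq_zero.mp h6 with h7 | h7
  · left
    intro z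
    have h8 : τ = ω := sub_eq_zero.mp h7
    conv_rhs => rw [hz z]
    rw [hr, h8, mul_add, mul_smul_comm, mul_smul_comm, mul_one]
  · right
    intro z
    have h8 : τ = star ω := sub_eq_zero.mp h7
    have h9 : star z = z.re • (1 : KK a b) + z.im • star ω := by
      ext <;> simp
      ring
    rw [h9, hr, h8, mul_add, mul_smul_comm, mul_smul_comm, mul_one]

/-- Conjugating a rotation by an isometry gives a rotation. -/
theorem isometry_conj [Fintype F] {r : KK a b → KK a b} (hadd : ∀ y z, r (y + z) = r y + r z) (hsmul : ∀ (t : F) y, r (t • y) = t • r y)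
    (hN : ∀ y, NN' (r y) = NN' y) {ζ : KK a b} (hζ : NN' ζ = 1) :
    ∃ ζ' : KK a b, NN' ζ' = 1 ∧ ∀ z, r (ζ' * z) = ζ * r z := by
  obtain ⟨μ, hμ, h | h⟩ := isometry_semi hadd hsmul hN
  · refine ⟨ζ, hζ, fun z => ?_⟩
    rw [h, h]
    ring
  · refine ⟨star ζ, by rw [N_star, hζ], fun z => ?_⟩
    rw [h, h, star_mul', star_star]
    ring

/-- Biadditive functions vanishing on orthogonal pairs only depend on the polar form. -/
theorem bi_dep [Fintype F] {A : Type*} [Group A] {G : KK a b → KK a b → A} (h1 : ∀ y y' z, G (y + y') z = G y z * G y' z)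
    (h2 : ∀ y z z', G y (z + z') = G y z * G y z') (h0 : ∀ y z, bw y z = 0 → G y z = 1) {y y' z z' : KK a b}
    (he : bw y z = bw y' z') : G y z = G y' z' := by
  have same2 : ∀ {y z z' : KK a b}, bw y z = bw y z' → G y z = G y z' := by
    intro y z z' h
    have e : z = z' + (z - z') := by ring
    rw [e, h2, h0 y (z - z') (by rw [bw_sub_right, h, sub_self]), mul_one]
  have same1 : ∀ {y y' z : KK a b}, bw y z = bw y' z → G y z = G y' z := by
    intro y y' z h
    have e : y = y' + (y - y') := by ring
    rw [e, h1, h0 (y - y') z (by rw [bw_sub_left, h, sub_self]), mul_one]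
  have hD : ∀ {y y' z z' : KK a b}, y * star y' - star y * y' ≠ 0 → bw y z = bw y' z' → G y z = G y' z' := by
    intro y y' z z' hD h
    set D := y * star y' - star y * y' with hDd
    have hsD : star D = - D := by
      rw [hDd, star_sub, star_mul', star_mul', star_star, star_star]
      ring
    set t := bw y z with ht
    let w : KK a b := t • ((y - y') / D)
    have hst : star (algebraMap F (KK a b) t) = algebraMap F (KK a b) t := by
      ext <;> simp
    have h3 : bw y w = t := by
      apply algebraMap_injective (R := F) (a := -b) (b := a)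
      rw [coe_bw]
      simp only [w]
      rw [Algebra.smul_def, star_mul', star_div₀, star_sub, hst, hsD]
      have e5 : y * (algebraMap F (KK a b) t * ((star y - star y') / -D)) + algebraMap F (KK a b) t * ((y - y') / D) * star y =
        algebraMap F (KK a b) t * ((y * star y' - star y * y') / D) := by
        field_simp
        ring
      rw [e5, ← hDd, div_self hD, mul_one]
    have h4 : bw y' w = t := by
      apply algebraMap_injective (R := F) (a := -b) (b := a)
      rw [coe_bw]
      simp only [w]
      rw [Algebra.smul_def, star_mul', star_div₀, star_sub, hst, hsD]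
      have e5 : y' * (algebraMap F (KK a b) t * ((star y - star y') / -D)) + algebraMap F (KK a b) t * ((y - y') / D) * star y' =
        algebraMap F (KK a b) t * ((y * star y' - star y * y') / D) := by
        field_simp
        ring
      rw [e5, ← hDd, div_self hD, mul_one]
    have h5 : G y z = G y w := same2 (by rw [h3])
    have h6 : G y' z' = G y' w := same2 (by rw [h4, ← h])
    have h7 : G y w = G y' w := same1 (by rw [h3, h4])
    rw [h5, h6, h7]
  by_cases hy : y = 0
  · rw [h0 y z (by rw [hy, bw_zero_left]), h0 y' z' (by rw [← he, hy, bw_zero_left])]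
  by_cases hy' : y' = 0
  · rw [h0 y' z' (by rw [hy', bw_zero_left]), h0 y z (by rw [he, hy', bw_zero_left])]
  by_cases hd : y * star y' - star y * y' = 0
  · have hω : star (ω : KK a b) - ω ≠ 0 := sub_ne_zero.mpr (omega_ne_star (a := a) (b := b)).symm
    set y'' : KK a b := ω * y with hy''
    have hy0 : y'' ≠ 0 := by
      refine mul_ne_zero ?_ hy
      intro e
      have := congrArg QuadraticAlgebra.im e
      simp at this
    obtain ⟨z'', hz''⟩ := exists_bw hy0 (bw y z)
    have hs := star_ne_zero' hy
    have hs' := star_ne_zero' hy'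
    have d1 : y * star y'' - star y * y'' ≠ 0 := by
      have : y * star y'' - star y * y'' = (y * star y) * (star ω - ω) := by
        rw [hy'', star_mul']
        ring
      rw [this]
      exact mul_ne_zero (mul_ne_zero hy hs) hω
    have d2 : y' * star y'' - star y' * y'' ≠ 0 := by
      have e1 : y' * star y = star y' * y := by
        have := sub_eq_zero.mp hd
        linear_combination -this
      have : y' * star y'' - star y' * y'' = (y' * star y) * (star ω - ω) := by
        rw [hy'', star_mul']
        linear_combination ω * e1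
      rw [this]
      exact mul_ne_zero (mul_ne_zero hy' hs) hω
    rw [hD d1 hz''.symm, hD d2 (by rw [← he, hz''])]
  · exact hD hd he

end Field

end Cfsg.Agent.Lib.SpinM
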