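import Mathlib
import Cfsg.Agent.Lib.Classical.Orth.Generation
import Cfsg.Agent.Lib.Classical.Orth.Models
import Cfsg.Agent.Lib.SpinM.Kf

/-!
# The orthogonal group of minus type: root elements and monomial elements
-/

set_option autoImplicit false
set_option linter.unusedSectionVars false
set_option linter.unusedSimpArgs false
set_option linter.unusedVariables false

namespace Cfsg.Agent.Lib.SpinM

open Matrix QuadraticMap Equiv
open Cfsg.Agent.Lib.Classical.Orth.Basic
open Cfsg.Agent.Lib.Classical.Orth.Models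
open Cfsg.Agent.Lib.Classical.Orth.Siegel

variable {m : ℕ} {F : Type*} [Field F] {a b : F}

/-- The hyperbolic coordinates. -/
abbrev Ip (m : ℕ) := Fin m ⊕ Fin m
/-- All coordinates. -/
abbrev Cd (m : ℕ) := Ip m ⊕ Fin 2
/-- The names of the second coordinate of a root. -/
abbrev Kd (m : ℕ) := Unit ⊕ Ip m

/-- The isometry group. -/
noncomputable abbrev OO (m : ℕ) (a b : F) := ↥(Cfsg.isometryGroup F ⇑(minusForm m F a b))
/-- The commutator subgroup of the isometry group. -/
noncomputable abbrev Om (m : ℕ) (a b : F) : Subgroup (OO m a b) := Cfsg.Omega F ⇑(minusForm m F a b)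

set_option quotPrecheck false in
local notation "𝔣" => polar (⇑(minusForm m F a b))

/-- The basis vectors. -/
def ee (k : Cd m) : Cd m → F := Pi.single k 1

theorem ee_apply (k l : Cd m) : (ee k : Cd m → F) l = if l = k then 1 else 0 := by
  simp [ee, Pi.single_apply]

theorem ee_self (k : Cd m) : (ee k : Cd m → F) k = 1 := by simp [ee]

theorem ee_ne_zero (k : Cd m) : (ee k : Cd m → F) ≠ 0 := fun h => by
  have := congrFun h k
  rw [ee_self] at this
  exact one_ne_zero this

theorem eu_eq {u v : Ip m} (h : u = v) : (ee (.inl v) : Cd m → F) (.inl u) = 1 := by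
  rw [h, ee_self]

theorem eu_ne {u v : Ip m} (h : u ≠ v) : (ee (.inl v) : Cd m → F) (.inl u) = 0 := by
  rw [ee_apply, if_neg (fun e => h (Sum.inl_injective e))]

/-- The embedding of the extension in the space. -/
def emb (y : KK a b) : Cd m → F
  | .inl _ => 0
  | .inr i => if i = 0 then y.re else y.im

@[simp] theorem emb_inl (y : KK a b) (u : Ip m) : emb y (.inl u : Cd m) = 0 := rfl
@[simp] theorem emb_inr0 (y : KK a b) : emb y (.inr 0 : Cd m) = y.re := rfl
@[simp] theorem emb_inr1 (y : KK a b) : emb y (.inr 1 : Cd m) = y.im := rfl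

/-- The projection of the space on the extension. -/
def prW (x : Cd m → F) : KK a b := ⟨x (.inr 0), x (.inr 1)⟩

@[simp] theorem prW_re (x : Cd m → F) : (prW x : KK a b).re = x (.inr 0) := rfl
@[simp] theorem prW_im (x : Cd m → F) : (prW x : KK a b).im = x (.inr 1) := rfl

@[simp] theorem prW_emb (y : KK a b) : prW (emb y : Cd m → F) = y := by
  ext <;> simp

@[simp] theorem prW_eu (u : Ip m) : (prW (ee (.inl u) : Cd m → F) : KK a b) = 0 := by
  ext <;> simp [ee_apply]

@[simp] theorem prW_add (x z : Cd m → F) : (prW (x + z) : KK a b) = prW x + prW z := by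
  ext <;> simp

@[simp] theorem prW_sub (x z : Cd m → F) : (prW (x - z) : KK a b) = prW x - prW z := by
  ext <;> simp

@[simp] theorem prW_smul (t : F) (x : Cd m → F) : (prW (t • x) : KK a b) = t • prW x := by
  ext <;> simp

theorem emb_add (y z : KK a b) : (emb (y + z) : Cd m → F) = emb y + emb z := by
  funext k
  rcases k with u | i
  · simp
  · fin_cases i <;> simp

theorem emb_sub (y z : KK a b) : (emb (y - z) : Cd m → F) = emb y - emb z := by
  funext k
  rcases k with u | i
  · simp
  · fin_cases i <;> simp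

theorem emb_smul (t : F) (y : KK a b) : (emb (t • y) : Cd m → F) = t • emb y := by
  funext k
  rcases k with u | i
  · simp
  · fin_cases i <;> simp

theorem emb_neg (y : KK a b) : (emb (-y) : Cd m → F) = - emb y := by
  funext k
  rcases k with u | i
  · simp
  · fin_cases i <;> simp

theorem emb_zero : (emb (0 : KK a b) : Cd m → F) = 0 := by
  funext k
  rcases k with u | i
  · simp
  · fin_cases i <;> simp

theorem emb_inj {y z : KK a b} (h : (emb y : Cd m → F) = emb z) : y = z := by
  have := congrArg (prW (a := a) (b := b)) h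
  simpa using this

theorem emb_ne_zero {y : KK a b} (h : y ≠ 0) : (emb y : Cd m → F) ≠ 0 := fun e => h (by
  rw [← emb_zero (m := m)] at e
  exact emb_inj e)

/-! ### The form -/

theorem pol_eu (u : Ip m) (x : Cd m → F) : 𝔣 (ee (.inl u)) x = x (.inl u.swap) := by
  rw [coe_minusForm]
  rcases u with j | j
  · exact polar_minus_single_inl m a b j x
  · exact polar_minus_single_inr m a b j x

theorem pol_emb (y : KK a b) (x : Cd m → F) : 𝔣 (emb y) x = bw y (prW x) := by
  rw [coe_minusForm, polar_minus]
  simp only [emb_inl, zero_mul, mul_zero, add_zero, zero_add, Finset.sum_const_zero, emb_inr0, emb_inr1, bw, prW_re, prW_im]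
  ring

theorem Q_eu (u : Ip m) : minusForm m F a b (ee (.inl u)) = 0 := by
  rw [coe_minusForm_apply]
  rcases u with j | j
  · simp only [Cfsg.quadFormMinus, ee, Pi.single_apply]
    simp
  · simp only [Cfsg.quadFormMinus, ee, Pi.single_apply]
    simp

theorem Q_emb (y : KK a b) : minusForm m F a b (emb y) = NN' y := by
  rw [coe_minusForm_apply, N_def]
  simp only [Cfsg.quadFormMinus, emb_inl, zero_mul, Finset.sum_const_zero, zero_add, emb_inr0, emb_inr1]
  ring

/-- The form in terms of the hyperbolic coordinates and the anisotropic part. -/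
theorem Q_of_hyp {x : Cd m → F} (h : ∀ u : Ip m, x (.inl u) = 0) : minusForm m F a b x = NN' (prW x : KK a b) := by
  rw [coe_minusForm_apply, N_def]
  simp only [Cfsg.quadFormMinus, h, zero_mul, Finset.sum_const_zero, zero_add, prW_re, prW_im]
  ring

theorem pol_eu_long {u v : Ip m} (h : v ≠ u.swap) (t : F) : 𝔣 (ee (.inl u)) (t • ee (.inl v)) = 0 := by
  rw [pol_eu, Pi.smul_apply, eu_ne (Ne.symm h), smul_zero]

theorem pol_eu_emb (u : Ip m) (y : KK a b) : 𝔣 (ee (.inl u)) (emb y) = 0 := by
  rw [pol_eu, emb_inl]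

/-- The long root elements, as a total function. -/
noncomputable def XL (u v : Ip m) (t : F) : OO m a b :=
  if h : v ≠ u.swap then eichlerIso (Q_eu u) (pol_eu_long h t) else 1

/-- The short root elements. -/
noncomputable def XS (u : Ip m) (y : KK a b) : OO m a b := eichlerIso (Q_eu u) (pol_eu_emb u y)

theorem XL_of {u v : Ip m} (h : v ≠ u.swap) (t : F) :
    (XL u v t : OO m a b) = eichlerIso (Q_eu u) (pol_eu_long h t) := dif_pos h

theorem XL_not {u v : Ip m} (h : v = u.swap) (t : F) : (XL u v t : OO m a b) = 1 := by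
  unfold XL
  rw [dif_neg (not_not.mpr h)]

theorem act_XL {u v : Ip m} (h : v ≠ u.swap) (t : F) (x : Cd m → F) :
    act (XL u v t : OO m a b) x = x + (x (.inl u.swap) * t) • ee (.inl v) - (t * x (.inl v.swap)) • ee (.inl u) := by
  rw [XL_of h, act_eichlerIso, pol_eu, polar_smul_left', pol_eu, Q_smul, Q_eu]
  simp only [mul_zero, zero_mul, zero_smul, sub_zero]
  module

theorem act_XS (u : Ip m) (y : KK a b) (x : Cd m → F) :
    act (XS u y) x = x + x (.inl u.swap) • emb y - bw y (prW x) • ee (.inl u) - (NN' y * x (.inl u.swap)) • ee (.inl u) := by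
  rw [XS, act_eichlerIso, pol_eu, pol_emb, Q_emb]

theorem XL_add (u v : Ip m) (s t : F) : (XL u v (s + t) : OO m a b) = XL u v s * XL u v t := by
  by_cases h : v = u.swap
  · simp [XL_not h]
  · rw [XL_of h, XL_of h, XL_of h, eichlerIso_mul]
    apply Subtype.ext
    apply Units.ext
    show eichlerMatrix _ _ _ = eichlerMatrix _ _ _
    rw [add_smul]

theorem XL_zero (u v : Ip m) : (XL u v 0 : OO m a b) = 1 := by
  have := XL_add (a := a) (b := b) u v (0 : F) 0
  rw [add_zero] at this
  exact mul_eq_left.mp this.symm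

theorem XL_neg (u v : Ip m) (t : F) : (XL u v (-t) : OO m a b) = (XL u v t)⁻¹ := by
  apply eq_inv_of_mul_eq_one_left
  rw [← XL_add, neg_add_cancel, XL_zero]

theorem XS_add (u : Ip m) (y z : KK a b) : XS u (y + z) = XS u y * XS u z := by
  rw [XS, XS, XS, eichlerIso_mul]
  apply Subtype.ext
  apply Units.ext
  show eichlerMatrix _ _ _ = eichlerMatrix _ _ _
  rw [emb_add]

theorem XS_zero (u : Ip m) : XS u (0 : KK a b) = 1 := by
  have := XS_add u (0 : KK a b) 0
  rw [add_zero] at this
  exact mul_eq_left.mp this.symm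

theorem XS_neg (u : Ip m) (y : KK a b) : XS u (-y) = (XS u y)⁻¹ := by
  apply eq_inv_of_mul_eq_one_left
  rw [← XS_add, neg_add_cancel, XS_zero]

theorem XS_comm (u : Ip m) (y z : KK a b) : XS u y * XS u z = XS u z * XS u y := by
  rw [← XS_add, ← XS_add, add_comm]

/-- The symmetry of the names of long root elements. -/
theorem XL_symm {u v : Ip m} (h1 : v ≠ u.swap) (t : F) : (XL u v t : OO m a b) = XL v u (-t) := by
  have h3 : u ≠ v.swap := fun e => h1 (by rw [e, Sum.swap_swap])
  apply ext_act
  intro x
  rw [act_XL h1, act_XL h3]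
  module

theorem XL_self (u : Ip m) (t : F) : (XL u u t : OO m a b) = 1 := by
  have h : u ≠ u.swap := by rcases u with i | i <;> simp
  apply ext_act
  intro x
  rw [act_XL h, act_one]
  module

/-! ### Monomial isometries -/

/-- The action on all root names of a permutation of the hyperbolic coordinates. -/
def mkK (π : Perm (Ip m)) (k : Kd m) : Kd m := Sum.map id π k

@[simp] theorem mkK_inl (π : Perm (Ip m)) (x : Unit) : mkK π (.inl x) = .inl x := rfl
@[simp] theorem mkK_inr (π : Perm (Ip m)) (u : Ip m) : mkK π (.inr u) = .inr (π u) := rfl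

/-- Monomial isometries. -/
structure IsM (g : OO m a b) (π : Perm (Ip m)) (c : Ip m → F) (r : Perm (KK a b)) : Prop where
  inl : ∀ u, act g (ee (.inl u)) = c u • ee (.inl (π u))
  inr : ∀ y, act g (emb y) = emb (r y)

namespace IsM

variable {g g' : OO m a b} {π π' : Perm (Ip m)} {c c' : Ip m → F} {r r' : Perm (KK a b)}

theorem act_ne_zero (g : OO m a b) {x : Cd m → F} (hx : x ≠ 0) : act g x ≠ 0 := fun h => hx (by
  have := act_inv_act g x
  rw [h, act_zero] at this
  exact this.symm)

theorem ne (h : IsM g π c r) (u : Ip m) : c u ≠ 0 := fun h0 => by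
  have := h.inl u
  rw [h0, zero_smul] at this
  exact act_ne_zero g (ee_ne_zero _) this

theorem pol_rel (h : IsM g π c r) (u v : Ip m) :
    c u * c v * (if (π u).swap = π v then 1 else 0) = if u.swap = v then 1 else 0 := by
  have h1 := polar_act g (ee (.inl u) : Cd m → F) (ee (.inl v))
  rw [h.inl, h.inl, polar_smul_left', polar_smul_right', pol_eu, pol_eu, ee_apply, ee_apply] at h1
  simp only [Sum.inl.injEq] at h1
  rw [← mul_assoc] at h1
  exact h1

theorem swap_eq (h : IsM g π c r) (u : Ip m) : π u.swap = (π u).swap := by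
  have := h.pol_rel u u.swap
  rw [if_pos rfl] at this
  by_contra hne
  rw [if_neg (Ne.symm hne), mul_zero] at this
  exact zero_ne_one this

theorem mul_swap (h : IsM g π c r) (u : Ip m) : c u * c u.swap = 1 := by
  have := h.pol_rel u u.swap
  rw [if_pos rfl, if_pos (h.swap_eq u).symm, mul_one] at this
  exact this

theorem r_N (h : IsM g π c r) (y : KK a b) : NN' (r y) = NN' y := by
  have h1 := Q_act g (emb y : Cd m → F)
  rw [h.inr, Q_emb, Q_emb] at h1
  exact h1

theorem r_bw (h : IsM g π c r) (y z : KK a b) : bw (r y) (r z) = bw y z := by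
  have h1 := polar_act g (emb y : Cd m → F) (emb z)
  rw [h.inr, h.inr, pol_emb, pol_emb, prW_emb, prW_emb] at h1
  exact h1

theorem r_add (h : IsM g π c r) (y z : KK a b) : r (y + z) = r y + r z := by
  have h1 := h.inr (y + z)
  rw [emb_add, act_add, h.inr, h.inr, ← emb_add] at h1
  exact (emb_inj h1).symm

theorem r_smul (h : IsM g π c r) (t : F) (y : KK a b) : r (t • y) = t • r y := by
  have h1 := h.inr (t • y)
  rw [emb_smul, act_smul, h.inr, ← emb_smul] at h1
  exact (emb_inj h1).symm

theorem mul (h : IsM g π c r) (h' : IsM g' π' c' r') :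
    IsM (g * g') (π * π') (fun u => c' u * c (π' u)) (r * r') where
  inl u := by
    rw [act_mul, h'.inl, act_smul, h.inl, smul_smul]
    rfl
  inr y := by
    rw [act_mul, h'.inr, h.inr]
    rfl

theorem inv (h : IsM g π c r) : IsM g⁻¹ π⁻¹ (fun u => (c (π⁻¹ u))⁻¹) r⁻¹ where
  inl u := by
    have h1 := h.inl (π⁻¹ u)
    have e : π (π⁻¹ u) = u := by simp
    rw [e] at h1
    have h2 : ee (.inl u) = (c (π⁻¹ u))⁻¹ • act g (ee (.inl (π⁻¹ u))) := by
      rw [h1, smul_smul, inv_mul_cancel₀ (h.ne _), one_smul]
    rw [h2, act_smul, act_inv_act]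
  inr y := by
    have h1 := h.inr (r⁻¹ y)
    have e : r (r⁻¹ y) = y := by simp
    rw [e] at h1
    rw [← h1, act_inv_act]

theorem one : IsM (1 : OO m a b) 1 (fun _ => 1) 1 where
  inl u := by simp [act_one]
  inr y := by simp [act_one]

/-- Two monomial elements with the same permutation. -/
theorem div (h : IsM g π c r) (h' : IsM g' π c' r') :
    IsM (g * g'⁻¹) 1 (fun u => c (π⁻¹ u) / c' (π⁻¹ u)) (r * r'⁻¹) where
  inl u := by
    have h1 := h.mul h'.inv
    rw [h1.inl]
    simp [div_eq_mul_inv, mul_comm]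
  inr y := (h.mul h'.inv).inr y

end IsM

/-- Scaling in an Eichler transformation. -/
theorem eichler_smul {z z' x x' : Cd m → F} (c : F) (hz : minusForm m F a b z = 0) (hb : 𝔣 z x = 0)
    (hz' : minusForm m F a b z' = 0) (hb' : 𝔣 z' x' = 0) (e1 : z = c • z') (e2 : x' = c • x) :
    eichlerIso hz hb = eichlerIso hz' hb' := by
  apply ext_act
  intro w
  subst e1 e2
  rw [act_eichlerIso, act_eichlerIso, polar_smul_left', polar_smul_left', Q_smul]
  module

/-- Conjugation of a long root element by a monomial isometry. -/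
theorem IsM.conj_XL {g : OO m a b} {π : Perm (Ip m)} {c : Ip m → F} {r : Perm (KK a b)} (h : IsM g π c r) (u v : Ip m)
    (t : F) : g * XL u v t * g⁻¹ = XL (π u) (π v) (c u * c v * t) := by
  by_cases hk : v = u.swap
  · have e : π v = (π u).swap := by rw [hk, h.swap_eq]
    rw [XL_not hk, XL_not e]
    group
  · have hk' : π v ≠ (π u).swap := by
      intro e
      apply hk
      apply π.injective
      rw [e, h.swap_eq]
    rw [XL_of hk, XL_of hk', conj_eichlerIso]
    refine eichler_smul (c u) _ _ _ _ (h.inl u) ?_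
    rw [act_smul, h.inl, smul_smul, smul_smul]
    congr 1
    ring

/-- Conjugation of a short root element by a monomial isometry. -/
theorem IsM.conj_XS {g : OO m a b} {π : Perm (Ip m)} {c : Ip m → F} {r : Perm (KK a b)} (h : IsM g π c r) (u : Ip m)
    (y : KK a b) : g * XS u y * g⁻¹ = XS (π u) (c u • r y) := by
  rw [XS, XS, conj_eichlerIso]
  refine eichler_smul (c u) _ _ _ _ (h.inl u) ?_
  rw [h.inr, emb_smul]

/-- The root elements in a uniform notation. -/
noncomputable def XX (u : Ip m) (k : Kd m) (y : KK a b) : OO m a b :=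
  Sum.elim (fun _ => XS u y) (fun v => XL u v y.re) k

@[simp] theorem XX_inl (u : Ip m) (x : Unit) (y : KK a b) : XX u (.inl x) y = XS u y := rfl
@[simp] theorem XX_inr (u v : Ip m) (y : KK a b) : XX u (.inr v) y = XL u v y.re := rfl

/-- Validity of a name of a root. -/
def Val (u : Ip m) (k : Kd m) : Prop := k ≠ .inr u ∧ k ≠ .inr u.swap

theorem XX_add (u : Ip m) (k : Kd m) (y z : KK a b) : XX u k (y + z) = XX u k y * XX u k z := by
  rcases k with ⟨⟩ | v
  · exact XS_add u y z
  · simp only [XX_inr, QuadraticAlgebra.re_add]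
    exact XL_add u v _ _

end Cfsg.Agent.Lib.SpinM
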