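import Mathlib
import Cfsg.Agent.Lib.SpinM.Real

/-!
# The orthogonal group of minus type: Weyl elements, torus elements
-/

set_option autoImplicit false
set_option linter.unusedSectionVars false
set_option linter.unusedSimpArgs false
set_option linter.unusedVariables false

namespace Cfsg.Agent.Lib.SpinM

open Matrix QuadraticMap Equiv
open Cfsg.Agent.Lib.Classical.Orth.Basic
open Cfsg.Agent.Lib.Classical.Orth.Models
open Cfsg.Agent.Lib.Classical.Orth.Siegel
open Cfsg.Agent.Lib.Classical.Orth.Generation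

variable {m : ℕ} {F : Type*} [Field F] {a b : F}

set_option quotPrecheck false in
local notation "𝔣" => polar (⇑(minusForm m F a b))

theorem swap_ne (u : Ip m) : u.swap ≠ u := by
  rcases u with i | i <;> simp

theorem swap_ne' (u : Ip m) : u ≠ u.swap := (swap_ne u).symm

theorem swap_inj {u v : Ip m} (h : u.swap = v.swap) : u = v := by
  have := congrArg Sum.swap h
  simpa using this

/-- The Weyl elements of the long roots. -/
noncomputable def NL (u v : Ip m) (s : F) : OO m a b := XL u v s * XL u.swap v.swap s⁻¹ * XL u v s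

section Long

variable {u v : Ip m} (huv : u ≠ v) (huv' : u ≠ v.swap)

include huv huv'

theorem v1 : v ≠ u.swap := fun e => huv' (by rw [e, Sum.swap_swap])

theorem actL1 (t : F) : act (XL u v t : OO m a b) (ee (.inl u)) = ee (.inl u) := by
  rw [act_XL (v1 huv huv'), eu_ne (swap_ne u), eu_ne (Ne.symm huv')]
  simp

theorem actL2 (t : F) : act (XL u v t : OO m a b) (ee (.inl v.swap)) = ee (.inl v.swap) - t • ee (.inl u) := by
  rw [act_XL (v1 huv huv'), eu_ne (fun e => huv (swap_inj e)), ee_self]
  simp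

theorem actL3 (t : F) : act (XL u v t : OO m a b) (ee (.inl v)) = ee (.inl v) := by
  rw [act_XL (v1 huv huv'), eu_ne (Ne.symm (v1 huv huv')), eu_ne (swap_ne v)]
  simp

theorem actL4 (t : F) : act (XL u v t : OO m a b) (ee (.inl u.swap)) = ee (.inl u.swap) + t • ee (.inl v) := by
  rw [act_XL (v1 huv huv'), ee_self, eu_ne (fun e => huv (swap_inj e).symm)]
  simp

theorem actL5 (t : F) {l : Ip m} (h1 : l ≠ u.swap) (h2 : l ≠ v.swap) :
    act (XL u v t : OO m a b) (ee (.inl l)) = ee (.inl l) := by
  rw [act_XL (v1 huv huv'), eu_ne (Ne.symm h1), eu_ne (Ne.symm h2)]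
  simp

theorem actL6 (t : F) (y : KK a b) : act (XL u v t : OO m a b) (emb y) = emb y := by
  rw [act_XL (v1 huv huv'), emb_inl, emb_inl]
  simp

/-- The permutation of the long Weyl element. -/
noncomputable def piL (u v : Ip m) : Perm (Ip m) := swap u v.swap * swap v u.swap

/-- The coefficients of the long Weyl element. -/
noncomputable def cL (u v : Ip m) (s : F) : Ip m → F := fun w =>
  if w = u then s⁻¹ else if w = v.swap then -s else if w = v then -s⁻¹ else if w = u.swap then s else 1

omit huv huv'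

theorem bne1 (huv : u ≠ v) : u.swap ≠ v.swap := fun e => huv (swap_inj e)
theorem bne2 (huv' : u ≠ v.swap) : v ≠ u.swap := fun e => huv' (by rw [e, Sum.swap_swap])

include huv huv'

theorem piL_u : piL u v u = v.swap := by
  rw [piL, Perm.mul_apply, swap_apply_of_ne_of_ne huv (swap_ne' u), swap_apply_left]

theorem piL_vb : piL u v v.swap = u := by
  rw [piL, Perm.mul_apply, swap_apply_of_ne_of_ne (swap_ne v) (bne1 huv).symm, swap_apply_right]

theorem piL_v : piL u v v = u.swap := by
  rw [piL, Perm.mul_apply, swap_apply_left, swap_apply_of_ne_of_ne (swap_ne u) (bne1 huv)]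

theorem piL_ub : piL u v u.swap = v := by
  rw [piL, Perm.mul_apply, swap_apply_right, swap_apply_of_ne_of_ne huv.symm (swap_ne' v)]

theorem piL_o {w : Ip m} (h1 : w ≠ u) (h2 : w ≠ v.swap) (h3 : w ≠ v) (h4 : w ≠ u.swap) : piL u v w = w := by
  rw [piL, Perm.mul_apply, swap_apply_of_ne_of_ne h3 h4, swap_apply_of_ne_of_ne h1 h2]

theorem piL_inv : (piL u v)⁻¹ = piL u v := by
  apply inv_eq_of_mul_eq_one_left
  ext w
  simp only [Perm.mul_apply, Perm.one_apply]
  by_cases h1 : w = u
  · subst h1; rw [piL_u huv huv', piL_vb huv huv']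
  by_cases h2 : w = v.swap
  · subst h2; rw [piL_vb huv huv', piL_u huv huv']
  by_cases h3 : w = v
  · subst h3; rw [piL_v huv huv', piL_ub huv huv']
  by_cases h4 : w = u.swap
  · subst h4; rw [piL_ub huv huv', piL_v huv huv']
  rw [piL_o huv huv' h1 h2 h3 h4, piL_o huv huv' h1 h2 h3 h4]

theorem cL_u (s : F) : cL u v s u = s⁻¹ := by simp [cL]
theorem cL_vb (s : F) : cL u v s v.swap = -s := by simp [cL, huv'.symm]
theorem cL_v (s : F) : cL u v s v = -s⁻¹ := by
  simp [cL, huv.symm, (swap_ne v).symm]
theorem cL_ub (s : F) : cL u v s u.swap = s := by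
  simp [cL, swap_ne u, (bne1 huv), (bne2 huv').symm]
theorem cL_o (s : F) {w : Ip m} (h1 : w ≠ u) (h2 : w ≠ v.swap) (h3 : w ≠ v) (h4 : w ≠ u.swap) : cL u v s w = 1 := by
  simp [cL, h1, h2, h3, h4]

theorem isM_NL {s : F} (hs : s ≠ 0) : IsM (NL u v s : OO m a b) (piL u v) (cL u v s) 1 := by
  have hst : s * s⁻¹ = 1 := mul_inv_cancel₀ hs
  have hu' : u.swap ≠ v := (bne2 huv').symm
  have hu'' : u.swap ≠ v.swap.swap := by rwa [Sum.swap_swap]
  have b1 := actL1 (a := a) (b := b) (u := u.swap) (v := v.swap) (bne1 huv) hu'' s⁻¹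
  have b2 := actL2 (a := a) (b := b) (u := u.swap) (v := v.swap) (bne1 huv) hu'' s⁻¹
  have b3 := actL3 (a := a) (b := b) (u := u.swap) (v := v.swap) (bne1 huv) hu'' s⁻¹
  have b4 := actL4 (a := a) (b := b) (u := u.swap) (v := v.swap) (bne1 huv) hu'' s⁻¹
  simp only [Sum.swap_swap] at b2 b4
  have a1 := actL1 (a := a) (b := b) huv huv' s
  have a2 := actL2 (a := a) (b := b) huv huv' s
  have a3 := actL3 (a := a) (b := b) huv huv' s
  have a4 := actL4 (a := a) (b := b) huv huv' s
  constructor
  · intro w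
    simp only [NL, act_mul]
    by_cases h1 : w = u
    · subst h1
      rw [cL_u huv huv', piL_u huv huv', a1, b4, act_add, act_smul, a1, a2]
      have e : (ee (.inl w) + s⁻¹ • (ee (.inl v.swap) - s • ee (.inl w)) : Cd m → F) =
          (1 - s * s⁻¹) • ee (.inl w) + s⁻¹ • ee (.inl v.swap) := by module
      rw [e, hst]
      simp
    by_cases h2 : w = v.swap
    · subst h2
      rw [cL_vb huv huv', piL_vb huv huv', a2, act_sub, act_smul, b3, b4, act_sub, act_smul, act_add, act_smul, a2, a1]
      have e : (ee (.inl v.swap) - s • ee (.inl u) - s • (ee (.inl u) + s⁻¹ • (ee (.inl v.swap) - s • ee (.inl u))) : Cd m → F) =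
          (1 - s * s⁻¹) • ee (.inl v.swap) + (-(2 * s) + s * (s * s⁻¹)) • ee (.inl u) := by module
      rw [e, hst]
      have e2 : -(2 * s) + s * 1 = -s := by ring
      rw [e2]
      simp
    by_cases h3 : w = v
    · subst h3
      rw [cL_v huv huv', piL_v huv huv', a3, b2, act_sub, act_smul, a3, a4]
      have e : (ee (.inl w) - s⁻¹ • (ee (.inl u.swap) + s • ee (.inl w)) : Cd m → F) =
          (1 - s * s⁻¹) • ee (.inl w) + (-s⁻¹) • ee (.inl u.swap) := by module
      rw [e, hst]
      simp
    by_cases h4 : w = u.swap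
    · subst h4
      rw [cL_ub huv huv', piL_ub huv huv', a4, act_add, act_smul, b1, b2, act_add, act_smul, act_sub, act_smul, a4, a3]
      have e : (ee (.inl u.swap) + s • ee (.inl v) + s • (ee (.inl v) - s⁻¹ • (ee (.inl u.swap) + s • ee (.inl v))) : Cd m → F) =
          (1 - s * s⁻¹) • ee (.inl u.swap) + (2 * s - s * (s * s⁻¹)) • ee (.inl v) := by module
      rw [e, hst]
      have e2 : 2 * s - s * 1 = s := by ring
      rw [e2]
      simp
    · have n3 : w ≠ u.swap.swap := by
        rw [Sum.swap_swap]; exact h1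
      have n4 : w ≠ v.swap.swap := by
        rw [Sum.swap_swap]; exact h3
      rw [cL_o huv huv' s h1 h2 h3 h4, piL_o huv huv' h1 h2 h3 h4, actL5 huv huv' s h4 h2,
        actL5 (bne1 huv) hu'' s⁻¹ n3 n4, actL5 huv huv' s h4 h2, one_smul]
  · intro y
    simp only [NL, act_mul]
    rw [actL6 huv huv', actL6 (bne1 huv) hu'', actL6 huv huv']
    rfl

/-- The torus elements attached to long roots. -/
noncomputable def HL (u v : Ip m) (s : F) : OO m a b := NL u v s * (NL u v 1)⁻¹

/-- The coefficients of the torus elements attached to long roots. -/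
noncomputable def dL (u v : Ip m) (s : F) : Ip m → F := fun w =>
  if w = u ∨ w = v then s else if w = u.swap ∨ w = v.swap then s⁻¹ else 1

theorem isM_HL {s : F} (hs : s ≠ 0) : IsM (HL u v s : OO m a b) 1 (dL u v s) 1 := by
  have h1 := (isM_NL (a := a) (b := b) huv huv' hs).div (isM_NL (a := a) (b := b) huv huv' (one_ne_zero (α := F)))
  have e0 : (1 : Perm (KK a b)) * 1⁻¹ = 1 := by simp
  rw [e0] at h1
  have e : (fun w => cL u v s ((piL u v)⁻¹ w) / cL u v (1 : F) ((piL u v)⁻¹ w)) = dL u v s := by
    funext w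
    rw [piL_inv huv huv']
    by_cases h1 : w = u
    · subst h1
      rw [piL_u huv huv', cL_vb huv huv', cL_vb huv huv']
      simp [dL]
    by_cases h3 : w = v
    · subst h3
      rw [piL_v huv huv', cL_ub huv huv', cL_ub huv huv']
      simp [dL]
    by_cases h4 : w = u.swap
    · subst h4
      rw [piL_ub huv huv', cL_v huv huv', cL_v huv huv']
      simp [dL, swap_ne u, bne2 huv', h3]
    by_cases h2 : w = v.swap
    · subst h2
      rw [piL_vb huv huv', cL_u huv huv', cL_u huv huv']
      simp [dL, h1, h3]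
    · rw [piL_o huv huv' h1 h2 h3 h4, cL_o huv huv' s h1 h2 h3 h4, cL_o huv huv' 1 h1 h2 h3 h4]
      simp [dL, h1, h2, h3, h4]
  rw [e] at h1
  exact h1

end Long

section Short

variable [Fact (∀ r : F, r ^ 2 ≠ -b + a * r)] (u : Ip m)

/-- The Weyl elements of the short roots. -/
noncomputable def NS (u : Ip m) (y : KK a b) : OO m a b := XS u y * XS u.swap (iv y) * XS u y

theorem actS1 (y : KK a b) : act (XS u y) (ee (.inl u)) = ee (.inl u) := by
  rw [act_XS, eu_ne (swap_ne u), prW_eu, bw_zero_right]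
  simp

theorem actS2 (y z : KK a b) : act (XS u y) (emb z) = emb z - bw y z • ee (.inl u) := by
  rw [act_XS, emb_inl, prW_emb]
  simp

theorem actS3 (y : KK a b) :
    act (XS u y) (ee (.inl u.swap)) = ee (.inl u.swap) + emb y - NN' y • ee (.inl u) := by
  rw [act_XS, ee_self, prW_eu, bw_zero_right]
  simp

theorem actS4 (y : KK a b) {l : Ip m} (h1 : l ≠ u.swap) : act (XS u y) (ee (.inl l)) = ee (.inl l) := by
  rw [act_XS, eu_ne (Ne.symm h1), prW_eu, bw_zero_right]
  simp

/-- The coefficients of the short Weyl element. -/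
noncomputable def cS (u : Ip m) (y : KK a b) : Ip m → F := fun w =>
  if w = u then -(NN' y)⁻¹ else if w = u.swap then - NN' y else 1

theorem cS_u (y : KK a b) : cS u y u = -(NN' y)⁻¹ := by simp [cS]
theorem cS_ub (y : KK a b) : cS u y u.swap = - NN' y := by simp [cS, swap_ne u]
theorem cS_o (y : KK a b) {w : Ip m} (h1 : w ≠ u) (h2 : w ≠ u.swap) : cS u y w = 1 := by simp [cS, h1, h2]

theorem isM_NS {y : KK a b} (hy : y ≠ 0) : IsM (NS u y) (swap u u.swap) (cS u y) (tauP y) := by
  have hn := N_ne_zero hy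
  have hiv : (emb (iv y) : Cd m → F) = (NN' y)⁻¹ • emb y := by rw [iv, emb_smul]
  have a1 := actS1 u y
  have a2 := actS2 u y
  have a3 := actS3 u y
  have b1 := actS1 u.swap (iv y)
  have b2 := actS2 u.swap (iv y)
  have b3 := actS3 u.swap (iv y)
  rw [Sum.swap_swap, N_iv, hiv] at b3
  have c1 : bw y (iv y) = 2 := bw_iv hy
  have c2 : bw (iv y) y = 2 := by rw [bw_comm, c1]
  have c3 : ∀ z, bw (iv y) z = (NN' y)⁻¹ * bw y z := bw_iv_left y
  have a2y : act (XS u y) (emb y) = emb y - (2 * NN' y) • ee (.inl u) := by rw [a2, bw_self]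
  set n := NN' y with hnd
  have hst : n⁻¹ * n = 1 := inv_mul_cancel₀ hn
  constructor
  · intro w
    simp only [NS, act_mul]
    by_cases h1 : w = u
    · subst h1
      rw [cS_u, swap_apply_left, a1, b3, act_sub, act_add, act_smul, act_smul, a1, a2y, a3, ← hnd]
      calc _ = (1 - 2 * (n⁻¹ * n) + n⁻¹ * n) • ee (.inl w) + (- n⁻¹) • ee (.inl w.swap) := by module
        _ = _ := by
          rw [hst]
          norm_num
    by_cases h2 : w = u.swap
    · subst h2
      have e1 : act (XS u.swap (iv y)) (act (XS u y) (ee (.inl u.swap))) = (-n) • ee (.inl u) := by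
        rw [a3, act_sub, act_add, act_smul, b1, b2, b3, c2]
        calc _ = (1 - 2 + n * n⁻¹) • ee (.inl u.swap) + (1 - n * n⁻¹) • emb y + (- n) • ee (.inl u) := by module
          _ = _ := by
            rw [mul_inv_cancel₀ hn]
            norm_num
      rw [cS_ub, swap_apply_right, e1, act_smul, a1]
    · rw [cS_o u y h1 h2, swap_apply_of_ne_of_ne h1 h2, one_smul, actS4 u y h2,
        actS4 u.swap (iv y) (l := w) (by rwa [Sum.swap_swap]), actS4 u y h2]
  · intro z
    simp only [NS, act_mul]
    set t := bw y z with ht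
    have e1 : act (XS u.swap (iv y)) (act (XS u y) (emb z)) = emb z - t • ee (.inl u) - (t * n⁻¹) • emb y := by
      rw [a2, act_sub, act_smul, b2, b3, c3]
      rw [← ht]
      module
    rw [e1, act_sub, act_sub, act_smul, act_smul, a1, a2, a2y, ← ht, tauP_apply, ← hnd, emb_sub, emb_smul, ← ht]
    calc _ = emb z + ((t * n⁻¹ * n - t) * 2) • ee (.inl u) - (t * n⁻¹) • emb y := by module
      _ = _ := by
        have : t * n⁻¹ * n - t = 0 := by
          rw [mul_assoc, hst]
          ring
        rw [this, mul_comm t]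
        simp

/-- The torus elements attached to short roots. -/
noncomputable def HS (u : Ip m) (y : KK a b) : OO m a b := NS u y * (NS u 1)⁻¹

/-- The coefficients of the torus elements attached to short roots. -/
noncomputable def dS (u : Ip m) (y : KK a b) : Ip m → F := fun w =>
  if w = u then NN' y else if w = u.swap then (NN' y)⁻¹ else 1

theorem isM_HS {y : KK a b} (hy : y ≠ 0) : IsM (HS u y) 1 (dS u y) (rotP y hy) := by
  have h1 := (isM_NS u hy).div (isM_NS u (one_ne_zero (α := KK a b)))
  rw [rot_eq hy] at h1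
  have e : (fun w => cS u y ((swap u u.swap)⁻¹ w) / cS u (1 : KK a b) ((swap u u.swap)⁻¹ w)) = dS u y := by
    funext w
    rw [swap_inv]
    by_cases h1 : w = u
    · subst h1
      rw [swap_apply_left]
      simp [cS, dS, swap_ne w, N_one]
    by_cases h2 : w = u.swap
    · subst h2
      rw [swap_apply_right]
      simp [cS, dS, swap_ne u, N_one]
    · rw [swap_apply_of_ne_of_ne h1 h2]
      simp [cS, dS, h1, h2]
  rw [e] at h1
  exact h1

end Short

end Cfsg.Agent.Lib.SpinM
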