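import Mathlib
import Cfsg.Agent.Lib.SpinM.Real2

/-!
# The orthogonal group of minus type: generation by the coordinate root elements
-/

set_option autoImplicit false
set_option linter.unusedSectionVars false
set_option linter.unusedSimpArgs false
set_option linter.unusedVariables false

namespace Cfsg.Agent.Lib.SpinM

open Matrix QuadraticMap Equiv
open Cfsg.Agent.Lib.Classical.Orth.Basic
open Cfsg.Agent.Lib.Classical.Orth.Models
open Cfsg.Agent.Lib.Classical.Orth.Siegel
open Cfsg.Agent.Lib.Classical.Orth.Generation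

variable {m : ℕ} {F : Type*} [Field F] {a b : F} [Fact (∀ r : F, r ^ 2 ≠ -b + a * r)]

set_option quotPrecheck false in
local notation "𝔣" => polar (⇑(minusForm m F a b))

theorem card_Cd (hm : 2 ≤ m) : 5 ≤ Fintype.card (Cd m) := by
  simp only [Fintype.card_sum, Fintype.card_fin]
  omega

/-- The anisotropy. -/
theorem hab_of_fact (a b : F) [Fact (∀ r : F, r ^ 2 ≠ -b + a * r)] :
    ∀ z₁ z₂ : F, z₁ ^ 2 + a * z₁ * z₂ + b * z₂ ^ 2 = 0 → z₁ = 0 ∧ z₂ = 0 := by
  intro z₁ z₂ h
  have h1 : NN' (⟨z₁, z₂⟩ : KK a b) = 0 := by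
    rw [N_def]
    simp only
    linear_combination h
  have h2 := N_eq_zero.mp h1
  exact ⟨congrArg QuadraticAlgebra.re h2, congrArg QuadraticAlgebra.im h2⟩

theorem nondeg [Fintype F] (m : ℕ) (a b : F) [Fact (∀ r : F, r ^ 2 ≠ -b + a * r)] :
    (polarBilin (minusForm m F a b)).Nondegenerate :=
  minusForm_nondegenerate m a b (hab_of_fact a b)

theorem XL_mem [Fintype F] (hm : 2 ≤ m) (u v : Ip m) (t : F) : (XL u v t : OO m a b) ∈ Om m a b := by
  by_cases h : v = u.swap
  · rw [XL_not h]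
    exact one_mem _
  · rw [XL_of h]
    exact eichler_mem_omega (nondeg m a b) (card_Cd hm) _ _

theorem XS_mem [Fintype F] (hm : 2 ≤ m) (u : Ip m) (y : KK a b) : XS u y ∈ Om m a b :=
  eichler_mem_omega (nondeg m a b) (card_Cd hm) _ _

theorem XX_mem [Fintype F] (hm : 2 ≤ m) (u : Ip m) (k : Kd m) (y : KK a b) : XX u k y ∈ Om m a b := by
  rcases k with ⟨⟩ | v
  · exact XS_mem hm u y
  · exact XL_mem hm u v _

theorem NL_mem [Fintype F] (hm : 2 ≤ m) (u v : Ip m) (s : F) : (NL u v s : OO m a b) ∈ Om m a b :=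
  mul_mem (mul_mem (XL_mem hm _ _ _) (XL_mem hm _ _ _)) (XL_mem hm _ _ _)

theorem NS_mem [Fintype F] (hm : 2 ≤ m) (u : Ip m) (y : KK a b) : NS u y ∈ Om m a b :=
  mul_mem (mul_mem (XS_mem hm _ _) (XS_mem hm _ _)) (XS_mem hm _ _)

theorem HL_mem [Fintype F] (hm : 2 ≤ m) (u v : Ip m) (s : F) : (HL u v s : OO m a b) ∈ Om m a b :=
  mul_mem (NL_mem hm _ _ _) (inv_mem (NL_mem hm _ _ _))

theorem HS_mem [Fintype F] (hm : 2 ≤ m) (u : Ip m) (y : KK a b) : HS u y ∈ Om m a b :=
  mul_mem (NS_mem hm _ _) (inv_mem (NS_mem hm _ _))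

/-- The subgroup generated by the root elements. -/
noncomputable def LL (m : ℕ) (a b : F) : Subgroup (OO m a b) :=
  Subgroup.closure ({g | ∃ u v t, g = XL u v t} ∪ {g | ∃ u y, g = XS u y})

theorem XL_mem_LL (u v : Ip m) (t : F) : (XL u v t : OO m a b) ∈ LL m a b :=
  Subgroup.subset_closure (Or.inl ⟨u, v, t, rfl⟩)

theorem XS_mem_LL (u : Ip m) (y : KK a b) : XS u y ∈ LL m a b :=
  Subgroup.subset_closure (Or.inr ⟨u, y, rfl⟩)

theorem clear_coords {z : Cd m → F} {p : Ip m} (hp : z (.inl p) ≠ 0) (S : Finset (Ip m))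
    (hS : ∀ k ∈ S, k ≠ p.swap ∧ k ≠ p) :
    ∃ l ∈ LL m a b, (act l z) (.inl p) = z (.inl p) ∧ (∀ k ∈ S, (act l z) (.inl k) = 0) := by
  classical
  induction S using Finset.induction_on with
  | empty => exact ⟨1, one_mem _, by rw [act_one], by simp⟩
  | insert k₀ S hk₀ ih =>
    obtain ⟨l, hl, h1, h2⟩ := ih (fun k hk => hS k (Finset.mem_insert_of_mem hk))
    obtain ⟨hk1, hk2⟩ := hS k₀ (Finset.mem_insert_self _ _)
    set w := act l z with hw
    have hv : k₀ ≠ p.swap.swap := by rwa [Sum.swap_swap]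
    set t : F := -(w (.inl k₀)) / w (.inl p) with ht
    have hw0 : w (.inl p) ≠ 0 := by rw [h1]; exact hp
    have hpne : p ≠ p.swap := swap_ne' p
    refine ⟨XL p.swap k₀ t * l, mul_mem (XL_mem_LL _ _ _) hl, ?_, ?_⟩
    · rw [act_mul, ← hw, act_XL hv]
      simp only [Pi.add_apply, Pi.sub_apply, Pi.smul_apply, smul_eq_mul, Sum.swap_swap]
      rw [eu_ne (Ne.symm hk2), eu_ne hpne, h1]
      ring
    · intro k hk
      rw [act_mul, ← hw, act_XL hv]
      simp only [Pi.add_apply, Pi.sub_apply, Pi.smul_apply, smul_eq_mul, Sum.swap_swap]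
      rcases Finset.mem_insert.mp hk with rfl | hk'
      · rw [ee_self, eu_ne hk1]
        have : w (.inl p) * t * 1 = -(w (.inl k)) := by
          rw [ht]
          field_simp
        rw [this]
        ring
      · obtain ⟨hk3, hk4⟩ := hS k (Finset.mem_insert_of_mem hk')
        rw [h2 k hk', eu_ne (fun e : k = k₀ => hk₀ (e ▸ hk')), eu_ne hk3]
        ring

theorem exists_to_basis {z : Cd m → F} (hz : minusForm m F a b z = 0) (hz0 : z ≠ 0) :
    ∃ l ∈ LL m a b, ∃ p : Ip m, ∃ c : F, act l z = c • ee (.inl p) := by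
  classical
  obtain ⟨p, hp⟩ : ∃ p : Ip m, z (.inl p) ≠ 0 := by
    by_contra hcon
    push Not at hcon
    apply hz0
    have h1 := Q_of_hyp (a := a) (b := b) hcon
    rw [hz] at h1
    have h2 : (prW z : KK a b) = 0 := N_eq_zero.mp h1.symm
    have h3 : z (.inr 0) = 0 := congrArg QuadraticAlgebra.re h2
    have h4 : z (.inr 1) = 0 := congrArg QuadraticAlgebra.im h2
    funext k
    rcases k with u | i
    · exact hcon u
    · fin_cases i
      · exact h3
      · exact h4
  obtain ⟨l₀, hl₀, h1, h2⟩ := clear_coords (a := a) (b := b) hp (Finset.univ.filter fun k : Ip m => k ≠ p.swap ∧ k ≠ p)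
    (fun k hk => by simpa using hk)
  set w₀ := act l₀ z with hw₀
  have hw00 : w₀ (.inl p) ≠ 0 := by rw [h1]; exact hp
  set y : KK a b := (-(w₀ (.inl p))⁻¹) • prW w₀ with hy
  refine ⟨XS p.swap y * l₀, mul_mem (XS_mem_LL _ _) hl₀, p, z (.inl p), ?_⟩
  rw [act_mul, ← hw₀]
  set w := act (XS p.swap y) w₀ with hw
  have hwv : w = w₀ + w₀ (.inl p) • emb y - bw y (prW w₀) • ee (.inl p.swap) - (NN' y * w₀ (.inl p)) • ee (.inl p.swap) := by
    rw [hw, act_XS, Sum.swap_swap]
  have h3 : ∀ k : Ip m, k ≠ p.swap → w (.inl k) = w₀ (.inl k) := by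
    intro k hk
    rw [hwv]
    simp only [Pi.add_apply, Pi.sub_apply, Pi.smul_apply, smul_eq_mul, emb_inl]
    rw [eu_ne hk]
    ring
  have h4 : (prW w : KK a b) = 0 := by
    rw [hwv]
    simp only [prW_sub, prW_add, prW_smul, prW_emb, prW_eu, smul_zero, sub_zero]
    rw [hy, smul_smul]
    have : w₀ (.inl p) * -(w₀ (.inl p))⁻¹ = -1 := by
      field_simp
    rw [this]
    simp
  have e : w = w (.inl p.swap) • ee (.inl p.swap) + w (.inl p) • ee (.inl p) := by
    funext k
    rcases k with k | i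
    · simp only [Pi.add_apply, Pi.smul_apply, smul_eq_mul]
      by_cases h5 : k = p.swap
      · subst h5
        rw [ee_self, eu_ne (swap_ne p)]
        ring
      by_cases h6 : k = p
      · subst h6
        rw [ee_self, eu_ne (swap_ne' k)]
        ring
      · rw [h3 k h5, h2 k (by simp [h5, h6]), eu_ne h5, eu_ne h6]
        ring
    · have h5 : w (.inr i) = 0 := by
        fin_cases i
        · exact congrArg QuadraticAlgebra.re h4
        · exact congrArg QuadraticAlgebra.im h4
      simp only [Pi.add_apply, Pi.smul_apply, smul_eq_mul, ee_apply]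
      rw [h5]
      simp
  have hq : minusForm m F a b w = 0 := by rw [hw, Q_act, hw₀, Q_act, hz]
  have hq2 : minusForm m F a b w = w (.inl p.swap) * w (.inl p) := by
    conv_lhs => rw [e]
    rw [Q_add, Q_smul, Q_smul, Q_eu, Q_eu, polar_smul_left', polar_smul_right', pol_eu, Sum.swap_swap, ee_self]
    ring
  have hpp : w (.inl p) = z (.inl p) := by
    rw [h3 p (swap_ne' p), h1]
  have h0 : w (.inl p) ≠ 0 := by rw [hpp]; exact hp
  have h5 : w (.inl p.swap) = 0 := by
    rw [hq] at hq2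
    exact (mul_eq_zero.mp hq2.symm).resolve_right h0
  rw [e, h5, hpp]
  simp

theorem eich_sum_mem (p : Ip m) (S : Finset (Ip m)) (hS : ∀ k ∈ S, k ≠ p.swap) (f : Ip m → F)
    (h : 𝔣 (ee (.inl p)) (∑ k ∈ S, f k • ee (.inl k)) = 0) : eichlerIso (Q_eu p) h ∈ LL m a b := by
  classical
  induction S using Finset.induction_on with
  | empty =>
    have : eichlerIso (Q_eu p) h = 1 := by
      apply Subtype.ext
      apply Units.ext
      show eichlerMatrix _ _ _ = 1
      rw [Finset.sum_empty, eichlerMatrix_zero]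
    rw [this]
    exact one_mem _
  | insert k₀ S hk₀ ih =>
    have h1 : 𝔣 (ee (.inl p)) (f k₀ • ee (.inl k₀)) = 0 := pol_eu_long (hS k₀ (Finset.mem_insert_self _ _)) _
    have h2 : 𝔣 (ee (.inl p)) (∑ k ∈ S, f k • ee (.inl k)) = 0 := by
      rw [Finset.sum_insert hk₀, polar_add_right, h1, zero_add] at h
      exact h
    have e : eichlerIso (Q_eu p) h = eichlerIso (Q_eu p) h1 * eichlerIso (Q_eu p) h2 := by
      rw [eichlerIso_mul]
      apply Subtype.ext
      apply Units.ext
      show eichlerMatrix _ _ _ = eichlerMatrix _ _ _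
      rw [Finset.sum_insert hk₀]
    rw [e, ← XL_of (hS k₀ (Finset.mem_insert_self _ _))]
    exact mul_mem (XL_mem_LL _ _ _) (ih (fun k hk => hS k (Finset.mem_insert_of_mem hk)) h2)

theorem eich_mem (p : Ip m) {x : Cd m → F} (h : 𝔣 (ee (.inl p)) x = 0) : eichlerIso (Q_eu p) h ∈ LL m a b := by
  classical
  have hb : x (.inl p.swap) = 0 := by rwa [pol_eu] at h
  set S := Finset.univ.erase p.swap with hS
  have e : x = (∑ k ∈ S, x (.inl k) • ee (.inl k)) + (emb (prW x : KK a b) : Cd m → F) := by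
    funext k₀
    rw [Pi.add_apply, Finset.sum_apply]
    rcases k₀ with k₀ | i
    · simp only [Pi.smul_apply, smul_eq_mul, ee_apply, mul_ite, mul_one, mul_zero, emb_inl, add_zero, Sum.inl.injEq]
      rw [Finset.sum_ite_eq]
      by_cases h3 : k₀ = p.swap
      · subst h3
        simp [hS, hb]
      · simp [hS, h3]
    · simp only [Pi.smul_apply, smul_eq_mul, ee_apply, reduceCtorEq, if_false, mul_zero, Finset.sum_const_zero, zero_add]
      fin_cases i <;> simp
  have h1 : 𝔣 (ee (.inl p)) (∑ k ∈ S, x (.inl k) • ee (.inl k)) = 0 := by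
    rw [pol_eu, Finset.sum_apply]
    apply Finset.sum_eq_zero
    intro k hk
    have : k ≠ p.swap := (Finset.mem_erase.mp hk).1
    rw [Pi.smul_apply, eu_ne (Ne.symm this), smul_zero]
  have e2 : eichlerIso (Q_eu p) h = eichlerIso (Q_eu p) h1 * XS p (prW x) := by
    rw [XS, eichlerIso_mul]
    apply Subtype.ext
    apply Units.ext
    show eichlerMatrix _ _ _ = eichlerMatrix _ _ _
    rw [← e]
  rw [e2]
  exact mul_mem (eich_sum_mem p _ (fun k hk => (Finset.mem_erase.mp hk).1) _ h1) (XS_mem_LL _ _)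

/-- The Eichler transformations are in the group generated by the root elements. -/
theorem eichler_mem_LL {z x : Cd m → F} (hz : minusForm m F a b z = 0) (hb : 𝔣 z x = 0) : eichlerIso hz hb ∈ LL m a b := by
  by_cases hz0 : z = 0
  · subst hz0
    have : eichlerIso hz hb = 1 := by
      apply ext_act
      intro x
      rw [act_eichlerIso, act_one, polar_zero_left]
      simp
    rw [this]
    exact one_mem _
  obtain ⟨l, hl, p, c, hlz⟩ := exists_to_basis hz hz0
  have h1 : l * eichlerIso hz hb * l⁻¹ ∈ LL m a b := by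
    rw [conj_eichlerIso]
    have hb' : 𝔣 (ee (.inl p)) (c • act l x) = 0 := by
      by_cases hc : c = 0
      · rw [hc, zero_smul, polar_zero_right]
      · have h3 : 𝔣 (act l z) (act l x) = 0 := by rwa [polar_act]
        rw [hlz, polar_smul_left'] at h3
        rw [polar_smul_right', h3]
    rw [eichler_smul c _ _ (Q_eu p) hb' hlz rfl]
    exact eich_mem p hb'
  have e : eichlerIso hz hb = l⁻¹ * (l * eichlerIso hz hb * l⁻¹) * l := by group
  rw [e]
  exact mul_mem (mul_mem (inv_mem hl) h1) hl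

/-- The commutator subgroup of the orthogonal group is generated by the root elements. -/
theorem Om_eq_LL [Fintype F] (hm : 2 ≤ m) : Om m a b = LL m a b := by
  apply le_antisymm
  · show Cfsg.Omega F ⇑(minusForm m F a b) ≤ _
    rw [omega_eq_rootGroup' (nondeg m a b) (card_Cd hm), rootGroup, Subgroup.closure_le]
    intro g hg
    obtain ⟨u, v, c, hu, hv, huv, rfl⟩ := mem_siegelSet_iff.1 hg
    exact eichler_mem_LL _ _
  · rw [LL, Subgroup.closure_le]
    rintro _ (⟨u, v, t, rfl⟩ | ⟨u, y, rfl⟩)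
    · exact XL_mem hm u v t
    · exact XS_mem hm u y

end Cfsg.Agent.Lib.SpinM
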