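import Mathlib
import Cfsg.Agent.Lib.SpinM.Real3

/-!
# The commutator relations of the root elements in the orthogonal group of minus type
-/

set_option autoImplicit false
set_option linter.unusedSectionVars false
set_option linter.unusedSimpArgs false
set_option linter.unusedVariables false

namespace Cfsg.Agent.Lib.SpinM

open Matrix QuadraticMap Equiv
open Cfsg.Agent.Lib.Classical.Orth.Basic
open Cfsg.Agent.Lib.Classical.Orth.Models
open Cfsg.Agent.Lib.Classical.Orth.Siegel
open Cfsg.Agent.Lib.Classical.Orth.Generation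

variable {m : ℕ} {F : Type*} [Field F] {a b : F}

/-- The index of a hyperbolic coordinate. -/
def idx : Ip m → Fin m := Sum.elim id id

@[simp] theorem idx_inl (a : Fin m) : idx (.inl a : Ip m) = a := rfl
@[simp] theorem idx_inr (a : Fin m) : idx (.inr a : Ip m) = a := rfl
@[simp] theorem idx_swap (u : Ip m) : idx u.swap = idx u := by
  rcases u with a | a <;> rfl

theorem eq_or_swap_of_idx {u v : Ip m} (h : idx u = idx v) : v = u ∨ v = u.swap := by
  rcases u with a | a <;> rcases v with b | b <;> simp_all

theorem exists_third (hm : 3 ≤ m) (a b : Fin m) : ∃ c : Fin m, c ≠ a ∧ c ≠ b := by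
  by_contra hcon
  push Not at hcon
  have h : (Finset.univ : Finset (Fin m)) ⊆ {a, b} := by
    intro c _
    by_cases h1 : c = a
    · simp [h1]
    · simp [hcon c h1]
  have h2 := Finset.card_le_card h
  have h3 : ({a, b} : Finset (Fin m)).card ≤ 2 := Finset.card_le_two
  simp at h2
  omega

theorem ee_idx {v w : Ip m} (h : idx v ≠ idx w) : (ee (.inl w) : Cd m → F) (.inl v) = 0 :=
  eu_ne (fun e => h (by rw [e]))

theorem ee_swap1 (v : Ip m) : (ee (.inl v.swap) : Cd m → F) (.inl v) = 0 := eu_ne (swap_ne v).symm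

theorem ee_swap2 (v : Ip m) : (ee (.inl v) : Cd m → F) (.inl v.swap) = 0 := eu_ne (swap_ne v)

theorem ee_inl_self (v : Ip m) : (ee (.inl v) : Cd m → F) (.inl v) = 1 := ee_self _

theorem sw_idx {u v : Ip m} (h : idx u ≠ idx v) : v ≠ u.swap := fun e => h (by rw [e, idx_swap])

theorem sw_idx' {u v : Ip m} (h : idx u ≠ idx v) : v.swap ≠ u.swap := fun e => h (by
  have := congrArg idx e
  simpa using this.symm)

section Real

variable {u v w x : Ip m} (s t : F) (y z : KK a b)

/-- `T2` in the orthogonal group. -/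
theorem real_T2 (h1 : idx u ≠ idx v) (h2 : idx u ≠ idx w) (h3 : idx v ≠ idx w) :
    (XL u v s * XL v.swap w t : OO m a b) = XL u w (-(s * t)) * XL v.swap w t * XL u v s := by
  apply ext_act
  intro k
  simp only [act_mul]
  have a1 : w ≠ (v.swap).swap := by rw [Sum.swap_swap]; exact fun e => h3 (by rw [e])
  simp only [act_XL (sw_idx h1), act_XL (sw_idx h2), act_XL a1, Pi.add_apply, Pi.sub_apply, Pi.smul_apply, smul_eq_mul,
    Sum.swap_swap, ee_idx, ee_swap1, ee_swap2, idx_swap, h1, h2, h3, h1.symm, h2.symm, h3.symm, ee_inl_self, ne_eq, not_false_eq_true,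
    mul_zero, zero_mul, add_zero, sub_zero, mul_one, one_mul]
  module

/-- `T3` in the orthogonal group. -/
theorem real_T3 (h1 : idx u ≠ idx v) : XS u y * XS v z = XL u v (bw y z) * XS v z * XS u y := by
  apply ext_act
  intro k
  simp only [act_mul]
  have hc : bw z y = bw y z := bw_comm z y
  simp only [act_XL (sw_idx h1), act_XS, Pi.add_apply, Pi.sub_apply, Pi.smul_apply, smul_eq_mul,
    Sum.swap_swap, ee_idx, ee_swap1, ee_swap2, emb_inl, idx_swap, h1, h1.symm, ee_inl_self, ne_eq, not_false_eq_true,
    mul_zero, zero_mul, add_zero, sub_zero, mul_one, one_mul, prW_add, prW_sub, prW_smul, prW_emb, prW_eu, smul_zero, bw_add_right, bw_sub_right,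
    bw_smul_right, hc]
  module

/-- `T4` in the orthogonal group. -/
theorem real_T4 (h1 : idx u ≠ idx v) :
    (XL u v s * XS v.swap y : OO m a b) = XS u (-(s • y)) * XL u v.swap (s * NN' y) * XS v.swap y * XL u v s := by
  apply ext_act
  intro k
  simp only [act_mul]
  have a1 : v.swap ≠ u.swap := sw_idx' h1
  simp only [act_XL (sw_idx h1), act_XL a1, act_XS, Pi.add_apply, Pi.sub_apply, Pi.smul_apply, smul_eq_mul,
    Sum.swap_swap, ee_idx, ee_swap1, ee_swap2, emb_inl, idx_swap, h1, h1.symm, ee_inl_self, ne_eq, not_false_eq_true,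
    mul_zero, zero_mul, add_zero, sub_zero, mul_one, one_mul, prW_add, prW_sub, prW_smul, prW_emb, prW_eu, smul_zero, bw_add_right, bw_sub_right,
    bw_smul_right, bw_neg_left, bw_smul_left, emb_neg, emb_smul, N_neg, N_smul, bw_self]
  module

/-- Short and long root elements with the same first coordinate commute. -/
theorem real_sl (h1 : idx u ≠ idx v) : XS u y * XL u v t = XL u v t * XS u y := by
  apply ext_act
  intro k
  simp only [act_mul]
  simp only [act_XL (sw_idx h1), act_XS, Pi.add_apply, Pi.sub_apply, Pi.smul_apply, smul_eq_mul,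
    Sum.swap_swap, ee_idx, ee_swap1, ee_swap2, emb_inl, idx_swap, h1, h1.symm, ee_inl_self, ne_eq, not_false_eq_true,
    mul_zero, zero_mul, add_zero, sub_zero, mul_one, one_mul, prW_add, prW_sub, prW_smul, prW_emb, prW_eu, smul_zero, bw_add_right, bw_sub_right,
    bw_smul_right]
  module

/-- A short root element commutes with a far away long root element. -/
theorem real_far_s (h1 : idx u ≠ idx v) (h2 : idx u ≠ idx w) (h3 : idx v ≠ idx w) :
    XS u y * XL v w t = XL v w t * XS u y := by
  apply ext_act
  intro k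
  simp only [act_mul]
  simp only [act_XL (sw_idx h3), act_XS, Pi.add_apply, Pi.sub_apply, Pi.smul_apply, smul_eq_mul,
    Sum.swap_swap, ee_idx, ee_swap1, ee_swap2, emb_inl, idx_swap, h1, h2, h3, h1.symm, h2.symm, h3.symm, ee_inl_self, ne_eq, not_false_eq_true,
    mul_zero, zero_mul, add_zero, sub_zero, mul_one, one_mul, prW_add, prW_sub, prW_smul, prW_emb, prW_eu, smul_zero, bw_add_right, bw_sub_right,
    bw_smul_right]
  module

end Real

end Cfsg.Agent.Lib.SpinM
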