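import Mathlib
import Cfsg.Agent.Lib.SpinM.RealRel
import Cfsg.Agent.Lib.Sporadic.Stem

/-!
# Central extensions of the orthogonal groups of minus type: lifts of root elements

A rotation of the anisotropic part acts without fixed points on the short root groups, and this makes
the relations between the root elements lift.
-/

set_option autoImplicit false
set_option linter.unusedSectionVars false
set_option linter.unusedSimpArgs false
set_option linter.unusedVariables false

namespace Cfsg.Agent.Lib.SpinM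

open Matrix QuadraticMap Equiv
open Cfsg.Agent.Lib.Classical.Orth.Basic
open Cfsg.Agent.Lib.Classical.Orth.Models
open Cfsg.Agent.Lib.Classical.Orth.Siegel
open Cfsg.Agent.Lib.Classical.Orth.Generation
open Cfsg.Agent.Lib.Sporadic.Stem

variable {m : ℕ} {F : Type*} [Field F] {a b : F}

/-- An additive function invariant under a scalar is trivial. -/
theorem scale_trivial {K : Type*} [Field K] {A : Type*} [Group A] {c : K → A} (hadd : ∀ s t, c (s + t) = c s * c t) {l : K} (hl : l ≠ 1)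
    (h : ∀ s, c (l * s) = c s) (s : K) : c s = 1 := by
  have h0 : c 0 = 1 := by
    have := hadd 0 0
    rw [add_zero] at this
    exact mul_eq_left.mp this.symm
  have hn : ∀ t, c (-t) = (c t)⁻¹ := by
    intro t
    apply eq_inv_of_mul_eq_one_left
    rw [← hadd, neg_add_cancel, h0]
  have hl' : l - 1 ≠ 0 := sub_ne_zero.mpr hl
  have key : ∀ t, c ((l - 1) * t) = 1 := by
    intro t
    have e : (l - 1) * t = l * t + -t := by ring
    rw [e, hadd, hn, h, mul_inv_cancel]
  have e : s = (l - 1) * (s / (l - 1)) := by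
    field_simp
  rw [e]
  exact key _

/-- The commutator of two products, in a group of class two. -/
theorem cm_four {Γ : Type*} [Group Γ] {x y p q c₁ c₂ g₁ g₂ : Γ} (h1 : x * y = c₁ * (y * x)) (h2 : p * q = c₂ * (q * p))
    (h3 : x * q = g₁ * (q * x)) (h4 : p * y = g₂ * (y * p)) (hc₁ : c₁ ∈ Subgroup.center Γ) (hc₂ : c₂ ∈ Subgroup.center Γ)
    (h5 : g₂ * x = x * g₂) (h6 : g₁ * y = y * g₁) :
    (x * p) * (y * q) = (g₂ * c₁ * c₂ * g₁) * ((y * q) * (x * p)) := by
  have hz2 := Subgroup.mem_center_iff.mp hc₂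
  calc (x * p) * (y * q) = x * (p * y) * q := by group
    _ = x * (g₂ * (y * p)) * q := by rw [h4]
    _ = (x * g₂) * y * p * q := by group
    _ = (g₂ * x) * y * p * q := by rw [h5]
    _ = g₂ * (x * y) * (p * q) := by group
    _ = g₂ * (c₁ * (y * x)) * (c₂ * (q * p)) := by rw [h1, h2]
    _ = g₂ * c₁ * y * (x * c₂) * q * p := by group
    _ = g₂ * c₁ * y * (c₂ * x) * q * p := by rw [hz2 x]
    _ = g₂ * c₁ * (y * c₂) * (x * q) * p := by group
    _ = g₂ * c₁ * (c₂ * y) * (g₁ * (q * x)) * p := by rw [hz2 y, h3]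
    _ = g₂ * c₁ * c₂ * (y * g₁) * q * x * p := by group
    _ = g₂ * c₁ * c₂ * (g₁ * y) * q * x * p := by rw [h6]
    _ = _ := by group

/-- The relation under which a short root element commutes with a long root element. -/
def RC (v p q : Ip m) : Prop :=
  (p = v ∧ idx v ≠ idx q) ∨ (q = v ∧ idx v ≠ idx p) ∨ (idx v ≠ idx p ∧ idx v ≠ idx q ∧ idx p ≠ idx q)

theorem real_RC {v p q : Ip m} (h : RC v p q) (t : F) (y : KK a b) : XL p q t * XS v y = XS v y * XL p q t := by
  rcases h with ⟨rfl, h⟩ | ⟨rfl, h⟩ | ⟨h1, h2, h3⟩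
  · exact (real_sl t y h).symm
  · rw [XL_symm (sw_idx h.symm)]
    exact (real_sl _ y h).symm
  · exact (real_far_s t y h1 h2 h3).symm

theorem ext_M {g g' : OO m a b} (h1 : ∀ u, act g (ee (.inl u)) = act g' (ee (.inl u)))
    (h2 : ∀ y : KK a b, act g (emb y) = act g' (emb y)) : g = g' := by
  apply Subtype.ext
  apply Units.ext
  refine Matrix.ext_of_mulVec_single (fun j => ?_)
  rcases j with u | i
  · exact h1 u
  · fin_cases i
    · have e : (Pi.single (.inr 0) 1 : Cd m → F) = emb (1 : KK a b) := by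
        funext k
        rcases k with u | i
        · simp
        · fin_cases i <;> simp [QuadraticAlgebra.re_one, QuadraticAlgebra.im_one]
      exact e ▸ h2 1
    · have e : (Pi.single (.inr 1) 1 : Cd m → F) = emb (QuadraticAlgebra.omega : KK a b) := by
        funext k
        rcases k with u | i
        · simp
        · fin_cases i <;> simp
      exact e ▸ h2 _

theorem IsM.comm_diag {g g' : OO m a b} {c c' : Ip m → F} {r r' : Perm (KK a b)} (h : IsM g 1 c r) (h' : IsM g' 1 c' r')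
    (hr : ∀ y, r (r' y) = r' (r y)) : g * g' = g' * g := by
  apply ext_M
  · intro u
    rw [act_mul, act_mul, h'.inl, act_smul, h.inl, h.inl, act_smul, h'.inl, smul_smul, smul_smul]
    simp only [Perm.one_apply]
    rw [mul_comm]
  · intro y
    rw [act_mul, act_mul, h'.inr, h.inr, h.inr, h'.inr, hr]

/-- Conjugating a diagonal element by a monomial element. -/
theorem IsM.conj_of_diag {g δ : OO m a b} {π : Perm (Ip m)} {c d : Ip m → F} {r ρ : Perm (KK a b)} (hg : IsM g π c r)
    (hδ : IsM δ 1 d ρ) : IsM (g⁻¹ * δ * g) 1 (fun u => d (π u)) (r⁻¹ * ρ * r) where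
  inl u := by
    rw [act_mul, act_mul, hg.inl, act_smul, hδ.inl, smul_smul, Perm.one_apply, mul_comm, ← smul_smul, ← hg.inl,
      ← act_smul, act_inv_act]
    rfl
  inr y := by
    have h1 := hg.inv.inr (ρ (r y))
    rw [act_mul, act_mul, hg.inr, hδ.inr, h1]
    rfl

/-! ### Central extensions -/

/-- Central extensions of `Ω`. -/
structure CE (m : ℕ) (a b : F) (Γ : Type*) [Group Γ] where
  σ : Γ →* OO m a b
  hk : σ.ker ≤ Subgroup.center Γ
  hm : ∀ x, σ x ∈ Om m a b
  hs : ∀ g ∈ Om m a b, ∃ x, σ x = g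
  h3 : 3 ≤ m

namespace CE

variable {Γ : Type*} [Group Γ] (C : CE m a b Γ)

theorem mem_center {x : Γ} (h : C.σ x = 1) : x ∈ Subgroup.center Γ := C.hk h

theorem map_cm (x y : Γ) : C.σ (cm x y) = cm (C.σ x) (C.σ y) := by
  simp only [cm, map_mul, map_inv]

theorem cm_congr {x x' y y' : Γ} (ha : C.σ x = C.σ x') (hb : C.σ y = C.σ y') : cm x y = cm x' y' := by
  have h1 : x⁻¹ * x' ∈ Subgroup.center Γ := C.mem_center (by rw [map_mul, map_inv, ha, inv_mul_cancel])
  have h2 : y⁻¹ * y' ∈ Subgroup.center Γ := C.mem_center (by rw [map_mul, map_inv, hb, inv_mul_cancel])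
  have e1 : x' = x * (x⁻¹ * x') := by group
  have e2 : y' = y * (y⁻¹ * y') := by group
  rw [e1, e2, cm_mul_central_left h1, cm_mul_central_right h2]

theorem cm_center {x y : Γ} (h : C.σ x * C.σ y = C.σ y * C.σ x) : cm x y ∈ Subgroup.center Γ := by
  apply C.mem_center
  rw [C.map_cm, cm, h]
  group

/-- Commuting with a lift. -/
theorem comm_of_lift {x y y' : Γ} (h : x * y = y * x) (he : C.σ y = C.σ y') : x * y' = y' * x := by
  apply commute_of_cm
  rw [← C.cm_congr rfl he]
  simp only [cm]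
  rw [h]
  group

variable [Fact (∀ r : F, r ^ 2 ≠ -b + a * r)] [Fintype F]

omit [Fact (∀ r : F, r ^ 2 ≠ -b + a * r)] [Fintype F] in
theorem hm2 (C : CE m a b Γ) : 2 ≤ m := by
  have := C.h3
  omega

theorem exists_lift_S (u : Ip m) (y : KK a b) : ∃ x, C.σ x = XS u y := C.hs _ (XS_mem C.hm2 u y)

theorem exists_lift_L (u v : Ip m) (t : F) : ∃ x, C.σ x = XL u v t := C.hs _ (XL_mem C.hm2 u v t)

/-- The chosen lifts. -/
noncomputable def lS (u : Ip m) (y : KK a b) : Γ := Classical.choose (C.exists_lift_S u y)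

theorem lS_map (u : Ip m) (y : KK a b) : C.σ (C.lS u y) = XS u y := Classical.choose_spec (C.exists_lift_S u y)

/-- The chosen lifts. -/
noncomputable def lL (u v : Ip m) (t : F) : Γ := Classical.choose (C.exists_lift_L u v t)

theorem lL_map (u v : Ip m) (t : F) : C.σ (C.lL u v t) = XL u v t := Classical.choose_spec (C.exists_lift_L u v t)

/-! ### The rotation -/

omit C [Group Γ] in
/-- The element of norm one. -/
noncomputable def ksi (a b : F) [Fact (∀ r : F, r ^ 2 ≠ -b + a * r)] : KK a b := Classical.choose (exists_xi (a := a) (b := b))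

omit C [Group Γ] in
theorem ksi_N : NN' (ksi a b) = 1 := (Classical.choose_spec (exists_xi (a := a) (b := b))).1

omit C [Group Γ] in
theorem ksi_sq : ksi a b * ksi a b ≠ 1 := (Classical.choose_spec (exists_xi (a := a) (b := b))).2

omit C [Group Γ] in
theorem ksi_ne : ksi a b ≠ 0 := fun e => by
  have := ksi_N (a := a) (b := b)
  rw [e] at this
  simp at this

omit C [Group Γ] in
/-- The scalar of the rotation. -/
noncomputable def zt (a b : F) [Fact (∀ r : F, r ^ 2 ≠ -b + a * r)] : KK a b := ksi a b / star (ksi a b)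

omit C [Group Γ] in
theorem zt_eq : zt a b = ksi a b * ksi a b := by
  have h1 := coe_N (ksi a b)
  rw [ksi_N, map_one] at h1
  have h2 := star_ne_zero' (ksi_ne (a := a) (b := b))
  rw [zt, div_eq_iff h2]
  linear_combination (ksi a b) * h1

omit C [Group Γ] in
theorem zt_ne : zt a b ≠ 0 := div_star_ne ksi_ne

omit C [Group Γ] in
theorem zt_N : NN' (zt a b) = 1 := N_div_star ksi_ne

omit C [Group Γ] in
theorem zt_ne_one : zt a b ≠ 1 := by
  rw [zt_eq]
  exact ksi_sq

omit [Group Γ] in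
/-- The hyperbolic index used for the rotation. -/
def u0 (C : CE m a b Γ) : Ip m := .inl ⟨0, by have := C.h3; omega⟩

/-- The lift of the rotation. -/
noncomputable def dl : Γ := Classical.choose (C.hs _ (HS_mem C.hm2 C.u0 (ksi a b)))

theorem isM_dl : IsM (C.σ C.dl) 1 (fun _ => 1) (mulP (zt a b) zt_ne) := by
  have e : C.σ C.dl = HS C.u0 (ksi a b) := Classical.choose_spec (C.hs _ (HS_mem C.hm2 C.u0 (ksi a b)))
  have h := isM_HS C.u0 (ksi_ne (a := a) (b := b))
  have e2 : dS C.u0 (ksi a b) = fun _ => 1 := by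
    funext w
    simp only [dS, ksi_N, inv_one, ite_self]
  rw [e2] at h
  rw [e]
  exact h

theorem dl_XL (p q : Ip m) (t : F) : (XL p q t : OO m a b) * C.σ C.dl = C.σ C.dl * XL p q t := by
  have h := C.isM_dl.conj_XL p q t
  simp only [Perm.one_apply, one_mul] at h
  rw [mul_inv_eq_iff_eq_mul] at h
  exact h.symm

theorem dl_XS (p : Ip m) (y : KK a b) : C.σ C.dl * XS p y * (C.σ C.dl)⁻¹ = XS p (zt a b * y) := by
  have h := C.isM_dl.conj_XS p y
  simpa using h

/-- **The rotation trick.** -/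
theorem comm_of_real {ℓ : Γ} {v : Ip m} (hd : C.σ ℓ * C.σ C.dl = C.σ C.dl * C.σ ℓ)
    (h : ∀ y : KK a b, C.σ ℓ * XS v y = XS v y * C.σ ℓ) {x : Γ} {y : KK a b} (hx : C.σ x = XS v y) : x * ℓ = ℓ * x := by
  have hcen : ∀ y, cm (C.lS v y) ℓ ∈ Subgroup.center Γ := by
    intro y
    apply C.cm_center
    rw [C.lS_map, h]
  have key := scale_trivial (c := fun y => cm (C.lS v y) ℓ) ?_ (zt_ne_one (a := a) (b := b)) ?_ y
  · apply commute_of_cm
    rw [C.cm_congr (hx.trans (C.lS_map v y).symm) rfl]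
    exact key
  · intro s t
    have e : cm (C.lS v (s + t)) ℓ = cm (C.lS v s * C.lS v t) ℓ :=
      C.cm_congr (by rw [map_mul, C.lS_map, C.lS_map, C.lS_map, XS_add]) rfl
    show cm (C.lS v (s + t)) ℓ = cm (C.lS v s) ℓ * cm (C.lS v t) ℓ
    rw [e, cm_mul_left (hcen t)]
    exact Subgroup.mem_center_iff.mp (hcen s) _
  · intro s
    have e := conj_central C.dl (hcen s)
    rw [cm_conj] at e
    show cm (C.lS v (zt a b * s)) ℓ = cm (C.lS v s) ℓ
    rw [← e]
    refine C.cm_congr ?_ ?_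
    · rw [map_mul, map_mul, map_inv, C.lS_map, C.lS_map, C.dl_XS]
    · rw [map_mul, map_mul, map_inv, ← hd]
      group

/-- Commutation of a short and a long root element. -/
theorem comm_x_l {v p q : Ip m} (hR : RC v p q) {x ℓ : Γ} {y : KK a b} {t : F} (hx : C.σ x = XS v y) (hℓ : C.σ ℓ = XL p q t) :
    x * ℓ = ℓ * x :=
  C.comm_of_real (by rw [hℓ]; exact C.dl_XL p q t) (fun z => by rw [hℓ]; exact real_RC hR t z) hx

/-- The lifts of long root elements commute with the lift of the rotation. -/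
theorem dl_comm_long {u v : Ip m} (h : idx u ≠ idx v) {ℓ : Γ} {t : F} (hℓ : C.σ ℓ = XL u v t) : C.dl * ℓ = ℓ * C.dl := by
  obtain ⟨c, c1, c2⟩ := exists_third C.h3 (idx u) (idx v)
  set w : Ip m := .inl c with hw
  have i1 : idx u ≠ idx w := Ne.symm c1
  have i2 : idx w ≠ idx v := c2
  have r := real_T2 (a := a) (b := b) (1 : F) (-t) i1 h (by exact i2)
  have r2 : cm (XL u w (1 : F) : OO m a b) (XL w.swap v (-t)) = XL u v t := by
    have e : -((1 : F) * -t) = t := by ring
    rw [e] at r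
    rw [cm, r]
    group
  set ℓ₁ := C.lL u w (1 : F) with hℓ₁
  set ℓ₂ := C.lL w.swap v (-t) with hℓ₂
  have h0 : C.σ (cm ℓ₁ ℓ₂) = C.σ ℓ := by
    rw [C.map_cm, hℓ₁, hℓ₂, C.lL_map, C.lL_map, r2, hℓ]
  have h1 : C.dl * cm ℓ₁ ℓ₂ = cm ℓ₁ ℓ₂ * C.dl := by
    have e := cm_conj C.dl ℓ₁ ℓ₂
    have e2 : cm (C.dl * ℓ₁ * C.dl⁻¹) (C.dl * ℓ₂ * C.dl⁻¹) = cm ℓ₁ ℓ₂ := by
      refine C.cm_congr ?_ ?_
      · rw [map_mul, map_mul, map_inv, hℓ₁, C.lL_map, ← C.dl_XL]
        group
      · rw [map_mul, map_mul, map_inv, hℓ₂, C.lL_map, ← C.dl_XL]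
        group
    rw [e2, mul_inv_eq_iff_eq_mul] at e
    exact e
  exact C.comm_of_lift h1 h0

end CE

end Cfsg.Agent.Lib.SpinM
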