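import Mathlib
import Cfsg.Agent.Lib.SpinM.Lift

/-!
# Central extensions of the orthogonal groups of minus type: the lifts of the root elements
-/

set_option autoImplicit false
set_option linter.unusedSectionVars false
set_option linter.unusedSimpArgs false
set_option linter.unusedVariables false

namespace Cfsg.Agent.Lib.SpinM

open Matrix QuadraticMap Equiv
open Cfsg.Agent.Lib.Classical.Orth.Basic
open Cfsg.Agent.Lib.Classical.Orth.Models
open Cfsg.Agent.Lib.Classical.Orth.Siegel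
open Cfsg.Agent.Lib.Classical.Orth.Generation
open Cfsg.Agent.Lib.Sporadic.Stem

variable {m : ℕ} {F : Type*} [Field F] {a b : F}

theorem comm_cm {Γ : Type*} [Group Γ] {l x y : Γ} (h1 : l * x = x * l) (h2 : l * y = y * l) : l * cm x y = cm x y * l := by
  have c1 : Commute l x := h1
  have c2 : Commute l y := h2
  exact ((c1.mul_right c2).mul_right c1.inv_right).mul_right c2.inv_right

theorem cm_comm_mul {Γ : Type*} [Group Γ] {p q x y : Γ} (h1 : p * x = x * p) (h2 : p * y = y * p) (h3 : q * x = x * q)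
    (h4 : q * y = y * q) (h5 : p * q = q * p) : cm (p * x) (q * y) = cm x y := by
  have c1 : Commute p x := h1
  have c2 : Commute p y := h2
  have c3 : Commute q x := h3
  have c4 : Commute q y := h4
  have c5 : Commute p q := h5
  have hP : (p * q) * cm x y = cm x y * (p * q) := comm_cm (c1.mul_left c3) (c2.mul_left c4)
  have e : cm (p * x) (q * y) = (p * q) * cm x y * (p * q)⁻¹ := by
    simp only [cm]
    have e1 : x * q = q * x := h3.symm
    have e2 : p⁻¹ * y⁻¹ = y⁻¹ * p⁻¹ := (c2.inv_inv).eq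
    have e3 : p⁻¹ * q⁻¹ = q⁻¹ * p⁻¹ := (c5.inv_inv).eq
    calc p * x * (q * y) * (p * x)⁻¹ * (q * y)⁻¹ = p * (x * q) * y * x⁻¹ * (p⁻¹ * y⁻¹) * q⁻¹ := by group
      _ = p * (q * x) * y * x⁻¹ * (y⁻¹ * p⁻¹) * q⁻¹ := by rw [e1, e2]
      _ = p * q * (x * y * x⁻¹ * y⁻¹) * (p⁻¹ * q⁻¹) := by group
      _ = p * q * (x * y * x⁻¹ * y⁻¹) * (q⁻¹ * p⁻¹) := by rw [e3]
      _ = _ := by group
  rw [e, hP]
  group

theorem cm_eq_one_of_comm {Γ : Type*} [Group Γ] {x y : Γ} (h : x * y = y * x) : cm x y = 1 := by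
  simp only [cm]
  rw [h]
  group

theorem real_comm_zero {u v : Ip m} (h : idx u ≠ idx v) {y z : KK a b} (h0 : bw y z = 0) : XS u y * XS v z = XS v z * XS u y := by
  have := real_T3 y z h
  rw [h0, XL_zero, one_mul] at this
  exact this

theorem real_cm_T3 {u v : Ip m} (h : idx u ≠ idx v) (y z : KK a b) : cm (XS u y) (XS v z) = XL u v (bw y z) := by
  rw [cm, real_T3 y z h]
  group

namespace CE

variable {Γ : Type*} [Group Γ] (C : CE m a b Γ) [Fact (∀ r : F, r ^ 2 ≠ -b + a * r)] [Fintype F]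

/-- Orthogonal short root elements commute. -/
theorem comm_SS_zero {u v : Ip m} (huv : idx u ≠ idx v) {y z : KK a b} (h0 : bw y z = 0) {A B : Γ} (hA : C.σ A = XS u y)
    (hB : C.σ B = XS v z) : A * B = B * A := by
  obtain ⟨c, c1, c2⟩ := exists_third C.h3 (idx u) (idx v)
  set w : Ip m := .inl c with hw
  have i1 : idx u ≠ idx w := Ne.symm c1
  have i2 : idx v ≠ idx w := Ne.symm c2
  have i2' : idx v ≠ idx w.swap := by rwa [idx_swap]
  set ℓ₀ := C.lL v w.swap (1 : F) with hℓ₀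
  set X := C.lS w (-z) with hX
  set R := C.lL v w (NN' z) with hR
  have hb : bw y (-z) = 0 := by rw [bw_neg_right, h0, neg_zero]
  have a1 : A * ℓ₀ = ℓ₀ * A := C.comm_x_l (Or.inr (Or.inr ⟨huv, by rwa [idx_swap], i2'⟩)) hA (C.lL_map _ _ _)
  have a2 : A * R = R * A := C.comm_x_l (Or.inr (Or.inr ⟨huv, i1, i2⟩)) hA (C.lL_map _ _ _)
  have a3 : C.σ (A * X * A⁻¹) = C.σ X := by
    rw [map_mul, map_mul, map_inv, hA, hX, C.lS_map, real_comm_zero i1 hb]
    group
  have a4 : A * cm ℓ₀ X = cm ℓ₀ X * A := by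
    have e := cm_conj A ℓ₀ X
    have e1 : A * ℓ₀ * A⁻¹ = ℓ₀ := by rw [a1]; group
    rw [e1, C.cm_congr rfl a3, mul_inv_eq_iff_eq_mul] at e
    exact e
  have r := real_T4 (a := a) (b := b) (u := v) (v := w.swap) (1 : F) (-z) i2'
  rw [Sum.swap_swap, one_smul, neg_neg, one_mul, N_neg] at r
  have e : C.σ (cm ℓ₀ X * R⁻¹) = C.σ B := by
    rw [map_mul, C.map_cm, map_inv, hℓ₀, hX, hR, C.lL_map, C.lS_map, C.lL_map, cm, r, hB]
    group
  have a5 : A * (cm ℓ₀ X * R⁻¹) = (cm ℓ₀ X * R⁻¹) * A := by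
    have c5 : Commute A (cm ℓ₀ X) := a4
    have c6 : Commute A R := a2
    exact c5.mul_right c6.inv_right
  exact C.comm_of_lift a5 e

/-- The commutators of the lifts of short root elements. -/
noncomputable def GG (u v : Ip m) (y z : KK a b) : Γ := cm (C.lS u y) (C.lS v z)

theorem cm_GG {u v : Ip m} {y z : KK a b} {A B : Γ} (hA : C.σ A = XS u y) (hB : C.σ B = XS v z) : cm A B = C.GG u v y z :=
  C.cm_congr (hA.trans (C.lS_map _ _).symm) (hB.trans (C.lS_map _ _).symm)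

theorem GG_map {u v : Ip m} (h : idx u ≠ idx v) (y z : KK a b) : C.σ (C.GG u v y z) = XL u v (bw y z) := by
  rw [GG, C.map_cm, C.lS_map, C.lS_map, real_cm_T3 h]

theorem GG_add_left {u v : Ip m} (h : idx u ≠ idx v) (y y' z : KK a b) : C.GG u v (y + y') z = C.GG u v y z * C.GG u v y' z := by
  have hA := C.lS_map u y
  have hA' := C.lS_map u y'
  have hB := C.lS_map v z
  have e : C.GG u v (y + y') z = cm (C.lS u y * C.lS u y') (C.lS v z) :=
    C.cm_congr (by rw [C.lS_map, map_mul, hA, hA', XS_add]) rfl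
  have e1 : cm (C.lS u y * C.lS u y') (C.lS v z) = C.lS u y * C.GG u v y' z * (C.lS u y)⁻¹ * C.GG u v y z := by
    simp only [GG, cm]
    group
  have c1 : C.lS u y * C.GG u v y' z = C.GG u v y' z * C.lS u y :=
    C.comm_x_l (Or.inl ⟨rfl, h⟩) hA (C.GG_map h y' z)
  have c2 : C.GG u v y' z * C.lS u y = C.lS u y * C.GG u v y' z := c1.symm
  have c3 : C.GG u v y' z * C.lS v z = C.lS v z * C.GG u v y' z :=
    (C.comm_x_l (Or.inr (Or.inl ⟨rfl, h.symm⟩)) hB (C.GG_map h y' z)).symm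
  have c4 : C.GG u v y' z * C.GG u v y z = C.GG u v y z * C.GG u v y' z := comm_cm c2 c3
  rw [e, e1, c1, mul_inv_cancel_right, c4]

theorem GG_add_right {u v : Ip m} (h : idx u ≠ idx v) (y z z' : KK a b) : C.GG u v y (z + z') = C.GG u v y z * C.GG u v y z' := by
  have hB := C.lS_map v z
  have hB' := C.lS_map v z'
  have e : C.GG u v y (z + z') = cm (C.lS u y) (C.lS v z * C.lS v z') :=
    C.cm_congr rfl (by rw [C.lS_map, map_mul, hB, hB', XS_add])
  have e1 : cm (C.lS u y) (C.lS v z * C.lS v z') = C.GG u v y z * (C.lS v z * C.GG u v y z' * (C.lS v z)⁻¹) := by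
    simp only [GG, cm]
    group
  have c1 : C.lS v z * C.GG u v y z' = C.GG u v y z' * C.lS v z :=
    C.comm_x_l (Or.inr (Or.inl ⟨rfl, h.symm⟩)) hB (C.GG_map h y z')
  rw [e, e1, c1, mul_inv_cancel_right]

theorem GG_zero {u v : Ip m} (h : idx u ≠ idx v) {y z : KK a b} (h0 : bw y z = 0) : C.GG u v y z = 1 :=
  cm_eq_one_of_comm (C.comm_SS_zero h h0 (C.lS_map _ _) (C.lS_map _ _))

theorem GG_dep {u v : Ip m} (h : idx u ≠ idx v) {y y' z z' : KK a b} (he : bw y z = bw y' z') : C.GG u v y z = C.GG u v y' z' :=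
  bi_dep (G := C.GG u v) (fun y y' z => C.GG_add_left h y y' z) (fun y z z' => C.GG_add_right h y z z')
    (fun y z h0 => C.GG_zero h h0) he

omit C [Group Γ] in
/-- The element with polar value one with the identity. -/
noncomputable def y0 (a b : F) [Fact (∀ r : F, r ^ 2 ≠ -b + a * r)] : KK a b := Classical.choose (exists_bw_one (a := a) (b := b))

omit C [Group Γ] in
theorem bw_y0 (t : F) : bw (1 : KK a b) (t • y0 a b) = t := by
  rw [bw_smul_right, y0, Classical.choose_spec (exists_bw_one (a := a) (b := b)), mul_one]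

/-- The lifts of the long root elements. -/
noncomputable def xl (u v : Ip m) (t : F) : Γ := C.GG u v 1 (t • y0 a b)

theorem cm_xl {u v : Ip m} (h : idx u ≠ idx v) {y z : KK a b} {A B : Γ} (hA : C.σ A = XS u y) (hB : C.σ B = XS v z) :
    cm A B = C.xl u v (bw y z) := by
  rw [C.cm_GG hA hB, xl]
  exact C.GG_dep h (by rw [bw_y0])

theorem xl_map {u v : Ip m} (h : idx u ≠ idx v) (t : F) : C.σ (C.xl u v t) = XL u v t := by
  rw [xl, C.GG_map h, bw_y0]

theorem xl_add {u v : Ip m} (h : idx u ≠ idx v) (s t : F) : C.xl u v (s + t) = C.xl u v s * C.xl u v t := by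
  rw [xl, add_smul, C.GG_add_right h]
  rfl

theorem xl_zero {u v : Ip m} (h : idx u ≠ idx v) : C.xl u v (0 : F) = 1 := by
  have := C.xl_add h (0 : F) 0
  rw [add_zero] at this
  exact mul_eq_left.mp this.symm

theorem xl_neg {u v : Ip m} (h : idx u ≠ idx v) (t : F) : C.xl u v (-t) = (C.xl u v t)⁻¹ := by
  apply eq_inv_of_mul_eq_one_left
  rw [← C.xl_add h, neg_add_cancel, C.xl_zero h]

theorem xl_comm_add {u v : Ip m} (h : idx u ≠ idx v) (s t : F) : C.xl u v s * C.xl u v t = C.xl u v t * C.xl u v s := by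
  rw [← C.xl_add h, ← C.xl_add h, add_comm]

theorem xl_symm {u v : Ip m} (h : idx u ≠ idx v) (t : F) : C.xl u v t = C.xl v u (-t) := by
  have e1 : cm (C.lS v (t • y0 a b)) (C.lS u 1) = C.xl v u (bw (t • y0 a b) (1 : KK a b)) :=
    C.cm_xl h.symm (C.lS_map _ _) (C.lS_map _ _)
  rw [bw_comm, bw_y0] at e1
  rw [C.xl_neg h.symm, ← e1, cm_inv]
  rfl

/-- **Short root elements with the same first coordinate commute.** -/
theorem comm_SS_same {v : Ip m} {y z : KK a b} {A B : Γ} (hA : C.σ A = XS v y) (hB : C.σ B = XS v z) : A * B = B * A := by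
  obtain ⟨c, c1, -⟩ := exists_third C.h3 (idx v) (idx v)
  set u : Ip m := .inl c with hu
  have i : idx u ≠ idx v := c1
  have i' : idx v ≠ idx u.swap := by
    rw [idx_swap]
    exact i.symm
  set h := C.lL v u.swap (-1 : F) with hh
  set A₁ := C.lS u y with hA₁
  set A₂ := C.lS u z with hA₂
  set M₁ := C.xl v u (- NN' y) with hM₁
  set M₂ := C.xl v u (- NN' z) with hM₂
  have s₁ : C.σ A₁ = XS u y := C.lS_map _ _
  have s₂ : C.σ A₂ = XS u z := C.lS_map _ _
  have r : ∀ w : KK a b, (XL v u.swap (-1 : F) : OO m a b) * XS u w * (XL v u.swap (-1 : F))⁻¹ = XS v w * XL v u (- NN' w) * XS u w := by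
    intro w
    have r := real_T4 (a := a) (b := b) (u := v) (v := u.swap) (-1 : F) w i'
    rw [Sum.swap_swap, neg_smul, one_smul, neg_neg, neg_mul, one_mul] at r
    rw [r]
    group
  have hcen : cm A₁ A₂ ∈ Subgroup.center Γ := by
    apply C.cm_center
    rw [s₁, s₂, XS_comm]
  have e0 : cm A₁ A₂ = cm (A * M₁ * A₁) (B * M₂ * A₂) := by
    have e := conj_central h hcen
    rw [cm_conj] at e
    rw [← e]
    refine C.cm_congr ?_ ?_
    · rw [map_mul, map_mul, map_inv, hh, C.lL_map, s₁, r, map_mul, map_mul, hA, hM₁, C.xl_map i.symm, s₁]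
    · rw [map_mul, map_mul, map_inv, hh, C.lL_map, s₂, r, map_mul, map_mul, hB, hM₂, C.xl_map i.symm, s₂]
  -- commutation of the long elements
  have t₁ : ∀ {t : F} {x : Γ} {w : KK a b}, C.σ x = XS v w → C.xl v u t * x = x * C.xl v u t := fun {t x w} hx =>
    (C.comm_x_l (Or.inl ⟨rfl, i.symm⟩) hx (C.xl_map i.symm t)).symm
  have t₂ : ∀ {t : F} {x : Γ} {w : KK a b}, C.σ x = XS u w → C.xl v u t * x = x * C.xl v u t := fun {t x w} hx =>
    (C.comm_x_l (Or.inr (Or.inl ⟨rfl, i⟩)) hx (C.xl_map i.symm t)).symm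
  have e1 : A * M₁ * A₁ = M₁ * (A * A₁) := by
    have h' : M₁ * A = A * M₁ := t₁ hA
    rw [← h']
    group
  have e2 : B * M₂ * A₂ = M₂ * (B * A₂) := by
    have h' : M₂ * B = B * M₂ := t₁ hB
    rw [← h']
    group
  have m1 : M₁ * (B * A₂) = (B * A₂) * M₁ := by
    have c1 : Commute M₁ B := t₁ hB
    have c2 : Commute M₁ A₂ := t₂ s₂
    exact c1.mul_right c2
  have m2 : M₂ * (A * A₁) = (A * A₁) * M₂ := by
    have c1 : Commute M₂ A := t₁ hA
    have c2 : Commute M₂ A₁ := t₂ s₁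
    exact c1.mul_right c2
  have m3 : M₁ * M₂ = M₂ * M₁ := C.xl_comm_add i.symm _ _
  have m4 : M₁ * (A * A₁) = (A * A₁) * M₁ := by
    have c1 : Commute M₁ A := t₁ hA
    have c2 : Commute M₁ A₁ := t₂ s₁
    exact c1.mul_right c2
  have m5 : M₂ * (B * A₂) = (B * A₂) * M₂ := by
    have c1 : Commute M₂ B := t₁ hB
    have c2 : Commute M₂ A₂ := t₂ s₂
    exact c1.mul_right c2
  have e3 : cm (M₁ * (A * A₁)) (M₂ * (B * A₂)) = cm (A * A₁) (B * A₂) := cm_comm_mul m4 m1 m2 m5 m3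
  rw [e1, e2, e3] at e0
  -- the commutator of the products
  have hc₁ : cm A B ∈ Subgroup.center Γ := by
    apply C.cm_center
    rw [hA, hB, XS_comm]
  have f1 : A * B = cm A B * (B * A) := by
    simp only [cm]
    group
  have f2 : A₁ * A₂ = cm A₁ A₂ * (A₂ * A₁) := by
    simp only [cm]
    group
  have f3 : A * A₂ = cm A A₂ * (A₂ * A) := by
    simp only [cm]
    group
  have f4 : A₁ * B = cm A₁ B * (B * A₁) := by
    simp only [cm]
    group
  have g1 : cm A A₂ = C.xl v u (bw y z) := C.cm_xl i.symm hA s₂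
  have g2 : cm A₁ B = C.xl v u (- bw y z) := by
    rw [C.cm_xl i s₁ hB, C.xl_symm i]
  have f5 : cm A₁ B * A = A * cm A₁ B := by
    rw [g2]
    exact t₁ hA
  have f6 : cm A A₂ * B = B * cm A A₂ := by
    rw [g1]
    exact t₁ hB
  have key := cm_four f1 f2 f3 f4 hc₁ hcen f5 f6
  have key2 : cm (A * A₁) (B * A₂) = cm A₁ B * cm A B * cm A₁ A₂ * cm A A₂ := by
    simp only [cm] at key ⊢
    rw [key]
    group
  have g3 : cm A₁ B * cm A B * cm A₁ A₂ * cm A A₂ = cm A B * cm A₁ A₂ := by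
    have z1 := Subgroup.mem_center_iff.mp hc₁
    have z2 := Subgroup.mem_center_iff.mp hcen
    rw [g1, g2, C.xl_neg i.symm]
    have hz := Subgroup.mem_center_iff.mp (mul_mem hc₁ hcen) (C.xl v u (bw y z))
    calc (C.xl v u (bw y z))⁻¹ * cm A B * cm A₁ A₂ * C.xl v u (bw y z)
        = (C.xl v u (bw y z))⁻¹ * (cm A B * cm A₁ A₂ * C.xl v u (bw y z)) := by group
      _ = (C.xl v u (bw y z))⁻¹ * (C.xl v u (bw y z) * (cm A B * cm A₁ A₂)) := by rw [hz]
      _ = _ := by group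
  rw [key2, g3] at e0
  exact commute_of_cm (mul_eq_right.mp e0.symm)

end CE

end Cfsg.Agent.Lib.SpinM
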