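import Mathlib
import Cfsg.Agent.Lib.SpinM.Lift2

/-!
# Central extensions of the orthogonal groups of minus type: good lifts and their relations
-/

set_option autoImplicit false
set_option linter.unusedSectionVars false
set_option linter.unusedSimpArgs false
set_option linter.unusedVariables false

namespace Cfsg.Agent.Lib.SpinM

open Matrix QuadraticMap Equiv
open Cfsg.Agent.Lib.Classical.Orth.Basic
open Cfsg.Agent.Lib.Classical.Orth.Models
open Cfsg.Agent.Lib.Classical.Orth.Siegel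
open Cfsg.Agent.Lib.Classical.Orth.Generation
open Cfsg.Agent.Lib.Sporadic.Stem

variable {m : ℕ} {F : Type*} [Field F] {a b : F}

theorem IsM.idx_ne {g : OO m a b} {π : Perm (Ip m)} {c : Ip m → F} {r : Perm (KK a b)} (h : IsM g π c r) {u v : Ip m}
    (huv : idx u ≠ idx v) : idx (π u) ≠ idx (π v) := by
  intro e
  rcases eq_or_swap_of_idx e with e | e
  · exact huv (by rw [π.injective e])
  · rw [← h.swap_eq] at e
    exact huv (by rw [π.injective e, idx_swap])

theorem perm_ri {X : Type*} (r : Perm X) (x : X) : r (r⁻¹ x) = x := by simp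

theorem perm_ir {X : Type*} (r : Perm X) (x : X) : r⁻¹ (r x) = x := by simp

namespace CE

variable {Γ : Type*} [Group Γ] (C : CE m a b Γ) [Fact (∀ r : F, r ^ 2 ≠ -b + a * r)] [Fintype F]

/-- Conjugation of the long lifts. -/
theorem xl_conj {u v : Ip m} (h : idx u ≠ idx v) {γ : Γ} {π : Perm (Ip m)} {c : Ip m → F} {r : Perm (KK a b)}
    (hγ : IsM (C.σ γ) π c r) (t : F) : γ * C.xl u v t * γ⁻¹ = C.xl (π u) (π v) (c u * c v * t) := by
  have e : C.xl u v t = cm (C.lS u 1) (C.lS v (t • y0 a b)) := rfl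
  rw [e, cm_conj]
  have h1 : C.σ (γ * C.lS u 1 * γ⁻¹) = XS (π u) (c u • r 1) := by
    rw [map_mul, map_mul, map_inv, C.lS_map, hγ.conj_XS]
  have h3 : C.σ (γ * C.lS v (t • y0 a b) * γ⁻¹) = XS (π v) (c v • r (t • y0 a b)) := by
    rw [map_mul, map_mul, map_inv, C.lS_map, hγ.conj_XS]
  rw [C.cm_xl (hγ.idx_ne h) h1 h3, bw_smul_left, bw_smul_right, hγ.r_bw, bw_y0]
  congr 1
  ring

omit C [Group Γ] in
/-- The inverse of the rotation minus one. -/
noncomputable def rho (y : KK a b) : KK a b := (zt a b - 1)⁻¹ * y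

omit C [Group Γ] in
theorem zt_sub_ne : zt a b - 1 ≠ 0 := sub_ne_zero.mpr zt_ne_one

omit C [Group Γ] in
theorem rho_add (y z : KK a b) : rho (y + z) = rho y + rho z := by
  simp only [rho]
  ring

omit C [Group Γ] in
theorem rho_mul (ζ y : KK a b) : rho (ζ * y) = ζ * rho y := by
  simp only [rho]
  ring

omit C [Group Γ] in
theorem sub_rho (y : KK a b) : (zt a b - 1) * rho y = y := by
  simp only [rho]
  have := zt_sub_ne (a := a) (b := b)
  field_simp

/-- The good lifts of the short root elements. -/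
noncomputable def xs (u : Ip m) (y : KK a b) : Γ := cm C.dl (C.lS u (rho y))

theorem cm_xs {u : Ip m} {y : KK a b} {x : Γ} (h : C.σ x = XS u (rho y)) : cm C.dl x = C.xs u y :=
  C.cm_congr rfl (h.trans (C.lS_map _ _).symm)

theorem xs_map (u : Ip m) (y : KK a b) : C.σ (C.xs u y) = XS u y := by
  rw [xs, C.map_cm, C.lS_map, cm, C.dl_XS, ← XS_neg, ← XS_add]
  congr 1
  have := sub_rho y
  linear_combination this

theorem xs_add (u : Ip m) (y z : KK a b) : C.xs u (y + z) = C.xs u y * C.xs u z := by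
  have e : C.xs u (y + z) = cm C.dl (C.lS u (rho y) * C.lS u (rho z)) :=
    C.cm_congr rfl (by rw [C.lS_map, map_mul, C.lS_map, C.lS_map, rho_add, XS_add])
  have e1 : cm C.dl (C.lS u (rho y) * C.lS u (rho z)) = C.xs u y * (C.lS u (rho y) * C.xs u z * (C.lS u (rho y))⁻¹) := by
    simp only [xs, cm]
    group
  have c : C.lS u (rho y) * C.xs u z = C.xs u z * C.lS u (rho y) := C.comm_SS_same (C.lS_map _ _) (C.xs_map _ _)
  rw [e, e1, c, mul_inv_cancel_right]

theorem xs_zero (u : Ip m) : C.xs u (0 : KK a b) = 1 := by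
  have := C.xs_add u (0 : KK a b) 0
  rw [add_zero] at this
  exact mul_eq_left.mp this.symm

theorem xs_neg (u : Ip m) (y : KK a b) : C.xs u (-y) = (C.xs u y)⁻¹ := by
  apply eq_inv_of_mul_eq_one_left
  rw [← C.xs_add, neg_add_cancel, C.xs_zero]

/-- Good lifts of the short root groups. -/
structure IsGood (u : Ip m) (y : KK a b → Γ) : Prop where
  map : ∀ t, C.σ (y t) = XS u t
  add : ∀ s t, y (s + t) = y s * y t
  rot : ∀ (β : Γ) (ζ : KK a b) (hζ : ζ ≠ 0), NN' ζ = 1 → IsM (C.σ β) 1 (fun _ => 1) (mulP ζ hζ) → ∀ t, β * y t * β⁻¹ = y (ζ * t)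

theorem xs_good (u : Ip m) : C.IsGood u (C.xs u) := by
  refine ⟨C.xs_map u, C.xs_add u, ?_⟩
  intro β ζ hζ hN hβ t
  rw [xs, cm_conj]
  have e1 : C.σ (β * C.dl * β⁻¹) = C.σ C.dl := by
    rw [map_mul, map_mul, map_inv]
    have h1 := hβ.comm_diag C.isM_dl (fun y => by
      simp only [mulP_apply]
      ring)
    rw [h1]
    group
  have e2 : C.σ (β * C.lS u (rho t) * β⁻¹) = XS u (rho (ζ * t)) := by
    rw [map_mul, map_mul, map_inv, C.lS_map, hβ.conj_XS, rho_mul]
    simp
  rw [C.cm_congr e1 rfl]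
  exact C.cm_xs e2

theorem good_unique {u : Ip m} {y y' : KK a b → Γ} (h : C.IsGood u y) (h' : C.IsGood u y') (t : KK a b) : y t = y' t := by
  have hc : ∀ t, (y t)⁻¹ * y' t ∈ Subgroup.center Γ := by
    intro t
    apply C.mem_center
    rw [map_mul, map_inv, h.map, h'.map, inv_mul_cancel]
  have key := scale_trivial (c := fun t => (y t)⁻¹ * y' t) ?_ (zt_ne_one (a := a) (b := b)) ?_ t
  · have := mul_eq_one_iff_eq_inv.mp key
    exact inv_injective this
  · intro s t
    show (y (s + t))⁻¹ * y' (s + t) = ((y s)⁻¹ * y' s) * ((y t)⁻¹ * y' t)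
    rw [h.add, h'.add]
    have h1 := Subgroup.mem_center_iff.mp (hc s) (y' t)
    calc (y s * y t)⁻¹ * (y' s * y' t) = (y t)⁻¹ * ((y s)⁻¹ * y' s * y' t) := by group
      _ = (y t)⁻¹ * (y' t * ((y s)⁻¹ * y' s)) := by rw [h1]
      _ = ((y t)⁻¹ * y' t) * ((y s)⁻¹ * y' s) := by group
      _ = _ := by rw [Subgroup.mem_center_iff.mp (hc s) _]
  · intro s
    show (y (zt a b * s))⁻¹ * y' (zt a b * s) = (y s)⁻¹ * y' s
    have e1 := h.rot C.dl _ zt_ne zt_N C.isM_dl s
    have e2 := h'.rot C.dl _ zt_ne zt_N C.isM_dl s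
    rw [← e1, ← e2]
    have := conj_central C.dl (hc s)
    rw [← this]
    group

/-- **Transport**: conjugation of the good lifts by a lift of a monomial element. -/
theorem xs_conj (u : Ip m) {γ : Γ} {π : Perm (Ip m)} {c : Ip m → F} {r : Perm (KK a b)} (h : IsM (C.σ γ) π c r) (t : KK a b) :
    γ * C.xs u t * γ⁻¹ = C.xs (π u) (c u • r t) := by
  have hc := h.ne u
  set κ := c u with hκ
  have hg : C.IsGood (π u) (fun t => γ * C.xs u (r⁻¹ (κ⁻¹ • t)) * γ⁻¹) := by
    refine ⟨?_, ?_, ?_⟩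
    · intro t
      rw [map_mul, map_mul, map_inv, C.xs_map, h.conj_XS, ← hκ]
      rw [perm_ri, smul_smul, mul_inv_cancel₀ hc, one_smul]
    · intro s t
      have h2 := h.inv
      have e : r⁻¹ (κ⁻¹ • (s + t)) = r⁻¹ (κ⁻¹ • s) + r⁻¹ (κ⁻¹ • t) := by
        rw [smul_add, h2.r_add]
      rw [e, C.xs_add]
      group
    · intro β ζ hζ hN hβ t
      obtain ⟨ζ', h1, h3⟩ := isometry_conj (r := ⇑r) h.r_add h.r_smul h.r_N hN
      have hζ' : ζ' ≠ 0 := fun e => by
        rw [e] at h1
        simp at h1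
      have hM := h.conj_of_diag hβ
      have e0 : r⁻¹ * mulP ζ hζ * r = mulP ζ' hζ' := by
        ext1 z
        have e1 : (r⁻¹ * mulP ζ hζ * r : Perm (KK a b)) z = r⁻¹ (ζ * r z) := rfl
        rw [e1, mulP_apply, ← h3, perm_ir]
      rw [e0] at hM
      rw [← map_inv, ← map_mul, ← map_mul] at hM
      have e2 := (C.xs_good u).rot _ ζ' hζ' h1 hM (r⁻¹ (κ⁻¹ • t))
      have e3 : r⁻¹ (κ⁻¹ • (ζ * t)) = ζ' * r⁻¹ (κ⁻¹ • t) := by
        apply r.injective
        rw [perm_ri, h3, perm_ri]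
        rw [Algebra.smul_def, Algebra.smul_def]
        ring
      show β * (γ * C.xs u (r⁻¹ (κ⁻¹ • t)) * γ⁻¹) * β⁻¹ = γ * C.xs u (r⁻¹ (κ⁻¹ • (ζ * t))) * γ⁻¹
      rw [e3, ← e2]
      group
  have := C.good_unique hg (C.xs_good (π u)) (κ • r t)
  simp only [smul_smul, inv_mul_cancel₀ hc, one_smul, perm_ir] at this
  exact this

/-! ### The relations -/

theorem comm_sl {u v : Ip m} (h : idx u ≠ idx v) (y : KK a b) (t : F) : C.xs u y * C.xl u v t = C.xl u v t * C.xs u y :=
  C.comm_x_l (Or.inl ⟨rfl, h⟩) (C.xs_map _ _) (C.xl_map h t)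

theorem comm_sl' {u v : Ip m} (h : idx u ≠ idx v) (y : KK a b) (t : F) : C.xs v y * C.xl u v t = C.xl u v t * C.xs v y :=
  C.comm_x_l (Or.inr (Or.inl ⟨rfl, h.symm⟩)) (C.xs_map _ _) (C.xl_map h t)

theorem comm_far_s {u v w : Ip m} (h1 : idx u ≠ idx v) (h2 : idx u ≠ idx w) (h3 : idx v ≠ idx w) (y : KK a b) (t : F) :
    C.xs u y * C.xl v w t = C.xl v w t * C.xs u y :=
  C.comm_x_l (Or.inr (Or.inr ⟨h1, h2, h3⟩)) (C.xs_map _ _) (C.xl_map h3 t)

theorem comm_ss (u : Ip m) (y z : KK a b) : C.xs u y * C.xs u z = C.xs u z * C.xs u y :=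
  C.comm_SS_same (C.xs_map _ _) (C.xs_map _ _)

theorem rel_T3 {u v : Ip m} (h : idx u ≠ idx v) (y z : KK a b) : cm (C.xs u y) (C.xs v z) = C.xl u v (bw y z) :=
  C.cm_xl h (C.xs_map _ _) (C.xs_map _ _)

/-- A long lift as a commutator of good lifts. -/
theorem xl_eq_cm {u v : Ip m} (h : idx u ≠ idx v) (t : F) : C.xl u v t = cm (C.xs u 1) (C.xs v (t • y0 a b)) := by
  rw [C.rel_T3 h, bw_y0]

/-- Long root elements with the same first coordinate commute. -/
theorem comm_ll {u v w : Ip m} (h1 : idx u ≠ idx v) (h2 : idx u ≠ idx w) (h3 : idx v ≠ idx w) (s t : F) :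
    C.xl u v s * C.xl u w t = C.xl u w t * C.xl u v s := by
  rw [C.xl_eq_cm h1]
  have c1 : C.xl u w t * C.xs u 1 = C.xs u 1 * C.xl u w t := (C.comm_sl h2 _ _).symm
  have c2 : C.xl u w t * C.xs v (s • y0 a b) = C.xs v (s • y0 a b) * C.xl u w t := (C.comm_far_s h1.symm h3 h2 _ _).symm
  exact (comm_cm c1 c2).symm

/-- Far away long root elements commute. -/
theorem comm_far_l {u v w x : Ip m} (h1 : idx u ≠ idx v) (h2 : idx u ≠ idx w) (h3 : idx u ≠ idx x) (h4 : idx v ≠ idx w)
    (h5 : idx v ≠ idx x) (h6 : idx w ≠ idx x) (s t : F) :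
    C.xl u v s * C.xl w x t = C.xl w x t * C.xl u v s := by
  rw [C.xl_eq_cm h1]
  have c1 : C.xl w x t * C.xs u 1 = C.xs u 1 * C.xl w x t := (C.comm_far_s h2 h3 h6 _ _).symm
  have c2 : C.xl w x t * C.xs v (s • y0 a b) = C.xs v (s • y0 a b) * C.xl w x t := (C.comm_far_s h4 h5 h6 _ _).symm
  exact (comm_cm c1 c2).symm

theorem bw_rho (y : KK a b) : bw (rho y) y = - NN' y := by
  have := cayley zt_N (rho y)
  rwa [sub_rho] at this

/-- The relation between a long and a short root element. -/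
theorem rel_T4 {u v : Ip m} (h : idx u ≠ idx v) (s : F) (y : KK a b) :
    cm (C.xl u v s) (C.xs v.swap y) = C.xs u (-(s • y)) * C.xl u v.swap (s * NN' y) := by
  have h' : idx u ≠ idx v.swap := by rwa [idx_swap]
  set ℓ := C.xl u v s with hℓ
  set y' := rho y with hy'
  set Q := C.lS v.swap y' with hQ
  set P := C.lS u (-(s • y')) with hP
  set R := C.xl u v.swap (s * NN' y') with hR
  have d : C.dl * ℓ = ℓ * C.dl := C.dl_comm_long h (C.xl_map h s)
  have e0 : ℓ * C.xs v.swap y * ℓ⁻¹ = cm C.dl (ℓ * Q * ℓ⁻¹) := by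
    rw [xs, cm_conj]
    congr 1
    rw [← d]
    group
  have e1 : cm C.dl (ℓ * Q * ℓ⁻¹) = cm C.dl (P * R * Q) := by
    refine C.cm_congr rfl ?_
    rw [map_mul, map_mul, map_mul, map_mul, map_inv, hℓ, hQ, hP, hR, C.xl_map h, C.lS_map, C.lS_map, C.xl_map h',
      real_T4 s y' h]
    group
  have e2 : cm C.dl (P * R * Q) = cm C.dl P * (P * cm C.dl R * P⁻¹) * ((P * R) * cm C.dl Q * (P * R)⁻¹) := by
    simp only [cm]
    group
  have e3 : cm C.dl R = 1 := cm_eq_one_of_comm (C.dl_comm_long h' (C.xl_map h' _))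
  have e4 : cm C.dl P = C.xs u (-(s • y)) := by
    apply C.cm_xs
    rw [hP, C.lS_map]
    congr 1
    simp only [hy', rho, Algebra.smul_def]
    ring
  have e5 : cm C.dl Q = C.xs v.swap y := C.cm_xs (C.lS_map _ _)
  have e6 : R * C.xs v.swap y = C.xs v.swap y * R := (C.comm_sl' h' _ _).symm
  have e7 : cm P (C.xs v.swap y) = C.xl u v.swap (s * NN' y) := by
    rw [C.cm_xl h' (C.lS_map _ _) (C.xs_map _ _), bw_neg_left, bw_smul_left, hy', bw_rho]
    congr 1
    ring
  have e8 : (P * R) * C.xs v.swap y * (P * R)⁻¹ = C.xl u v.swap (s * NN' y) * C.xs v.swap y := by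
    rw [← e7]
    have : (P * R) * C.xs v.swap y * (P * R)⁻¹ = P * (R * C.xs v.swap y) * R⁻¹ * P⁻¹ := by group
    rw [this, e6]
    simp only [cm]
    group
  rw [e5, e8, e3, e4] at e2
  have e9 : ℓ * C.xs v.swap y * ℓ⁻¹ = C.xs u (-(s • y)) * (C.xl u v.swap (s * NN' y) * C.xs v.swap y) := by
    rw [e0, e1, e2]
    group
  rw [cm, e9]
  group

/-- The relation between two long root elements. -/
theorem rel_T2 {u v w : Ip m} (h1 : idx u ≠ idx v) (h2 : idx u ≠ idx w) (h3 : idx v ≠ idx w) (s t : F) :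
    cm (C.xl u v s) (C.xl v.swap w t) = C.xl u w (-(s * t)) := by
  have h1' : idx u ≠ idx v.swap := by rwa [idx_swap]
  have h3' : idx v.swap ≠ idx w := by rwa [idx_swap]
  set ℓ := C.xl u v s with hℓ
  set X := C.xl v.swap w t with hX
  set A := C.xs v.swap (1 : KK a b) with hA
  set B := C.xs w (t • y0 a b) with hB
  have eX : X = cm A B := C.xl_eq_cm h3' t
  have t4 := C.rel_T4 h1 s (1 : KK a b)
  rw [N_one, mul_one] at t4
  set P := C.xs u (-(s • (1 : KK a b))) with hP
  set M := C.xl u v.swap s with hM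
  have e1 : ℓ * A * ℓ⁻¹ = P * M * A := by
    have e : cm ℓ A = P * M := t4
    rw [← e]
    simp only [cm]
    group
  have e2 : ℓ * B * ℓ⁻¹ = B := by
    have : B * ℓ = ℓ * B := C.comm_far_s h2.symm h3.symm h1 _ _
    rw [← this]
    group
  have e3 : M * B = B * M := (C.comm_far_s h2.symm (by rwa [idx_swap, ne_comm]) h1' _ _).symm
  have e4 : cm P B = C.xl u w (-(s * t)) := by
    rw [C.rel_T3 h2, bw_neg_left, bw_smul_left, bw_y0]
  have e5 : P * X = X * P := by
    rw [hX]
    exact C.comm_far_s h1' h2 h3' _ _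
  have e6 : M * X = X * M := by
    rw [hM, hX, C.xl_symm h1' s]
    exact C.comm_ll h1'.symm h3' h2 _ _
  have e7 : X * C.xl u w (-(s * t)) = C.xl u w (-(s * t)) * X := by
    rw [hX, C.xl_symm h3', C.xl_symm h2]
    exact C.comm_ll h3'.symm h2.symm h1'.symm _ _
  have e8 : ℓ * X * ℓ⁻¹ = X * C.xl u w (-(s * t)) := by
    rw [eX, cm_conj, e1, e2, ← eX, ← e4]
    have c1 : Commute (P * M) X := (show Commute P X from e5).mul_left (show Commute M X from e6)
    have e9 : cm (P * M * A) B = (P * M) * cm A B * (P * M)⁻¹ * cm (P * M) B := by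
      simp only [cm]
      group
    have e10 : cm (P * M) B = cm P B := by
      have : cm (P * M) B = P * cm M B * P⁻¹ * cm P B := by
        simp only [cm]
        group
      rw [this, cm_eq_one_of_comm e3]
      group
    rw [e9, e10, ← eX, c1.eq]
    group
  rw [cm, e8, e7]
  group

/-- Long root elements with the same first coordinate and opposite second coordinates commute. -/
theorem comm_opp {u v : Ip m} (h : idx u ≠ idx v) (r s : F) :
    C.xl u v r * C.xl u v.swap s = C.xl u v.swap s * C.xl u v r := by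
  have h' : idx u ≠ idx v.swap := by rwa [idx_swap]
  set ℓ := C.xl u v.swap s with hℓ
  set X := C.xl u v r with hX
  set A := C.xs u (1 : KK a b) with hA
  set B := C.xs v (r • y0 a b) with hB
  have eX : X = cm A B := C.xl_eq_cm h r
  have t4 := C.rel_T4 h' s (r • y0 a b)
  rw [Sum.swap_swap] at t4
  set P := C.xs u (-(s • (r • y0 a b))) with hP
  set M := C.xl u v (s * NN' (r • y0 a b)) with hM
  have e1 : ℓ * B * ℓ⁻¹ = P * M * B := by
    have e : cm ℓ B = P * M := t4
    rw [← e]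
    simp only [cm]
    group
  have e2 : ℓ * A * ℓ⁻¹ = A := by
    have : A * ℓ = ℓ * A := C.comm_sl h' _ _
    rw [← this]
    group
  have c1 : A * P = P * A := C.comm_ss _ _ _
  have c2 : A * M = M * A := C.comm_sl h _ _
  have c3 : P * X = X * P := C.comm_sl h _ _
  have c4 : M * X = X * M := C.xl_comm_add h _ _
  have e3 : ℓ * X * ℓ⁻¹ = X := by
    rw [eX, cm_conj, e1, e2, ← eX]
    have e4 : cm A (P * M * B) = (P * M) * cm A B * (P * M)⁻¹ := by
      have c5 : A * (P * M) = (P * M) * A := by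
        have : Commute A (P * M) := (show Commute A P from c1).mul_right (show Commute A M from c2)
        exact this
      have : cm A (P * M * B) = A * (P * M) * B * A⁻¹ * B⁻¹ * (P * M)⁻¹ := by
        simp only [cm]
        group
      rw [this, c5]
      simp only [cm]
      group
    rw [e4, ← eX]
    have c6 : Commute (P * M) X := (show Commute P X from c3).mul_left (show Commute M X from c4)
    rw [c6.eq]
    group
  rw [mul_inv_eq_iff_eq_mul] at e3
  exact e3.symm

/-! ### Uniform notation -/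

/-- The lifts of all root elements. -/
noncomputable def xg (u : Ip m) (k : Kd m) (y : KK a b) : Γ :=
  Sum.elim (fun _ => C.xs u y) (fun v => C.xl u v y.re) k

@[simp] theorem xg_inl (u : Ip m) (x : Unit) (y : KK a b) : C.xg u (.inl x) y = C.xs u y := rfl
@[simp] theorem xg_inr (u v : Ip m) (y : KK a b) : C.xg u (.inr v) y = C.xl u v y.re := rfl

omit [Fact (∀ r : F, r ^ 2 ≠ -b + a * r)] [Fintype F] in
theorem val_idx {u v : Ip m} (h : Val u (.inr v)) : idx u ≠ idx v := by
  intro e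
  rcases eq_or_swap_of_idx e with e | e
  · exact h.1 (by rw [e])
  · exact h.2 (by rw [e])

omit [Fact (∀ r : F, r ^ 2 ≠ -b + a * r)] [Fintype F] in
theorem val_long {u v : Ip m} (h : idx u ≠ idx v) : Val u (.inr v) :=
  ⟨fun e => h (by rw [Sum.inr_injective e]), fun e => h (by rw [Sum.inr_injective e, idx_swap])⟩

omit [Fact (∀ r : F, r ^ 2 ≠ -b + a * r)] [Fintype F] in
theorem val_zr (u : Ip m) : Val u (.inl ()) := ⟨by simp, by simp⟩

theorem xg_map {u : Ip m} {k : Kd m} (hv : Val u k) (y : KK a b) : C.σ (C.xg u k y) = XX u k y := by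
  rcases k with ⟨⟩ | v
  · exact C.xs_map u y
  · exact C.xl_map (val_idx hv) _

theorem xg_add {u : Ip m} {k : Kd m} (hv : Val u k) (y z : KK a b) : C.xg u k (y + z) = C.xg u k y * C.xg u k z := by
  rcases k with ⟨⟩ | v
  · exact C.xs_add u y z
  · simp only [xg_inr, QuadraticAlgebra.re_add]
    exact C.xl_add (val_idx hv) _ _

theorem xg_zero {u : Ip m} {k : Kd m} (hv : Val u k) : C.xg u k (0 : KK a b) = 1 := by
  have := C.xg_add hv (0 : KK a b) 0
  rw [add_zero] at this
  exact mul_eq_left.mp this.symm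

theorem xg_neg {u : Ip m} {k : Kd m} (hv : Val u k) (y : KK a b) : C.xg u k (-y) = (C.xg u k y)⁻¹ := by
  apply eq_inv_of_mul_eq_one_left
  rw [← C.xg_add hv, neg_add_cancel, C.xg_zero hv]

end CE

end Cfsg.Agent.Lib.SpinM
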