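import Mathlib
import Cfsg.Agent.Lib.SpinM.Good

/-!
# Central extensions of the orthogonal groups of minus type: the positive root elements
-/

set_option autoImplicit false
set_option linter.unusedSectionVars false
set_option linter.unusedSimpArgs false
set_option linter.unusedVariables false

namespace Cfsg.Agent.Lib.SpinM

open Matrix QuadraticMap Equiv
open Cfsg.Agent.Lib.Classical.Orth.Basic
open Cfsg.Agent.Lib.Classical.Orth.Models
open Cfsg.Agent.Lib.Classical.Orth.Siegel
open Cfsg.Agent.Lib.Classical.Orth.Generation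
open Cfsg.Agent.Lib.Sporadic.Stem

variable {m : ℕ} {F : Type*} [Field F] {a b : F}

/-- The short root name. -/
abbrev zr : Kd m := .inl ()

/-- The position of a root name. -/
def pos : Kd m → ℕ
  | .inl _ => m
  | .inr (.inl a) => a
  | .inr (.inr a) => 2 * m - a

@[simp] theorem pos_zr (x : Unit) : pos (.inl x : Kd m) = m := rfl
@[simp] theorem pos_l (a : Fin m) : pos (.inr (.inl a) : Kd m) = a := rfl
@[simp] theorem pos_r (a : Fin m) : pos (.inr (.inr a) : Kd m) = 2 * m - a := rfl

/-- The opposite name. -/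
def bar : Kd m → Kd m := Sum.map id Sum.swap

@[simp] theorem bar_inl (x : Unit) : bar (.inl x : Kd m) = .inl x := rfl
@[simp] theorem bar_inr (u : Ip m) : bar (.inr u : Kd m) = .inr u.swap := rfl
@[simp] theorem bar_bar (k : Kd m) : bar (bar k) = k := by
  rcases k with x | u <;> simp

theorem pos_swap (u : Ip m) : pos (.inr u.swap : Kd m) = 2 * m - pos (.inr u : Kd m) := by
  rcases u with a | a <;> simp <;> omega

theorem pos_le (k : Kd m) : pos k ≤ 2 * m := by
  rcases k with x | a | a <;> simp <;> omega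

theorem pos_bar (k : Kd m) : pos (bar k) = 2 * m - pos k := by
  rcases k with x | u
  · simp
    omega
  · simpa using pos_swap u

theorem pos_ne (u : Ip m) : pos (.inr u : Kd m) ≠ m := by
  rcases u with a | a <;> simp <;> omega

theorem pos_inj {k l : Kd m} (h : pos k = pos l) : k = l := by
  rcases k with x | a | a <;> rcases l with y | b | b <;> simp at h
  · rfl
  · omega
  · omega
  · omega
  · rw [Fin.ext h]
  · omega
  · omega
  · omega
  · have : a = b := Fin.ext (by omega)
    rw [this]

/-- The positive roots. -/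
def Pr (u : Ip m) (k : Kd m) : Prop := Val u k ∧ pos (.inr u : Kd m) + pos k < 2 * m

/-- The height of a root. -/
def ht (u : Ip m) (k : Kd m) : ℕ := 2 * m - (pos (.inr u : Kd m) + pos k)

open CE in
theorem Pr.symm {u v : Ip m} (h : Pr u (.inr v)) : Pr v (.inr u) :=
  ⟨val_long (val_idx h.1).symm, by have := h.2; omega⟩

theorem ht_symm (u v : Ip m) : ht u (.inr v) = ht v (.inr u) := by
  simp only [ht]
  omega

namespace CE

variable {Γ : Type*} [Group Γ] (C : CE m a b Γ) [Fact (∀ r : F, r ^ 2 ≠ -b + a * r)] [Fintype F]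

/-- The subgroup generated by the root elements of positive roots of height larger than `h`. -/
def UH (h : ℕ) : Subgroup Γ :=
  Subgroup.closure {g | ∃ (u : Ip m) (k : Kd m) (y : KK a b), Pr u k ∧ h < ht u k ∧ g = C.xg u k y}

theorem mem_UH {h : ℕ} {u : Ip m} {k : Kd m} (hr : Pr u k) (hh : h < ht u k) (y : KK a b) : C.xg u k y ∈ C.UH h :=
  Subgroup.subset_closure ⟨u, k, y, hr, hh, rfl⟩

theorem mem_UH_s {h : ℕ} {u : Ip m} (hr : Pr u zr) (hh : h < ht u zr) (y : KK a b) : C.xs u y ∈ C.UH h :=
  C.mem_UH hr hh y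

theorem mem_UH_l {h : ℕ} {u v : Ip m} (hr : Pr u (.inr v)) (hh : h < ht u (.inr v)) (t : F) : C.xl u v t ∈ C.UH h := by
  have := C.mem_UH hr hh (QuadraticAlgebra.C t)
  rwa [xg_inr, QuadraticAlgebra.re_C] at this

/-- The commutator with a short root element, first case. -/
theorem cm_short_same {u v w : Ip m} (h1 : Pr u zr) (h2 : Pr v (.inr w)) (he : idx u = idx v) (s : KK a b) (t : F) :
    cm (C.xs u s) (C.xl v w t) ∈ C.UH (max (ht u zr) (ht v (.inr w))) := by
  have hi := val_idx h2.1
  rcases eq_or_swap_of_idx he with rfl | rfl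
  · rw [cm_eq_one_of_comm (C.comm_sl hi s t)]
    exact one_mem _
  · have a1 := h1.2
    have a2 := h2.2
    rw [pos_swap] at a2
    simp only [pos_zr] at a1
    have hi' : idx u ≠ idx w := by simpa using hi
    have e0 : C.xl u.swap w t = C.xl w u.swap (-t) := C.xl_symm hi t
    have hw : idx w ≠ idx u.swap := by simpa using hi'.symm
    have e1 := C.rel_T4 hw (-t) s
    rw [Sum.swap_swap] at e1
    have e2 : cm (C.xs u s) (C.xl u.swap w t) = (cm (C.xl w u.swap (-t)) (C.xs u s))⁻¹ := by
      rw [e0, cm_inv]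
    rw [e2, e1]
    have p1 := pos_le (.inr u : Kd m)
    have r1 : Pr w zr := ⟨val_zr w, by simp; omega⟩
    have r2 : Pr w (.inr u) := ⟨val_long hi'.symm, by omega⟩
    refine inv_mem (mul_mem (C.mem_UH_s r1 ?_ _) (C.mem_UH_l r2 ?_ _))
    · simp only [ht, pos_swap, pos_zr]
      omega
    · simp only [ht, pos_swap, pos_zr]
      omega

/-- The commutator with a short root element. -/
theorem cm_short_long {u v w : Ip m} (h1 : Pr u zr) (h2 : Pr v (.inr w)) (s : KK a b) (t : F) :
    cm (C.xs u s) (C.xl v w t) ∈ C.UH (max (ht u zr) (ht v (.inr w))) := by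
  have hi := val_idx h2.1
  by_cases e1 : idx u = idx v
  · exact C.cm_short_same h1 h2 e1 s t
  by_cases e2 : idx u = idx w
  · rw [C.xl_symm hi, ht_symm]
    exact C.cm_short_same h1 h2.symm e2 s _
  · rw [cm_eq_one_of_comm (C.comm_far_s e1 e2 hi s t)]
    exact one_mem _

/-- The commutator of two short root elements. -/
theorem cm_short_short {u v : Ip m} (h1 : Pr u zr) (h2 : Pr v zr) (s t : KK a b) :
    cm (C.xs u s) (C.xs v t) ∈ C.UH (max (ht u zr) (ht v zr)) := by
  have a1 := h1.2
  have a2 := h2.2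
  simp only [pos_zr] at a1 a2
  by_cases e : idx u = idx v
  · rcases eq_or_swap_of_idx e with rfl | rfl
    · rw [cm_eq_one_of_comm (C.comm_ss v s t)]
      exact one_mem _
    · rw [pos_swap] at a2
      have := pos_le (.inr u : Kd m)
      omega
  · rw [C.rel_T3 e]
    have r : Pr u (.inr v) := ⟨val_long e, by omega⟩
    refine C.mem_UH_l r ?_ _
    simp only [ht, pos_zr]
    omega

/-- The commutator of two long root elements with a common index. -/
theorem cm_long_same {p q r' d : Ip m} (h1 : Pr p (.inr q)) (h2 : Pr r' (.inr d)) (he : idx p = idx r') (s t : F) :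
    cm (C.xl p q s) (C.xl r' d t) ∈ C.UH (max (ht p (.inr q)) (ht r' (.inr d))) := by
  have i1 := val_idx h1.1
  have i2 := val_idx h2.1
  have a1 := h1.2
  have a2 := h2.2
  rcases eq_or_swap_of_idx he with rfl | rfl
  · by_cases e : idx q = idx d
    · rcases eq_or_swap_of_idx e with rfl | rfl
      · rw [cm_eq_one_of_comm (C.xl_comm_add i1 s t)]
        exact one_mem _
      · rw [cm_eq_one_of_comm (C.comm_opp i1 s t)]
        exact one_mem _
    · rw [cm_eq_one_of_comm (C.comm_ll i1 i2 e s t)]
      exact one_mem _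
  · have i2' : idx p ≠ idx d := by simpa using i2
    rw [pos_swap] at a2
    have p1 := pos_le (.inr p : Kd m)
    by_cases e : idx q = idx d
    · rcases eq_or_swap_of_idx e with rfl | rfl
      · rw [C.xl_symm i1, C.xl_symm i2, cm_eq_one_of_comm (C.comm_opp i1.symm _ _)]
        exact one_mem _
      · rw [pos_swap] at a2
        have p2 := pos_le (.inr q : Kd m)
        omega
    · rw [C.xl_symm i1, C.rel_T2 i1.symm e i2']
      have r : Pr q (.inr d) := ⟨val_long e, by omega⟩
      refine C.mem_UH_l r ?_ _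
      simp only [ht, pos_swap]
      omega

/-- The commutator of two long root elements. -/
theorem cm_long_long {p q r' d : Ip m} (h1 : Pr p (.inr q)) (h2 : Pr r' (.inr d)) (s t : F) :
    cm (C.xl p q s) (C.xl r' d t) ∈ C.UH (max (ht p (.inr q)) (ht r' (.inr d))) := by
  have i1 := val_idx h1.1
  have i2 := val_idx h2.1
  by_cases e1 : idx p = idx r'
  · exact C.cm_long_same h1 h2 e1 s t
  by_cases e2 : idx p = idx d
  · rw [C.xl_symm i2, ht_symm r']
    exact C.cm_long_same h1 h2.symm e2 s _
  by_cases e3 : idx q = idx r'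
  · rw [C.xl_symm i1, ht_symm p]
    exact C.cm_long_same h1.symm h2 e3 _ t
  by_cases e4 : idx q = idx d
  · rw [C.xl_symm i1, C.xl_symm i2, ht_symm p, ht_symm r']
    exact C.cm_long_same h1.symm h2.symm e4 _ _
  · rw [cm_eq_one_of_comm (C.comm_far_l i1 e1 e2 e3 e4 i2 s t)]
    exact one_mem _

/-- **The commutator relations.** -/
theorem cm_mem {u v : Ip m} {k l : Kd m} (h1 : Pr u k) (h2 : Pr v l) (s t : KK a b) :
    cm (C.xg u k s) (C.xg v l t) ∈ C.UH (max (ht u k) (ht v l)) := by
  rcases k with ⟨⟩ | w <;> rcases l with ⟨⟩ | y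
  · exact C.cm_short_short h1 h2 s t
  · exact C.cm_short_long h1 h2 s _
  · rw [← cm_inv, max_comm]
    exact inv_mem (C.cm_short_long h2 h1 t _)
  · exact C.cm_long_long h1 h2 _ _

/-! ### The chain -/

omit C [Group Γ] [Fact (∀ r : F, r ^ 2 ≠ -b + a * r)] [Fintype F] in
/-- The keys of positive roots. -/
def key (u : Ip m) (k : Kd m) : ℕ := ht u k * (2 * m + 2) + min (pos k) (pos (.inr u : Kd m))

/-- The subgroup generated by the root elements of positive roots of key larger than `n`. -/
def Qa (n : ℕ) : Subgroup Γ :=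
  Subgroup.closure {g | ∃ (u : Ip m) (k : Kd m) (y : KK a b), Pr u k ∧ n < key u k ∧ g = C.xg u k y}

theorem mem_Qa {n : ℕ} {u : Ip m} {k : Kd m} (hr : Pr u k) (hh : n < key u k) (t : KK a b) : C.xg u k t ∈ C.Qa n :=
  Subgroup.subset_closure ⟨u, k, t, hr, hh, rfl⟩

omit C [Group Γ] [Fact (∀ r : F, r ^ 2 ≠ -b + a * r)] [Fintype F] in
theorem key_lt {u v : Ip m} {k l : Kd m} (h : ht u k < ht v l) : key u k < key v l := by
  have h1 : min (pos k) (pos (.inr u : Kd m)) ≤ 2 * m := (min_le_left _ _).trans (pos_le k)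
  have h2 : (ht u k + 1) * (2 * m + 2) ≤ ht v l * (2 * m + 2) := Nat.mul_le_mul_right _ h
  simp only [key]
  have h3 : (ht u k + 1) * (2 * m + 2) = ht u k * (2 * m + 2) + (2 * m + 2) := by ring
  omega

theorem UH_le_Qa {u : Ip m} {k : Kd m} {n : ℕ} (hh : n < key u k) : C.UH (ht u k) ≤ C.Qa n := by
  rw [UH, Subgroup.closure_le]
  rintro _ ⟨v, l, t, h1, h2, rfl⟩
  exact C.mem_Qa h1 (hh.trans (key_lt h2)) t

/-- Normalisation of the chain. -/
theorem Qa_norm {u : Ip m} {k : Kd m} (hr : Pr u k) {n : ℕ} (ha : key u k ≤ n) (s : KK a b) {g : Γ}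
    (hg : g ∈ C.Qa n) : C.xg u k s * g * (C.xg u k s)⁻¹ ∈ C.Qa n := by
  induction hg using Subgroup.closure_induction with
  | mem y hy =>
    obtain ⟨v, l, t, h1, h2, rfl⟩ := hy
    have e : C.xg u k s * C.xg v l t * (C.xg u k s)⁻¹ = cm (C.xg u k s) (C.xg v l t) * C.xg v l t := by
      simp only [cm]
      group
    rw [e]
    refine mul_mem ?_ (C.mem_Qa h1 h2 t)
    have h3 := C.cm_mem hr h1 s t
    have h4 : C.UH (max (ht u k) (ht v l)) ≤ C.UH (ht v l) := by
      rw [UH, UH]
      apply Subgroup.closure_mono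
      rintro _ ⟨w, x, t', h5, h6, rfl⟩
      exact ⟨w, x, t', h5, lt_of_le_of_lt (le_max_right _ _) h6, rfl⟩
    exact C.UH_le_Qa h2 (h4 h3)
  | one =>
    simp
  | mul x y _ _ hx hy =>
    have e : C.xg u k s * (x * y) * (C.xg u k s)⁻¹ =
        (C.xg u k s * x * (C.xg u k s)⁻¹) * (C.xg u k s * y * (C.xg u k s)⁻¹) := by group
    rw [e]
    exact mul_mem hx hy
  | inv x _ hx =>
    have e : C.xg u k s * x⁻¹ * (C.xg u k s)⁻¹ = (C.xg u k s * x * (C.xg u k s)⁻¹)⁻¹ := by group
    rw [e]
    exact inv_mem hx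

omit C [Group Γ] [Fact (∀ r : F, r ^ 2 ≠ -b + a * r)] [Fintype F] in
/-- Two positive roots with the same key are the same. -/
theorem key_inj {u v : Ip m} {k l : Kd m} (h1 : Pr u k) (h2 : Pr v l) (h : key u k = key v l) :
    (v = u ∧ l = k) ∨ (l = .inr u ∧ k = .inr v) := by
  have m1 : min (pos k) (pos (.inr u : Kd m)) < 2 * m + 2 := by
    have := (min_le_left (pos k) (pos (.inr u : Kd m))).trans (pos_le k)
    omega
  have m2 : min (pos l) (pos (.inr v : Kd m)) < 2 * m + 2 := by
    have := (min_le_left (pos l) (pos (.inr v : Kd m))).trans (pos_le l)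
    omega
  simp only [key] at h
  have e1 : ht u k = ht v l := by
    rcases lt_trichotomy (ht u k) (ht v l) with h3 | h3 | h3
    · have : (ht u k + 1) * (2 * m + 2) ≤ ht v l * (2 * m + 2) := Nat.mul_le_mul_right _ h3
      have e : (ht u k + 1) * (2 * m + 2) = ht u k * (2 * m + 2) + (2 * m + 2) := by ring
      omega
    · exact h3
    · have : (ht v l + 1) * (2 * m + 2) ≤ ht u k * (2 * m + 2) := Nat.mul_le_mul_right _ h3
      have e : (ht v l + 1) * (2 * m + 2) = ht v l * (2 * m + 2) + (2 * m + 2) := by ring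
      omega
  rw [e1] at h
  have e2 : min (pos k) (pos (.inr u : Kd m)) = min (pos l) (pos (.inr v : Kd m)) := by omega
  simp only [ht] at e1
  have a1 := h1.2
  have a2 := h2.2
  have hp : (pos (.inr v : Kd m) = pos (.inr u : Kd m) ∧ pos l = pos k) ∨
      (pos l = pos (.inr u : Kd m) ∧ pos (.inr v : Kd m) = pos k) := by
    rcases le_total (pos k) (pos (.inr u : Kd m)) with h3 | h3 <;>
      rcases le_total (pos l) (pos (.inr v : Kd m)) with h4 | h4 <;>
      simp only [min_eq_left, min_eq_right, h3, h4] at e2 <;> omega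
  rcases hp with ⟨p1, p2⟩ | ⟨p1, p2⟩
  · left
    exact ⟨Sum.inr_injective (pos_inj p1), pos_inj p2⟩
  · right
    exact ⟨pos_inj p1, (pos_inj p2).symm⟩

/-- The decomposition. -/
theorem Qa_dec {u : Ip m} {k : Kd m} (hr : Pr u k) {n : ℕ} (ha : key u k = n + 1) {g : Γ}
    (hg : g ∈ C.Qa n) : ∃ t : KK a b, ∃ g' ∈ C.Qa (n + 1), g = C.xg u k t * g' := by
  have hle : key u k ≤ n + 1 := ha.le
  induction hg using Subgroup.closure_induction with
  | mem y hy =>
    obtain ⟨v, l, t, h1, h2, rfl⟩ := hy
    by_cases h3 : n + 1 < key v l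
    · exact ⟨0, _, C.mem_Qa h1 h3 t, by rw [C.xg_zero hr.1, one_mul]⟩
    · have h4 : key u k = key v l := by omega
      rcases key_inj hr h1 h4 with ⟨rfl, rfl⟩ | ⟨rfl, rfl⟩
      · exact ⟨t, 1, one_mem _, by rw [mul_one]⟩
      · refine ⟨-t, 1, one_mem _, ?_⟩
        rw [mul_one, xg_inr, xg_inr, C.xl_symm (val_idx hr.1).symm]
        simp
  | one => exact ⟨0, 1, one_mem _, by rw [C.xg_zero hr.1, one_mul]⟩
  | mul x y _ _ hx hy =>
    obtain ⟨t₁, g₁, h1, rfl⟩ := hx
    obtain ⟨t₂, g₂, h2, rfl⟩ := hy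
    refine ⟨t₁ + t₂, (C.xg u k t₂)⁻¹ * g₁ * C.xg u k t₂ * g₂, mul_mem ?_ h2, ?_⟩
    · have := C.Qa_norm hr hle (-t₂) h1
      rw [C.xg_neg hr.1, inv_inv] at this
      exact this
    · rw [C.xg_add hr.1]
      group
  | inv x _ hx =>
    obtain ⟨t, g', h1, rfl⟩ := hx
    refine ⟨-t, C.xg u k t * g'⁻¹ * (C.xg u k t)⁻¹, C.Qa_norm hr hle t (inv_mem h1), ?_⟩
    rw [C.xg_neg hr.1]
    group

end CE

/-! ### The real reading -/

/-- The position of a coordinate. -/
def posC : Cd m → ℕ
  | .inl u => pos (.inr u : Kd m)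
  | .inr _ => m

@[simp] theorem posC_l (u : Ip m) : posC (.inl u) = pos (.inr u : Kd m) := rfl
@[simp] theorem posC_r (i : Fin 2) : posC (.inr i : Cd m) = m := rfl

/-- The key of a position. -/
def kk (l j : Cd m) : ℕ := (posC j - posC l) * (2 * m + 2) + min (posC l) (2 * m - posC j)

/-- The matrix of an isometry. -/
noncomputable abbrev Mx (g : OO m a b) : Matrix (Cd m) (Cd m) F := ((g.1 : GL (Cd m) F) : Matrix (Cd m) (Cd m) F)

theorem Mx_mul (g g' : OO m a b) : Mx (g * g') = Mx g * Mx g' := rfl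

theorem Mx_apply (g : OO m a b) (l j : Cd m) : Mx g l j = act g (ee j) l := by
  show _ = (Mx g *ᵥ (Pi.single j 1)) l
  simp

/-- The filtration on isometries. -/
def IsR (n : ℕ) (g : OO m a b) : Prop :=
  (∀ j, Mx g j j = 1) ∧ ∀ l j, l ≠ j → Mx g l j ≠ 0 → posC l < posC j ∧ n < kk l j

theorem IsR.one (n : ℕ) : IsR n (1 : OO m a b) := by
  refine ⟨fun j => ?_, fun l j h h0 => absurd ?_ h0⟩
  · show (1 : Matrix (Cd m) (Cd m) F) j j = 1
    simp
  · show (1 : Matrix (Cd m) (Cd m) F) l j = 0
    simp [h]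

theorem posC_le (l : Cd m) : posC l ≤ 2 * m := by
  rcases l with u | i
  · exact pos_le _
  · simp
    omega

theorem kk_lt {l p j : Cd m} (h1 : posC l < posC p) (h2 : posC p < posC j) : kk l p < kk l j := by
  simp only [kk]
  have h3 : min (posC l) (2 * m - posC p) ≤ 2 * m := (min_le_right _ _).trans (Nat.sub_le _ _)
  have h4 : (posC p - posC l + 1) * (2 * m + 2) ≤ (posC j - posC l) * (2 * m + 2) :=
    Nat.mul_le_mul_right _ (by omega)
  have h5 : (posC p - posC l + 1) * (2 * m + 2) = (posC p - posC l) * (2 * m + 2) + (2 * m + 2) := by ring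
  omega

theorem IsR.mul {n : ℕ} {g g' : OO m a b} (h : IsR n g) (h' : IsR n g') : IsR n (g * g') := by
  classical
  constructor
  · intro j
    rw [Mx_mul, Matrix.mul_apply, Finset.sum_eq_single j]
    · rw [h.1, h'.1, one_mul]
    · intro p _ hp
      by_contra h0
      have n1 : Mx g j p ≠ 0 := left_ne_zero_of_mul h0
      have n2 : Mx g' p j ≠ 0 := right_ne_zero_of_mul h0
      have h1 := (h.2 j p hp.symm n1).1
      have h2 := (h'.2 p j hp n2).1
      omega
    · simp
  · intro l j hlj h0
    rw [Mx_mul, Matrix.mul_apply] at h0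
    obtain ⟨p, -, hp⟩ := Finset.exists_ne_zero_of_sum_ne_zero h0
    have n1 : Mx g l p ≠ 0 := left_ne_zero_of_mul hp
    have n2 : Mx g' p j ≠ 0 := right_ne_zero_of_mul hp
    by_cases e1 : l = p
    · subst e1
      exact h'.2 _ _ hlj n2
    by_cases e2 : p = j
    · subst e2
      exact h.2 _ _ hlj n1
    obtain ⟨b1, b2⟩ := h.2 _ _ e1 n1
    obtain ⟨b3, b4⟩ := h'.2 _ _ e2 n2
    exact ⟨b1.trans b3, b2.trans (kk_lt b1 b3)⟩

/-- The entries of a long root element. -/
theorem XL_entry {u v : Ip m} (hv : Val u (.inr v)) (t : F) (l j : Cd m) :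
    Mx (XL u v t : OO m a b) l j = ee j l + (if j = .inl u.swap ∧ l = .inl v then t else 0)
      - (if j = .inl v.swap ∧ l = .inl u then t else 0) := by
  have h1 : v ≠ u.swap := fun e => hv.2 (by rw [e])
  rw [Mx_apply, act_XL h1]
  have e1 : ∀ z : Cd m, (z = j) = (j = z) := fun z => propext eq_comm
  simp only [Pi.add_apply, Pi.sub_apply, Pi.smul_apply, smul_eq_mul, ee_apply, e1 (.inl u.swap), e1 (.inl v.swap), ite_and]
  split_ifs <;> ring

/-- The entries of a short root element. -/
theorem XS_entry (u : Ip m) (y : KK a b) (l j : Cd m) :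
    Mx (XS u y) l j = ee j l + (ee j (.inl u.swap) : F) * emb y l - bw y (prW (ee j : Cd m → F)) * ee (.inl u) l
      - NN' y * ee j (.inl u.swap) * ee (.inl u) l := by
  rw [Mx_apply, act_XS]
  simp only [Pi.add_apply, Pi.sub_apply, Pi.smul_apply, smul_eq_mul]

theorem bar_ne_of_swap {u v : Ip m} (h : Val u (.inr v)) : v ≠ u.swap := fun e => h.2 (by rw [e])

theorem XL_isR {u v : Ip m} (hr : Pr u (.inr v)) (t : F) {n : ℕ} (ha : n < CE.key u (.inr v)) : IsR n (XL u v t : OO m a b) := by
  have hv := hr.1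
  have h1 : v ≠ u.swap := bar_ne_of_swap hv
  have s1 := hr.2
  have p1 := pos_le (.inr u : Kd m)
  have p2 := pos_le (.inr v : Kd m)
  constructor
  · intro j
    rw [XL_entry hv, ee_self, if_neg, if_neg]
    · ring
    · rintro ⟨rfl, e⟩
      have e' := Sum.inl_injective e
      apply h1
      rw [← e', Sum.swap_swap]
    · rintro ⟨rfl, e⟩
      exact h1 (Sum.inl_injective e).symm
  · intro l j hlj h0
    rw [XL_entry hv, ee_apply, if_neg hlj, zero_add] at h0
    by_cases c1 : j = .inl u.swap ∧ l = .inl v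
    · obtain ⟨rfl, rfl⟩ := c1
      simp only [posC_l, pos_swap]
      refine ⟨by omega, ?_⟩
      simp only [kk, CE.key, ht, posC_l, pos_swap] at ha ⊢
      have e1 : 2 * m - pos (.inr u : Kd m) - pos (.inr v : Kd m) = 2 * m - (pos (.inr u : Kd m) + pos (.inr v : Kd m)) := by omega
      have e2 : 2 * m - (2 * m - pos (.inr u : Kd m)) = pos (.inr u : Kd m) := by omega
      rw [e1, e2]
      exact ha
    by_cases c2 : j = .inl v.swap ∧ l = .inl u
    · obtain ⟨rfl, rfl⟩ := c2
      simp only [posC_l, pos_swap]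
      refine ⟨by omega, ?_⟩
      simp only [kk, CE.key, ht, posC_l, pos_swap] at ha ⊢
      have e1 : 2 * m - pos (.inr v : Kd m) - pos (.inr u : Kd m) = 2 * m - (pos (.inr u : Kd m) + pos (.inr v : Kd m)) := by omega
      have e2 : 2 * m - (2 * m - pos (.inr v : Kd m)) = pos (.inr v : Kd m) := by omega
      rw [e1, e2, min_comm]
      exact ha
    · exfalso
      apply h0
      rw [if_neg c1, if_neg c2]
      ring

theorem XS_isR {u : Ip m} (hr : Pr u zr) (y : KK a b) {n : ℕ} (ha : n < CE.key u zr) : IsR n (XS u y) := by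
  have s1 := hr.2
  simp only [pos_zr] at s1
  have p1 := pos_le (.inr u : Kd m)
  have hk : CE.key u zr = (m - pos (.inr u : Kd m)) * (2 * m + 2) + pos (.inr u : Kd m) := by
    simp only [CE.key, ht, pos_zr]
    have e1 : 2 * m - (pos (.inr u : Kd m) + m) = m - pos (.inr u : Kd m) := by omega
    rw [e1, min_eq_right (by omega)]
  rw [hk] at ha
  have hne : u ≠ u.swap := (swap_ne u).symm
  constructor
  · intro j
    rw [XS_entry, ee_self]
    rcases j with w | i
    · have e0 : prW (ee (.inl w) : Cd m → F) = (0 : KK a b) := prW_eu w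
      rw [e0, bw_zero_right]
      simp only [emb_inl, mul_zero, zero_mul, add_zero, sub_zero]
      by_cases h1 : w = u.swap
      · subst h1
        rw [eu_ne (swap_ne u)]
        ring
      · rw [eu_ne (Ne.symm h1)]
        ring
    · have e1 : (ee (.inr i) : Cd m → F) (.inl u.swap) = 0 := by
        rw [ee_apply]
        simp
      have e2 : (ee (.inl u) : Cd m → F) (.inr i) = 0 := by
        rw [ee_apply]
        simp
      rw [e1, e2]
      ring
  · intro l j hlj h0
    rw [XS_entry, ee_apply, if_neg hlj, zero_add] at h0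
    rcases j with w | i
    · have e0 : prW (ee (.inl w) : Cd m → F) = (0 : KK a b) := prW_eu w
      rw [e0, bw_zero_right] at h0
      by_cases h1 : w = u.swap
      · subst h1
        rcases l with l | i
        · by_cases h2 : l = u
          · subst h2
            simp only [posC_l, pos_swap]
            refine ⟨by omega, ?_⟩
            simp only [kk, posC_l, pos_swap]
            have e2 : 2 * m - (2 * m - pos (.inr l : Kd m)) = pos (.inr l : Kd m) := by omega
            rw [e2, min_self]
            have h3 : (m - pos (.inr l : Kd m) + 1) * (2 * m + 2) ≤ (2 * m - pos (.inr l : Kd m) - pos (.inr l : Kd m)) * (2 * m + 2) :=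
              Nat.mul_le_mul_right _ (by omega)
            have h4 : (m - pos (.inr l : Kd m) + 1) * (2 * m + 2) = (m - pos (.inr l : Kd m)) * (2 * m + 2) + (2 * m + 2) := by ring
            omega
          · exfalso
            apply h0
            rw [eu_ne h2]
            simp
        · simp only [posC_l, posC_r, pos_swap]
          refine ⟨by omega, ?_⟩
          simp only [kk, posC_l, posC_r, pos_swap]
          have e1 : 2 * m - pos (.inr u : Kd m) - m = m - pos (.inr u : Kd m) := by omega
          have e2 : 2 * m - (2 * m - pos (.inr u : Kd m)) = pos (.inr u : Kd m) := by omega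
          rw [e1, e2, min_eq_right (by omega)]
          exact ha
      · exfalso
        apply h0
        rw [eu_ne (Ne.symm h1)]
        ring
    · have e1 : (ee (.inr i) : Cd m → F) (.inl u.swap) = 0 := by
        rw [ee_apply]
        simp
      rw [e1] at h0
      rcases l with l | i'
      · by_cases h2 : l = u
        · subst h2
          simp only [posC_l, posC_r]
          refine ⟨by omega, ?_⟩
          simp only [kk, posC_l, posC_r]
          have e2 : 2 * m - m = m := by omega
          rw [e2, min_eq_left (by omega)]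
          exact ha
        · exfalso
          apply h0
          rw [eu_ne h2]
          ring
      · exfalso
        apply h0
        have e2 : (ee (.inl u) : Cd m → F) (.inr i') = 0 := by
          rw [ee_apply]
          simp
        rw [e2]
        simp

theorem XX_isR {u : Ip m} {k : Kd m} (hr : Pr u k) (y : KK a b) {n : ℕ} (ha : n < CE.key u k) : IsR n (XX u k y) := by
  rcases k with ⟨⟩ | v
  · exact XS_isR hr y ha
  · exact XL_isR hr _ ha

/-- The parameter of a root element vanishes. -/
def Par0 : Kd m → KK a b → Prop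
  | .inl _, y => y = 0
  | .inr _, y => y.re = 0

theorem Par0_neg {k : Kd m} {y : KK a b} (h : Par0 k (-y)) : Par0 k y := by
  rcases k with ⟨⟩ | v
  · exact neg_eq_zero.mp h
  · have : -y.re = 0 := by simpa [Par0] using h
    exact neg_eq_zero.mp this

theorem XX_eq_one {u : Ip m} {k : Kd m} {y : KK a b} (h : Par0 k y) : XX u k y = 1 := by
  rcases k with ⟨⟩ | v
  · have h' : y = 0 := h
    rw [h', XX_inl]
    exact XS_zero u
  · have h' : y.re = 0 := h
    rw [XX_inr, h']
    exact XL_zero u v

theorem XX_read {u : Ip m} {k : Kd m} (hr : Pr u k) (y : KK a b) (h : IsR (CE.key u k) (XX u k y)) : Par0 k y := by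
  have s1 := hr.2
  have p1 := pos_le (.inr u : Kd m)
  rcases k with ⟨⟩ | v
  · simp only [pos_zr] at s1
    have hk : CE.key u zr = (m - pos (.inr u : Kd m)) * (2 * m + 2) + pos (.inr u : Kd m) := by
      simp only [CE.key, ht, pos_zr]
      have e1 : 2 * m - (pos (.inr u : Kd m) + m) = m - pos (.inr u : Kd m) := by omega
      rw [e1, min_eq_right (by omega)]
    have hread : ∀ i : Fin 2, Mx (XS u y) (.inr i) (.inl u.swap) = (emb y : Cd m → F) (.inr i) := by
      intro i
      rw [XS_entry, ee_apply, if_neg (by simp), ee_self, prW_eu, bw_zero_right]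
      have e2 : (ee (.inl u) : Cd m → F) (.inr i) = 0 := by
        rw [ee_apply]
        simp
      rw [e2]
      ring
    have hz : ∀ i : Fin 2, (emb y : Cd m → F) (.inr i) = 0 := by
      intro i
      by_contra h0
      rw [← hread] at h0
      have h6 := h.2 (.inr i) (.inl u.swap) (by simp) h0
      have h7 := h6.2
      simp only [kk, posC_l, posC_r, pos_swap] at h7
      have e1 : 2 * m - pos (.inr u : Kd m) - m = m - pos (.inr u : Kd m) := by omega
      have e2 : 2 * m - (2 * m - pos (.inr u : Kd m)) = pos (.inr u : Kd m) := by omega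
      rw [e1, e2, min_eq_right (by omega), ← hk] at h7
      exact lt_irrefl _ h7
    show y = 0
    apply QuadraticAlgebra.ext
    · simpa using hz 0
    · simpa using hz 1
  · show y.re = 0
    have hv := hr.1
    have h1 : v ≠ u.swap := bar_ne_of_swap hv
    by_contra h0
    have e : Mx (XL u v y.re : OO m a b) (.inl v) (.inl u.swap) = y.re := by
      rw [XL_entry hv, ee_apply, if_neg (fun e => h1 (Sum.inl_injective e)), if_pos ⟨rfl, rfl⟩, if_neg]
      · ring
      · rintro ⟨e1, e2⟩
        exact hv.1 (by rw [Sum.inl_injective e2])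
    have h6 := h.2 (.inl v) (.inl u.swap) (fun e => h1 (Sum.inl_injective e)) (by rw [XX_inr] at *; rwa [e])
    have h7 := h6.2
    have a1 := hr.2
    simp only [kk, CE.key, ht, posC_l, pos_swap] at h7
    have e1 : 2 * m - pos (.inr u : Kd m) - pos (.inr v : Kd m) = 2 * m - (pos (.inr u : Kd m) + pos (.inr v : Kd m)) := by omega
    have e2 : 2 * m - (2 * m - pos (.inr u : Kd m)) = pos (.inr u : Kd m) := by omega
    rw [e1, e2] at h7
    exact lt_irrefl _ h7

namespace CE

variable {Γ : Type*} [Group Γ] (C : CE m a b Γ) [Fact (∀ r : F, r ^ 2 ≠ -b + a * r)] [Fintype F]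

theorem xg_of_par0 {u : Ip m} {k : Kd m} (hv : Val u k) {y : KK a b} (h : Par0 k y) : C.xg u k y = 1 := by
  rcases k with ⟨⟩ | v
  · have h' : y = 0 := h
    rw [h']
    exact C.xg_zero hv
  · have h' : y.re = 0 := h
    rw [xg_inr, h']
    have := C.xg_zero hv
    simpa using this

theorem Qa_isR {n : ℕ} {g : Γ} (hg : g ∈ C.Qa n) : IsR n (C.σ g) := by
  induction hg using Subgroup.closure_induction_left with
  | one =>
    rw [map_one]
    exact IsR.one n
  | mul_left x hx y _ hy =>
    obtain ⟨u, k, t, h1, h2, rfl⟩ := hx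
    rw [map_mul, C.xg_map h1.1]
    exact (XX_isR h1 t h2).mul hy
  | inv_mul_cancel x hx y _ hy =>
    obtain ⟨u, k, t, h1, h2, rfl⟩ := hx
    rw [← C.xg_neg h1.1, map_mul, C.xg_map h1.1]
    exact (XX_isR h1 _ h2).mul hy

/-- **The positive root elements map injectively to `Ω`.** -/
theorem Qa_inj : ∀ (n k' : ℕ), (2 * m) * (2 * m + 2) + 2 * m + 1 ≤ k' + n → ∀ g ∈ C.Qa k', C.σ g = 1 → g = 1 := by
  intro n
  induction n with
  | zero =>
    intro a' ha g hg _
    have h1 : C.Qa a' ≤ ⊥ := by
      rw [Qa, Subgroup.closure_le]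
      rintro _ ⟨u, k, t, h1, h2, rfl⟩
      exfalso
      have h3 : ht u k ≤ 2 * m := Nat.sub_le _ _
      have h4 : ht u k * (2 * m + 2) ≤ (2 * m) * (2 * m + 2) := Nat.mul_le_mul_right _ h3
      have h5 : min (pos k) (pos (.inr u : Kd m)) ≤ 2 * m := (min_le_left _ _).trans (pos_le k)
      simp only [key] at h2
      omega
    exact h1 hg
  | succ n ih =>
    intro a' ha g hg h1
    have IH := ih (a' + 1) (by omega)
    by_cases ex : ∃ (u : Ip m) (k : Kd m), Pr u k ∧ key u k = a' + 1
    · obtain ⟨u, k, hr, hk⟩ := ex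
      obtain ⟨t, g', hg', rfl⟩ := C.Qa_dec hr hk hg
      rw [map_mul, C.xg_map hr.1] at h1
      have h2 : C.σ g' = XX u k (-t) := by
        have e0 : XX u k (-t) = (XX u k t)⁻¹ := by
          apply eq_inv_of_mul_eq_one_left
          rw [← XX_add, neg_add_cancel]
          exact XX_eq_one (by
            rcases k with ⟨⟩ | v
            · rfl
            · show (0 : KK a b).re = 0
              simp)
        rw [e0]
        exact eq_inv_of_mul_eq_one_right h1
      have h3 := C.Qa_isR hg'
      rw [h2] at h3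
      have h4 : Par0 k (-t) := XX_read hr _ (by rwa [hk])
      have h5 : Par0 k t := Par0_neg h4
      rw [C.xg_of_par0 hr.1 h5, one_mul]
      rw [XX_eq_one h4] at h2
      exact IH g' hg' h2
    · push Not at ex
      have h2 : C.Qa a' ≤ C.Qa (a' + 1) := by
        rw [Qa, Subgroup.closure_le]
        rintro _ ⟨u, k, t, h3, h4, rfl⟩
        have := ex u k h3
        exact C.mem_Qa h3 (by omega) t
      exact IH g (h2 hg) h1

/-- The positive part. -/
def UU : Subgroup Γ := C.Qa 0

omit C [Group Γ] [Fact (∀ r : F, r ^ 2 ≠ -b + a * r)] [Fintype F] in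
theorem key_pos {u : Ip m} {k : Kd m} (hr : Pr u k) : 0 < key u k := by
  have h1 := hr.2
  have h2 : 1 ≤ ht u k := by
    simp only [ht]
    omega
  have h3 : 1 * (2 * m + 2) ≤ ht u k * (2 * m + 2) := Nat.mul_le_mul_right _ h2
  simp only [key]
  omega

theorem mem_UU {u : Ip m} {k : Kd m} (hr : Pr u k) (t : KK a b) : C.xg u k t ∈ C.UU := C.mem_Qa hr (key_pos hr) t

theorem UU_inj {g : Γ} (hg : g ∈ C.UU) (h : C.σ g = 1) : g = 1 :=
  C.Qa_inj ((2 * m) * (2 * m + 2) + 2 * m + 1) 0 (by omega) g hg h

end CE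

end Cfsg.Agent.Lib.SpinM
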