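import Mathlib
import Cfsg.Agent.Lib.SpinM.Chain

/-!
# Central extensions of the orthogonal groups of minus type: the Bruhat decomposition
-/

set_option autoImplicit false
set_option linter.unusedSectionVars false
set_option linter.unusedSimpArgs false
set_option linter.unusedVariables false

namespace Cfsg.Agent.Lib.SpinM

open Matrix QuadraticMap Equiv
open Cfsg.Agent.Lib.Classical.Orth.Basic
open Cfsg.Agent.Lib.Classical.Orth.Models
open Cfsg.Agent.Lib.Classical.Orth.Siegel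
open Cfsg.Agent.Lib.Classical.Orth.Generation
open Cfsg.Agent.Lib.Sporadic.Stem

variable {m : ℕ} {F : Type*} [Field F] {a b : F}

section Abstract

variable {Γ : Type*} [Group Γ] {ι : Type*} {U N : Subgroup Γ} {U' : ι → Subgroup Γ} {X Y W : ι → Set Γ}

/-- The abstract Bruhat decomposition. -/
theorem bruhat_abs (hXU : ∀ i, X i ⊆ U) (hWN : ∀ i, W i ⊆ N) (hWinv : ∀ i, ∀ w ∈ W i, w⁻¹ ∈ W i)
    (hdec : ∀ i, ∀ u ∈ U, ∃ u' ∈ U' i, ∃ x ∈ X i, u = u' * x)
    (hconj : ∀ i, ∀ w ∈ W i, ∀ u' ∈ U' i, w * u' * w⁻¹ ∈ U)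
    (hcx : ∀ i, ∀ w ∈ W i, ∀ x ∈ X i, w * x * w⁻¹ ∈ Y i)
    (hy : ∀ i, ∀ y ∈ Y i, y = 1 ∨ ∃ x₁ ∈ X i, ∃ w' ∈ W i, ∃ x₂ ∈ X i, y = x₁ * w' * x₂)
    (hdich : ∀ i, ∀ n ∈ N, (∀ x ∈ X i, n⁻¹ * x * n ∈ U) ∨ (∀ y ∈ Y i, n⁻¹ * y * n ∈ U)) :
    ∀ g ∈ Subgroup.closure ((U : Set Γ) ∪ ⋃ i, W i),
      ∃ u ∈ U, ∃ n ∈ N, ∃ u' ∈ U, g = u * n * u' := by
  have hU : ∀ c ∈ U, ∀ g : Γ, (∃ u ∈ U, ∃ n ∈ N, ∃ u' ∈ U, g = u * n * u') → ∃ u ∈ U, ∃ n ∈ N, ∃ u' ∈ U, c * g = u * n * u' := by
    rintro c hc g ⟨u, hu, n, hn, u', hu', rfl⟩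
    exact ⟨c * u, mul_mem hc hu, n, hn, u', hu', by group⟩
  have hW : ∀ i, ∀ w ∈ W i, ∀ g : Γ, (∃ u ∈ U, ∃ n ∈ N, ∃ u' ∈ U, g = u * n * u') →
      ∃ u ∈ U, ∃ n ∈ N, ∃ u' ∈ U, w * g = u * n * u' := by
    rintro i w hw g ⟨u, hu, n, hn, u', hu', rfl⟩
    obtain ⟨u₁, hu₁, x, hx, rfl⟩ := hdec i u hu
    have hwn : w ∈ N := hWN i hw
    have hc1 := hconj i w hw u₁ hu₁
    have hn' : w * n ∈ N := mul_mem hwn hn
    set y := w * x * w⁻¹ with hyd
    have e1 : w * (u₁ * x * n * u') = (w * u₁ * w⁻¹) * y * (w * n) * u' := by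
      rw [hyd]
      group
    have hyY : y ∈ Y i := hcx i w hw x hx
    rcases hy i y hyY with e0 | ⟨x₁, h₁, w', hw', x₂, h₂, e0⟩
    · exact ⟨_, hc1, w * n, hn', u', hu', by rw [e1, e0]; group⟩
    · rcases hdich i _ hn' with h | h
      · refine ⟨(w * u₁ * w⁻¹) * x₁, mul_mem hc1 (hXU i h₁), w' * (w * n), mul_mem (hWN i hw') hn',
          ((w * n)⁻¹ * x₂ * (w * n)) * u', mul_mem (h _ h₂) hu', ?_⟩
        rw [e1, e0]
        group
      · refine ⟨_, hc1, w * n, hn', ((w * n)⁻¹ * y * (w * n)) * u', mul_mem (h y hyY) hu', ?_⟩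
        rw [e1]
        group
  intro g hg
  induction hg using Subgroup.closure_induction_left with
  | one => exact ⟨1, one_mem _, 1, one_mem _, 1, one_mem _, by simp⟩
  | mul_left c hc g _ hg =>
    rcases hc with hc | hc
    · exact hU c hc g hg
    · obtain ⟨i, hc⟩ := Set.mem_iUnion.mp hc
      exact hW i c hc g hg
  | inv_mul_cancel c hc g _ hg =>
    rcases hc with hc | hc
    · exact hU _ (inv_mem hc) g hg
    · obtain ⟨i, hc⟩ := Set.mem_iUnion.mp hc
      exact hW i _ (hWinv i c hc) g hg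

end Abstract

/-! ### The simple roots -/

/-- The second coordinate of a simple root. -/
def ak (i : Fin m) : Kd m := if h : i.1 + 1 < m then .inr (.inr ⟨i.1 + 1, h⟩) else zr

theorem ak_long {i : Fin m} (h : i.1 + 1 < m) : ak i = .inr (.inr ⟨i.1 + 1, h⟩) := dif_pos h

theorem ak_short {i : Fin m} (h : ¬ i.1 + 1 < m) : ak i = zr := dif_neg h

open CE in
theorem pr_simple (i : Fin m) : Pr (.inl i : Ip m) (ak i) := by
  have hi := i.2
  by_cases h : i.1 + 1 < m
  · rw [ak_long h]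
    have hne : idx (.inl i : Ip m) ≠ idx (.inr ⟨i.1 + 1, h⟩ : Ip m) := by
      simp only [idx_inl, idx_inr]
      intro e
      have := congrArg Fin.val e
      simp at this
    refine ⟨val_long hne, ?_⟩
    simp
    omega
  · rw [ak_short h]
    refine ⟨val_zr _, ?_⟩
    simp
    omega

theorem pos_ak {i : Fin m} : pos (ak i) = 2 * m - 1 - i.1 := by
  have hi := i.2
  by_cases h : i.1 + 1 < m
  · rw [ak_long h]
    simp
    omega
  · rw [ak_short h]
    simp
    omega

theorem ht_simple (i : Fin m) : ht (.inl i : Ip m) (ak i) = 1 := by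
  have hi := i.2
  simp only [ht, pos_ak, pos_l]
  omega

theorem mkK_bar {g : OO m a b} {π : Perm (Ip m)} {c : Ip m → F} {r : Perm (KK a b)} (h : IsM g π c r) (k : Kd m) :
    mkK π (bar k) = bar (mkK π k) := by
  rcases k with ⟨⟩ | v
  · rfl
  · simp [h.swap_eq]

theorem pos_mkK_bar {g : OO m a b} {π : Perm (Ip m)} {c : Ip m → F} {r : Perm (KK a b)} (h : IsM g π c r) (k : Kd m) :
    pos (mkK π (bar k)) = 2 * m - pos (mkK π k) := by
  rw [mkK_bar h, pos_bar]

theorem val_image {g : OO m a b} {π : Perm (Ip m)} {c : Ip m → F} {r : Perm (KK a b)} (h : IsM g π c r) {u : Ip m} {k : Kd m}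
    (hv : Val u k) : Val (π u) (mkK π k) := by
  constructor
  · intro e
    apply hv.1
    rcases k with ⟨⟩ | v
    · simp at e
    · rw [mkK_inr] at e
      rw [π.injective (Sum.inr_injective e)]
  · intro e
    apply hv.2
    rcases k with ⟨⟩ | v
    · simp at e
    · rw [mkK_inr, ← h.swap_eq] at e
      rw [π.injective (Sum.inr_injective e)]

theorem ee_inr_emb (k : Fin 2) : ∃ y : KK a b, (ee (.inr k) : Cd m → F) = emb y := by
  fin_cases k
  · refine ⟨1, ?_⟩
    funext l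
    rcases l with u | i
    · simp [ee_apply]
    · fin_cases i <;> simp [ee_apply, QuadraticAlgebra.re_one, QuadraticAlgebra.im_one]
  · refine ⟨QuadraticAlgebra.omega, ?_⟩
    funext l
    rcases l with u | i
    · simp [ee_apply]
    · fin_cases i <;> simp [ee_apply]

/-- A monomial unipotent element is trivial. -/
theorem mono_unip {g : OO m a b} {π : Perm (Ip m)} {c : Ip m → F} {r : Perm (KK a b)} (hM : IsM g π c r) (hR : IsR 0 g) : g = 1 := by
  classical
  have e1 : ∀ u, Mx g (.inl (π u)) (.inl u) = c u := by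
    intro u
    rw [Mx_apply, hM.inl, Pi.smul_apply, ee_self, smul_eq_mul, mul_one]
  have h1 : ∀ u, pos (.inr (π u) : Kd m) ≤ pos (.inr u : Kd m) := by
    intro u
    by_cases h : π u = u
    · rw [h]
    · have h2 : (.inl (π u) : Cd m) ≠ .inl u := fun e => h (Sum.inl_injective e)
      exact (hR.2 _ _ h2 (by rw [e1]; exact hM.ne u)).1.le
  have h2 : ∑ u, pos (.inr (π u) : Kd m) = ∑ u, pos (.inr u : Kd m) :=
    Equiv.sum_comp π (fun u => pos (.inr u : Kd m))
  have h3 := (Finset.sum_eq_sum_iff_of_le (fun u _ => h1 u)).mp h2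
  have h4 : ∀ u, π u = u := fun u => Sum.inr_injective (pos_inj (h3 u (Finset.mem_univ u)))
  have h5 : ∀ u, c u = 1 := by
    intro u
    rw [← e1, h4, hR.1]
  have hMx : ∀ l j, Mx g l j = (1 : Matrix (Cd m) (Cd m) F) l j := by
    intro l j
    by_cases hlj : l = j
    · subst hlj
      rw [hR.1, Matrix.one_apply_eq]
    rw [Matrix.one_apply_ne hlj]
    by_contra h0
    have h6 := hR.2 l j hlj h0
    rcases j with u | k
    · apply h0
      rw [Mx_apply, hM.inl, h4, h5, one_smul, ee_apply, if_neg hlj]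
    · rcases l with u | i
      · apply h0
        obtain ⟨y, hy⟩ := ee_inr_emb (a := a) (b := b) (m := m) k
        rw [Mx_apply, hy, hM.inr]
        simp
      · simp only [posC_r] at h6
        omega
  apply Subtype.ext
  apply Units.ext
  exact Matrix.ext hMx

/-- The permutation of positions. -/
def tauL (m i p : ℕ) : ℕ :=
  if p = i then i + 1 else if p = i + 1 then i else if p = 2 * m - i then 2 * m - i - 1 else if p = 2 * m - i - 1 then 2 * m - i else p

theorem pos_piL {i j : Fin m} (hj : i.1 + 1 = j.1) (x : Ip m) :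
    pos (.inr (piL (.inl i : Ip m) (.inr j) x) : Kd m) = tauL m i (pos (.inr x : Kd m)) := by
  have hne : i ≠ j := fun e => by
    rw [e] at hj
    omega
  have h1 : (.inl i : Ip m) ≠ .inr j := by simp
  have h2 : (.inl i : Ip m) ≠ Sum.swap (.inr j) := by simpa using hne
  have hi := i.2
  have hj2 := j.2
  rcases x with a | a
  · have ha := a.2
    by_cases e1 : a = i
    · rw [e1, piL_u h1 h2]
      simp only [Sum.swap_inr, pos_l]
      unfold tauL
      split_ifs <;> omega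
    by_cases e2 : a = j
    · have := piL_vb (u := (.inl i : Ip m)) (v := .inr j) h1 h2
      rw [e2]
      have e3 : Sum.swap (.inr j : Ip m) = .inl j := rfl
      rw [e3] at this
      rw [this]
      simp only [pos_l]
      unfold tauL
      split_ifs <;> omega
    · have := piL_o (u := (.inl i : Ip m)) (v := .inr j) h1 h2 (w := .inl a) (by simpa using e1) (by simpa using e2) (by simp) (by simp)
      rw [this]
      have e5 : (a : ℕ) ≠ i := fun e => e1 (Fin.ext e)
      have e6 : (a : ℕ) ≠ j := fun e => e2 (Fin.ext e)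
      simp only [pos_l]
      unfold tauL
      split_ifs <;> omega
  · have ha := a.2
    by_cases e1 : a = i
    · have := piL_ub (u := (.inl i : Ip m)) (v := .inr j) h1 h2
      rw [e1]
      have e3 : Sum.swap (.inl i : Ip m) = .inr i := rfl
      rw [e3] at this
      rw [this]
      simp only [pos_r]
      unfold tauL
      split_ifs <;> omega
    by_cases e2 : a = j
    · rw [e2, piL_v h1 h2]
      simp only [pos_r, Sum.swap_inl]
      unfold tauL
      split_ifs <;> omega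
    · have := piL_o (u := (.inl i : Ip m)) (v := .inr j) h1 h2 (w := .inr a) (by simp) (by simp) (by simpa using e2) (by simpa using e1)
      rw [this]
      have e5 : (a : ℕ) ≠ i := fun e => e1 (Fin.ext e)
      have e6 : (a : ℕ) ≠ j := fun e => e2 (Fin.ext e)
      simp only [pos_r]
      unfold tauL
      split_ifs <;> omega

/-- The permutation of positions, short case. -/
def tauS (m i p : ℕ) : ℕ := if p = i then m + 1 else if p = m + 1 then i else p

namespace CE

variable {Γ : Type*} [Group Γ] (C : CE m a b Γ) [Fact (∀ r : F, r ^ 2 ≠ -b + a * r)] [Fintype F]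

omit [Fact (∀ r : F, r ^ 2 ≠ -b + a * r)] [Fintype F] in
theorem val_bar {u : Ip m} {k : Kd m} (h : Val u k) : Val u.swap (bar k) := by
  rcases k with ⟨⟩ | v
  · exact val_zr _
  · have := val_idx h
    exact val_long (by simpa using this)

theorem xg_conj {γ : Γ} {π : Perm (Ip m)} {c : Ip m → F} {r : Perm (KK a b)} (h : IsM (C.σ γ) π c r) {u : Ip m} {k : Kd m}
    (hv : Val u k) (y : KK a b) : ∃ y', γ * C.xg u k y * γ⁻¹ = C.xg (π u) (mkK π k) y' := by
  rcases k with ⟨⟩ | v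
  · exact ⟨_, C.xs_conj u h y⟩
  · refine ⟨QuadraticAlgebra.C (c u * c v * y.re), ?_⟩
    rw [xg_inr, C.xl_conj (val_idx hv) h, mkK_inr, xg_inr, QuadraticAlgebra.re_C]

/-- The Weyl elements of long roots. -/
noncomputable def nl (u v : Ip m) (s : F) : Γ := C.xl u v s * C.xl u.swap v.swap s⁻¹ * C.xl u v s

/-- The Weyl elements of short roots. -/
noncomputable def ns (u : Ip m) (y : KK a b) : Γ := C.xs u y * C.xs u.swap (iv y) * C.xs u y

theorem nl_map {u v : Ip m} (h : idx u ≠ idx v) (s : F) : C.σ (C.nl u v s) = NL u v s := by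
  have h' : idx u.swap ≠ idx v.swap := by simpa using h
  simp only [nl, map_mul, C.xl_map h, C.xl_map h', NL]

theorem ns_map (u : Ip m) (y : KK a b) : C.σ (C.ns u y) = NS u y := by
  simp only [ns, map_mul, C.xs_map, NS]

theorem nl_inv {u v : Ip m} (h : idx u ≠ idx v) (s : F) : (C.nl u v s)⁻¹ = C.nl u v (-s) := by
  have h' : idx u.swap ≠ idx v.swap := by simpa using h
  simp only [nl]
  rw [inv_neg, C.xl_neg h, C.xl_neg h']
  group

theorem ns_inv (u : Ip m) (y : KK a b) : (C.ns u y)⁻¹ = C.ns u (-y) := by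
  simp only [ns]
  rw [iv_neg, C.xs_neg, C.xs_neg]
  group

/-- The Weyl elements. -/
noncomputable def nt (u : Ip m) (k : Kd m) (y : KK a b) : Γ :=
  Sum.elim (fun _ => C.ns u y) (fun v => C.nl u v y.re) k

@[simp] theorem nt_inl (u : Ip m) (x : Unit) (y : KK a b) : C.nt u (.inl x) y = C.ns u y := rfl
@[simp] theorem nt_inr (u v : Ip m) (y : KK a b) : C.nt u (.inr v) y = C.nl u v y.re := rfl

theorem nt_inv {u : Ip m} {k : Kd m} (hv : Val u k) (y : KK a b) : (C.nt u k y)⁻¹ = C.nt u k (-y) := by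
  rcases k with ⟨⟩ | v
  · exact C.ns_inv u y
  · simp only [nt_inr, QuadraticAlgebra.re_neg]
    exact C.nl_inv (val_idx hv) _

omit [Fact (∀ r : F, r ^ 2 ≠ -b + a * r)] [Fintype F] in
theorem par0_neg' {k : Kd m} {y : KK a b} (h : ¬ Par0 k y) : ¬ Par0 k (-y) := by
  intro e
  exact h (Par0_neg e)

/-- The monomial data of a Weyl element. -/
theorem nt_isM {u : Ip m} {k : Kd m} (hv : Val u k) {y : KK a b} (hy : ¬ Par0 k y) :
    ∃ (π : Perm (Ip m)) (c : Ip m → F) (r : Perm (KK a b)), IsM (C.σ (C.nt u k y)) π c r := by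
  rcases k with ⟨⟩ | v
  · rw [nt_inl, ns_map]
    exact ⟨_, _, _, isM_NS u hy⟩
  · have h1 : u ≠ v := fun e => hv.1 (by rw [e])
    have h2 : u ≠ v.swap := fun e => hv.2 (by rw [e, Sum.swap_swap])
    rw [nt_inr, nl_map _ (val_idx hv)]
    exact ⟨_, _, _, isM_NL h1 h2 hy⟩

/-- The positive root elements other than a simple one. -/
def UP (i : Fin m) : Subgroup Γ :=
  Subgroup.closure {g | ∃ (v : Ip m) (l : Kd m) (t : KK a b), Pr v l ∧ key v l ≠ key (.inl i : Ip m) (ak i) ∧ g = C.xg v l t}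

theorem mem_UP {i : Fin m} {v : Ip m} {l : Kd m} (h1 : Pr v l) (h2 : key v l ≠ key (.inl i : Ip m) (ak i)) (t : KK a b) :
    C.xg v l t ∈ C.UP i := Subgroup.subset_closure ⟨v, l, t, h1, h2, rfl⟩

theorem UP_norm (i : Fin m) (s : KK a b) {g : Γ} (hg : g ∈ C.UP i) :
    C.xg (.inl i) (ak i) s * g * (C.xg (.inl i) (ak i) s)⁻¹ ∈ C.UP i := by
  induction hg using Subgroup.closure_induction with
  | mem y hy =>
    obtain ⟨v, l, t, h1, h2, rfl⟩ := hy
    have e : C.xg (.inl i) (ak i) s * C.xg v l t * (C.xg (.inl i) (ak i) s)⁻¹ = cm (C.xg (.inl i) (ak i) s) (C.xg v l t) * C.xg v l t := by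
      simp only [cm]
      group
    rw [e]
    refine mul_mem ?_ (C.mem_UP h1 h2 t)
    have h3 := C.cm_mem (pr_simple i) h1 s t
    have h4 : C.UH (max (ht (.inl i : Ip m) (ak i)) (ht v l)) ≤ C.UP i := by
      rw [UH, Subgroup.closure_le]
      rintro _ ⟨w, x, t', h5, h6, rfl⟩
      refine C.mem_UP h5 (key_lt (lt_of_le_of_lt (le_max_left _ _) h6)).ne' t'
    exact h4 h3
  | one =>
    simp
  | mul x y _ _ hx hy =>
    have e : C.xg (.inl i) (ak i) s * (x * y) * (C.xg (.inl i) (ak i) s)⁻¹ =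
        (C.xg (.inl i) (ak i) s * x * (C.xg (.inl i) (ak i) s)⁻¹) * (C.xg (.inl i) (ak i) s * y * (C.xg (.inl i) (ak i) s)⁻¹) := by group
    rw [e]
    exact mul_mem hx hy
  | inv x _ hx =>
    have e : C.xg (.inl i) (ak i) s * x⁻¹ * (C.xg (.inl i) (ak i) s)⁻¹ = (C.xg (.inl i) (ak i) s * x * (C.xg (.inl i) (ak i) s)⁻¹)⁻¹ := by group
    rw [e]
    exact inv_mem hx

theorem UU_dec (i : Fin m) {g : Γ} (hg : g ∈ C.UU) : ∃ u' ∈ C.UP i, ∃ t : KK a b, g = u' * C.xg (.inl i) (ak i) t := by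
  have hr := pr_simple i
  induction hg using Subgroup.closure_induction with
  | mem y hy =>
    obtain ⟨v, l, t, h1, h2, rfl⟩ := hy
    by_cases h3 : key v l = key (.inl i : Ip m) (ak i)
    · rcases key_inj hr h1 h3.symm with ⟨rfl, rfl⟩ | ⟨rfl, e⟩
      · exact ⟨1, one_mem _, t, by rw [one_mul]⟩
      · refine ⟨1, one_mem _, -t, ?_⟩
        rw [one_mul, e, xg_inr, xg_inr, C.xl_symm (val_idx h1.1) t.re]
        simp
    · exact ⟨_, C.mem_UP h1 h3 t, 0, by rw [C.xg_zero hr.1, mul_one]⟩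
  | one => exact ⟨1, one_mem _, 0, by rw [C.xg_zero hr.1, mul_one]⟩
  | mul x y _ _ hx hy =>
    obtain ⟨u₁, h1, a₁, rfl⟩ := hx
    obtain ⟨u₂, h2, a₂, rfl⟩ := hy
    refine ⟨u₁ * (C.xg (.inl i) (ak i) a₁ * u₂ * (C.xg (.inl i) (ak i) a₁)⁻¹), mul_mem h1 (C.UP_norm i a₁ h2), a₁ + a₂, ?_⟩
    rw [C.xg_add hr.1]
    group
  | inv x _ hx =>
    obtain ⟨u₁, h1, a₁, rfl⟩ := hx
    refine ⟨C.xg (.inl i) (ak i) (-a₁) * u₁⁻¹ * (C.xg (.inl i) (ak i) (-a₁))⁻¹, C.UP_norm i _ (inv_mem h1), -a₁, ?_⟩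
    rw [C.xg_neg hr.1]
    group

/-- The action of a simple Weyl element on the simple root element. -/
theorem nt_conj_simple (i : Fin m) {s : KK a b} (hs : ¬ Par0 (ak i) s) (t : KK a b) :
    ∃ y', C.nt (.inl i) (ak i) s * C.xg (.inl i) (ak i) t * (C.nt (.inl i) (ak i) s)⁻¹ =
      C.xg (.inr i) (bar (ak i)) y' := by
  have hr := pr_simple i
  by_cases h : i.1 + 1 < m
  · rw [ak_long h] at hr hs ⊢
    set j : Fin m := ⟨i.1 + 1, h⟩ with hj
    have hne : i ≠ j := fun e => by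
      have := congrArg Fin.val e
      simp [hj] at this
    have h1 : (.inl i : Ip m) ≠ .inr j := by simp
    have h2 : (.inl i : Ip m) ≠ Sum.swap (.inr j) := by simpa using hne
    have hM := isM_NL (a := a) (b := b) h1 h2 (s := s.re) hs
    rw [← C.nl_map (val_idx hr.1) s.re] at hM
    obtain ⟨y', e⟩ := C.xg_conj hM hr.1 t
    rw [nt_inr, e, mkK_inr, piL_u h1 h2, piL_v h1 h2]
    refine ⟨-y', ?_⟩
    have hi : idx (Sum.swap (.inr j : Ip m)) ≠ idx (Sum.swap (.inl i : Ip m)) := by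
      simpa using hne.symm
    simp only [xg_inr, bar_inr]
    rw [C.xl_symm hi]
    simp
  · rw [ak_short h] at hr hs ⊢
    have hM := isM_NS (.inl i : Ip m) (y := s) hs
    rw [← C.ns_map (.inl i : Ip m) s] at hM
    obtain ⟨y', e⟩ := C.xg_conj hM hr.1 t
    rw [nt_inl, e, swap_apply_left, mkK_inl]
    exact ⟨y', rfl⟩

/-- The opposite simple root elements. -/
theorem y_dec (i : Fin m) (y : KK a b) :
    C.xg (.inr i) (bar (ak i)) y = 1 ∨ ∃ x₁ s x₂ : KK a b, ¬ Par0 (ak i) s ∧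
      C.xg (.inr i) (bar (ak i)) y = C.xg (.inl i) (ak i) x₁ * C.nt (.inl i) (ak i) s * C.xg (.inl i) (ak i) x₂ := by
  have hr := pr_simple i
  by_cases h : i.1 + 1 < m
  · rw [ak_long h] at hr ⊢
    set j : Fin m := ⟨i.1 + 1, h⟩ with hj
    have hi := val_idx hr.1
    simp only [xg_inr, bar_inr, nt_inr]
    by_cases h0 : y.re = 0
    · left
      rw [h0]
      have := C.xl_zero (u := (.inr i : Ip m)) (v := Sum.swap (.inr j : Ip m)) (by simpa using hi)
      exact this
    · right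
      refine ⟨QuadraticAlgebra.C (-(y.re)⁻¹), QuadraticAlgebra.C (y.re)⁻¹, QuadraticAlgebra.C (-(y.re)⁻¹), ?_, ?_⟩
      · show (QuadraticAlgebra.C (y.re)⁻¹ : KK a b).re ≠ 0
        simpa using h0
      · simp only [QuadraticAlgebra.re_C, nl, inv_inv]
        rw [C.xl_neg hi]
        group
        rfl
  · rw [ak_short h] at hr ⊢
    simp only [bar_inl, nt_inl, xg_inl]
    by_cases h0 : y = 0
    · left
      rw [h0]
      exact C.xs_zero _
    · right
      refine ⟨-iv y, iv y, -iv y, iv_ne_zero h0, ?_⟩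
      simp only [ns, iv_iv]
      rw [C.xs_neg]
      group
      rfl

/-- The simple Weyl elements permute the positive root elements other than the simple one. -/
theorem nt_conj_pos (i : Fin m) {s : KK a b} (hs : ¬ Par0 (ak i) s) {v : Ip m} {l : Kd m} (h1 : Pr v l)
    (h2 : key v l ≠ key (.inl i : Ip m) (ak i)) (t : KK a b) :
    C.nt (.inl i) (ak i) s * C.xg v l t * (C.nt (.inl i) (ak i) s)⁻¹ ∈ C.UU := by
  have hr := pr_simple i
  have hi := i.2
  have n1 := h1.2
  have hne1 : ¬ (pos (.inr v : Kd m) = i ∧ pos l = pos (ak i)) := by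
    rintro ⟨e1, e2⟩
    apply h2
    have e3 : (.inr v : Kd m) = .inr (.inl i) := pos_inj (by rw [e1, pos_l])
    rw [Sum.inr_injective e3, pos_inj e2]
  have hne2 : ¬ (pos l = i ∧ pos (.inr v : Kd m) = pos (ak i)) := by
    rintro ⟨e1, e2⟩
    apply h2
    have e3 : l = .inr (.inl i) := pos_inj (by rw [e1, pos_l])
    have e4 : (.inr v : Kd m) = ak i := pos_inj e2
    simp only [key, ht, e3, e4, pos_l, min_comm]
    rw [Nat.add_comm (pos (ak i)) (i : ℕ)]
  rw [pos_ak] at hne1 hne2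
  by_cases h : i.1 + 1 < m
  · rw [ak_long h] at hr hs ⊢
    set j : Fin m := ⟨i.1 + 1, h⟩ with hj
    have hne : i ≠ j := fun e => by
      have := congrArg Fin.val e
      simp [hj] at this
    have b1 : (.inl i : Ip m) ≠ .inr j := by simp
    have b2 : (.inl i : Ip m) ≠ Sum.swap (.inr j) := by simpa using hne
    have hM := isM_NL (a := a) (b := b) b1 b2 (s := s.re) hs
    rw [← C.nl_map (val_idx hr.1) s.re] at hM
    obtain ⟨y', e⟩ := C.xg_conj hM h1.1 t
    rw [nt_inr, e]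
    refine C.mem_UU ⟨val_image hM h1.1, ?_⟩ _
    have hz : ∀ l : Kd m, pos (mkK (piL (.inl i : Ip m) (.inr j)) l) = tauL m i (pos l) := by
      intro l
      rcases l with ⟨⟩ | x
      · simp only [mkK_inl, pos_zr]
        unfold tauL
        split_ifs <;> omega
      · exact pos_piL (by rfl) x
    have e1 := hz (.inr v)
    rw [mkK_inr] at e1
    rw [e1, hz l]
    generalize pos (.inr v : Kd m) = p at *
    generalize pos l = q at *
    unfold tauL
    split_ifs <;> omega
  · rw [ak_short h] at hr hs ⊢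
    have hM := isM_NS (.inl i : Ip m) (y := s) hs
    rw [← C.ns_map (.inl i : Ip m) s] at hM
    obtain ⟨y', e⟩ := C.xg_conj hM h1.1 t
    rw [nt_inl, e]
    refine C.mem_UU ⟨val_image hM h1.1, ?_⟩ _
    have hm : i.1 + 1 = m := by omega
    have hz : ∀ x : Ip m, pos (.inr (swap (.inl i : Ip m) (.inr i) x) : Kd m) = tauS m i.1 (pos (.inr x : Kd m)) := by
      intro x
      by_cases e1 : x = .inl i
      · rw [e1, swap_apply_left]
        simp only [pos_l, pos_r]
        unfold tauS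
        split_ifs <;> omega
      by_cases e2 : x = .inr i
      · rw [e2, swap_apply_right]
        simp only [pos_l, pos_r]
        unfold tauS
        split_ifs <;> omega
      · rw [swap_apply_of_ne_of_ne e1 e2]
        rcases x with a | a
        · have e3 : (a : ℕ) ≠ i := fun e => e1 (by rw [Fin.ext e])
          have ha := a.2
          simp only [pos_l]
          unfold tauS
          split_ifs <;> omega
        · have e3 : (a : ℕ) ≠ i := fun e => e2 (by rw [Fin.ext e])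
          have ha := a.2
          simp only [pos_r]
          unfold tauS
          split_ifs <;> omega
    have e1 : pos (mkK (swap (.inl i : Ip m) (.inr i)) l) = tauS m i.1 (pos l) := by
      rcases l with ⟨⟩ | x
      · simp only [mkK_inl, pos_zr]
        unfold tauS
        split_ifs <;> omega
      · exact hz x
    simp only [Sum.swap_inl]
    rw [hz, e1]
    have n2 : pos l ≠ pos (.inr v : Kd m) := fun e => h1.1.1 (pos_inj e)
    have n3 : pos (.inr v : Kd m) ≠ m := fun e => pos_ne v e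
    generalize pos (.inr v : Kd m) = p at *
    generalize pos l = q at *
    unfold tauS
    split_ifs <;> omega

/-- The dichotomy. -/
theorem dichotomy {n : Γ} {π : Perm (Ip m)} {c : Ip m → F} {r : Perm (KK a b)} (hn : IsM (C.σ n) π c r) (i : Fin m) :
    (∀ t : KK a b, n⁻¹ * C.xg (.inl i) (ak i) t * n ∈ C.UU) ∨ (∀ t : KK a b, n⁻¹ * C.xg (.inr i) (bar (ak i)) t * n ∈ C.UU) := by
  have hr := pr_simple i
  have hv := hr.1
  have hv' := val_bar hv
  have hM : IsM (C.σ n⁻¹) π⁻¹ (fun u => (c (π⁻¹ u))⁻¹) r⁻¹ := by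
    rw [map_inv]
    exact hn.inv
  have hV := val_image hM hv
  set P := pos (.inr (π⁻¹ (.inl i)) : Kd m) with hP
  set Q := pos (mkK π⁻¹ (ak i)) with hQ
  have hPQ : P + Q ≠ 2 * m := by
    intro e
    apply hV.2
    apply pos_inj
    rw [pos_swap, ← hP, ← hQ]
    omega
  by_cases hlt : P + Q < 2 * m
  · left
    intro t
    obtain ⟨y', e⟩ := C.xg_conj hM hv t
    rw [inv_inv] at e
    rw [e]
    exact C.mem_UU ⟨hV, hlt⟩ _
  · right
    intro t
    obtain ⟨y', e⟩ := C.xg_conj hM hv' t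
    rw [inv_inv] at e
    change n⁻¹ * C.xg (Sum.inl i).swap (bar (ak i)) t * n ∈ C.UU
    rw [e]
    refine C.mem_UU ⟨val_image hM hv', ?_⟩ _
    have e1 : π⁻¹ (Sum.inl i : Ip m).swap = Sum.swap (π⁻¹ (.inl i)) := hM.swap_eq (.inl i)
    rw [e1, pos_swap, pos_mkK_bar hM]
    have p1 := pos_le (.inr (π⁻¹ (.inl i)) : Kd m)
    have p2 := pos_le (mkK π⁻¹ (ak i))
    omega

/-- The simple Weyl elements. -/
def WW (i : Fin m) : Set Γ := {w | ∃ s : KK a b, ¬ Par0 (ak i) s ∧ w = C.nt (.inl i) (ak i) s}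

/-- The closure of the positive part and the simple Weyl elements. -/
def SS : Subgroup Γ :=
  Subgroup.closure ((C.UU : Set Γ) ∪ ⋃ i, C.WW i)

theorem UU_le_SS : C.UU ≤ C.SS := fun _ h => Subgroup.subset_closure (Or.inl h)

theorem nt_mem_SS (i : Fin m) {s : KK a b} (hs : ¬ Par0 (ak i) s) : C.nt (.inl i) (ak i) s ∈ C.SS :=
  Subgroup.subset_closure (Or.inr (Set.mem_iUnion.mpr ⟨i, s, hs, rfl⟩))

theorem pos_mem_SS {u : Ip m} {k : Kd m} (hr : Pr u k) (t : KK a b) : C.xg u k t ∈ C.SS := C.UU_le_SS (C.mem_UU hr t)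

/-- The negative short root elements are in the closure. -/
theorem short_neg_mem : ∀ (d : ℕ) (i : Fin m), m - 1 - i.1 = d → ∀ t : KK a b, C.xs (.inr i) t ∈ C.SS := by
  intro d
  induction d with
  | zero =>
    intro i hi t
    have hs : ¬ i.1 + 1 < m := by
      have := i.2
      omega
    have h0 := C.y_dec i t
    rw [ak_short hs] at h0
    have hr := pr_simple i
    rw [ak_short hs] at hr
    simp only [bar_inl, xg_inl] at h0
    rcases h0 with h0 | ⟨x₁, s, x₂, h3, h0⟩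
    · rw [h0]
      exact one_mem _
    · rw [h0]
      have h4 := C.nt_mem_SS i (s := s) (by rwa [ak_short hs])
      rw [ak_short hs] at h4
      have e1 := C.pos_mem_SS hr x₁
      have e2 := C.pos_mem_SS hr x₂
      exact mul_mem (mul_mem e1 h4) e2
  | succ d ih =>
    intro i hi t
    have hs : i.1 + 1 < m := by omega
    set j : Fin m := ⟨i.1 + 1, hs⟩ with hj
    have hne : i ≠ j := fun e => by
      have := congrArg Fin.val e
      simp [hj] at this
    have hone : ¬ Par0 (ak i) (1 : KK a b) := by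
      rw [ak_long hs]
      show (1 : KK a b).re ≠ 0
      simp [QuadraticAlgebra.re_one]
    have h1 := C.nt_mem_SS i hone
    rw [ak_long hs] at h1
    have hr := pr_simple i
    rw [ak_long hs] at hr
    have b1 : (.inl i : Ip m) ≠ .inr j := by simp
    have b2 : (.inl i : Ip m) ≠ Sum.swap (.inr j) := by simpa using hne
    have hM := isM_NL (a := a) (b := b) b1 b2 (s := (1 : KK a b).re) (by simp [QuadraticAlgebra.re_one])
    rw [← C.nl_map (val_idx hr.1) _] at hM
    have e := C.xs_conj (.inr j : Ip m) hM (-t)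
    rw [piL_v b1 b2, cL_v b1 b2] at e
    have e2 : (-((1 : KK a b).re)⁻¹) • (1 : Perm (KK a b)) (-t) = t := by
      simp [QuadraticAlgebra.re_one]
    rw [e2] at e
    have h3 : C.xs (.inr j) (-t) ∈ C.SS := ih j (by simp [hj]; omega) _
    have h4 := mul_mem (mul_mem h1 h3) (inv_mem h1)
    rw [nt_inr, e] at h4
    exact h4

theorem short_mem (u : Ip m) (t : KK a b) : C.xs u t ∈ C.SS := by
  rcases u with i | i
  · have : Pr (.inl i : Ip m) zr := ⟨val_zr _, by simp; omega⟩
    exact C.pos_mem_SS this t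
  · exact C.short_neg_mem _ i rfl t

theorem xl_mem_SS {u v : Ip m} (h : idx u ≠ idx v) (t : F) : C.xl u v t ∈ C.SS := by
  rw [C.xl_eq_cm h]
  have h1 := C.short_mem u 1
  have h2 := C.short_mem v (t • y0 a b)
  simp only [cm]
  exact mul_mem (mul_mem (mul_mem h1 h2) (inv_mem h1)) (inv_mem h2)

theorem exists_SS_lift {h : OO m a b} (hh : h ∈ Om m a b) : ∃ g ∈ C.SS, C.σ g = h := by
  have hm2 : 2 ≤ m := by have := C.h3; omega
  rw [Om_eq_LL hm2] at hh
  induction hh using Subgroup.closure_induction with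
  | mem y hy =>
    rcases hy with ⟨u, v, t, rfl⟩ | ⟨u, t, rfl⟩
    · by_cases h1 : idx u = idx v
      · rcases eq_or_swap_of_idx h1 with rfl | rfl
        · exact ⟨1, one_mem _, by rw [XL_self, map_one]⟩
        · exact ⟨1, one_mem _, by rw [XL_not rfl, map_one]⟩
      · exact ⟨_, C.xl_mem_SS h1 t, C.xl_map h1 t⟩
    · exact ⟨_, C.short_mem u t, C.xs_map u t⟩
  | one => exact ⟨1, one_mem _, map_one _⟩
  | mul x y _ _ hx hy =>
    obtain ⟨a, ha, rfl⟩ := hx
    obtain ⟨b, hb, rfl⟩ := hy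
    exact ⟨a * b, mul_mem ha hb, map_mul _ _ _⟩
  | inv x _ hx =>
    obtain ⟨a, ha, rfl⟩ := hx
    exact ⟨a⁻¹, inv_mem ha, map_inv _ _⟩

/-- In a perfect central extension, everything is in the closure. -/
theorem SS_top (hp : commutator Γ = ⊤) : C.SS = ⊤ := by
  rw [eq_top_iff, ← hp, commutator_def, Subgroup.commutator_le]
  intro g _ h _
  obtain ⟨a, ha, ea⟩ := C.exists_SS_lift (C.hm g)
  obtain ⟨b, hb, eb⟩ := C.exists_SS_lift (C.hm h)
  have e : g * h * g⁻¹ * h⁻¹ = cm a b := C.cm_congr ea.symm eb.symm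
  rw [commutatorElement_def, e]
  simp only [cm]
  exact mul_mem (mul_mem (mul_mem ha hb) (inv_mem ha)) (inv_mem hb)

/-- **The Bruhat decomposition.** An element of the kernel is in the monomial part. -/
theorem ker_mem_N (hp : commutator Γ = ⊤) {N : Subgroup Γ}
    (hN : ∀ n ∈ N, ∃ (π : Perm (Ip m)) (c : Ip m → F) (r : Perm (KK a b)), IsM (C.σ n) π c r)
    (hw : ∀ (i : Fin m) (s : KK a b), ¬ Par0 (ak i) s → C.nt (.inl i) (ak i) s ∈ N) {x : Γ} (ha : C.σ x = 1) : x ∈ N := by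
  have key := bruhat_abs (U := C.UU) (N := N) (U' := C.UP) (X := fun i => Set.range (C.xg (.inl i) (ak i)))
    (Y := fun i => Set.range (C.xg (.inr i) (bar (ak i)))) (W := C.WW)
    (by
      rintro i _ ⟨t, rfl⟩
      exact C.mem_UU (pr_simple i) t)
    (by
      rintro i _ ⟨s, hs, rfl⟩
      exact hw i s hs)
    (by
      rintro i _ ⟨s, hs, rfl⟩
      exact ⟨-s, par0_neg' hs, C.nt_inv (pr_simple i).1 s⟩)
    (by
      intro i u hu
      obtain ⟨u', h1, t, rfl⟩ := C.UU_dec i hu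
      exact ⟨u', h1, _, ⟨t, rfl⟩, rfl⟩)
    (by
      rintro i _ ⟨s, hs, rfl⟩ u' hu'
      have h1 : C.UP i ≤ (C.UU).comap (MulAut.conj (C.nt (.inl i) (ak i) s)).toMonoidHom := by
        rw [UP, Subgroup.closure_le]
        rintro _ ⟨v, l, t, h1, h2, rfl⟩
        exact C.nt_conj_pos i hs h1 h2 t
      exact h1 hu')
    (by
      rintro i _ ⟨s, hs, rfl⟩ _ ⟨t, rfl⟩
      obtain ⟨y', e⟩ := C.nt_conj_simple i hs t
      exact ⟨y', e.symm⟩)
    (by
      rintro i _ ⟨t, rfl⟩
      rcases C.y_dec i t with h | ⟨x₁, s, x₂, h0, e⟩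
      · exact Or.inl h
      · exact Or.inr ⟨_, ⟨x₁, rfl⟩, _, ⟨s, h0, rfl⟩, _, ⟨x₂, rfl⟩, e⟩)
    (by
      intro i n hn
      obtain ⟨π, c, r, hM⟩ := hN n hn
      rcases C.dichotomy hM i with h | h
      · left
        rintro _ ⟨t, rfl⟩
        exact h t
      · right
        rintro _ ⟨t, rfl⟩
        exact h t)
  have hS : x ∈ C.SS := by
    rw [C.SS_top hp]
    trivial
  obtain ⟨u, hu, n, hn, u', hu', rfl⟩ := key x hS
  obtain ⟨π, c, r, hM⟩ := hN n hn
  have h1 : C.σ (u⁻¹ * u'⁻¹) = C.σ n := by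
    rw [map_mul, map_mul] at ha
    rw [map_mul, map_inv, map_inv]
    rw [inv_mul_eq_iff_eq_mul]
    exact inv_eq_of_mul_eq_one_left ha
  have h2 : u⁻¹ * u'⁻¹ ∈ C.UU := mul_mem (inv_mem hu) (inv_mem hu')
  have h3 := C.Qa_isR h2
  rw [h1] at h3
  have h4 := mono_unip hM h3
  have h5 : u⁻¹ * u'⁻¹ = 1 := C.UU_inj h2 (by rw [h1, h4])
  have h6 : u' = u⁻¹ := by
    have := mul_eq_one_iff_eq_inv.mp h5
    rw [_root_.inv_inj] at this
    rw [this, inv_inv]
  rw [h6]
  have h7 := Subgroup.mem_center_iff.mp (C.mem_center h4) u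
  have e : u * n * u⁻¹ = n := by
    rw [h7]
    group
  rw [e]
  exact hn

end CE

end Cfsg.Agent.Lib.SpinM
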