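import Mathlib

/-!
# A multiplicativity criterion for torus elements

Let `w` be a family of Weyl elements parametrised by the nonzero elements of a field with cyclic multiplicative
group in which `-1` is a square. If `w x * w y * (w x)⁻¹ = w (x * x * y⁻¹)` and `(w x)⁻¹ = w (-x)`, and if the torus
elements `T x = w x * (w 1)⁻¹` are multiplicative up to central elements, then they are multiplicative.
-/

set_option autoImplicit false
set_option linter.unusedSectionVars false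
set_option linter.unusedSimpArgs false
set_option linter.unusedVariables false

namespace Cfsg.Agent.Lib.SpinM

section Torus

variable {K Γ : Type*} [Field K] [Group Γ] (w : K → Γ)

theorem torus_mul (g : K) (hg0 : g ≠ 0) (hg : ∀ x : K, x ≠ 0 → ∃ i : ℕ, x = g ^ i) (hm1 : ∃ r : K, r * r = -1)
    (F1 : ∀ x y : K, x ≠ 0 → y ≠ 0 → w x * w y * (w x)⁻¹ = w (x * x * y⁻¹))
    (F2 : ∀ x : K, x ≠ 0 → (w x)⁻¹ = w (-x))
    (hc : ∀ x y : K, x ≠ 0 → y ≠ 0 →
      w x * (w 1)⁻¹ * (w y * (w 1)⁻¹) * (w (x * y) * (w 1)⁻¹)⁻¹ ∈ Subgroup.center Γ) :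
    ∀ x y : K, x ≠ 0 → y ≠ 0 → w x * (w 1)⁻¹ * (w y * (w 1)⁻¹) = w (x * y) * (w 1)⁻¹ := by
  set T : K → Γ := fun x => w x * (w 1)⁻¹ with hT
  have T1 : T 1 = 1 := by simp [hT]
  have one_ne : (1 : K) ≠ 0 := one_ne_zero
  have neg_one_ne : (-1 : K) ≠ 0 := neg_ne_zero.mpr one_ne
  -- Commutativity
  have step1 : ∀ i : ℕ, ∃ z ∈ Subgroup.center Γ, T (g ^ i) = z * T g ^ i := by
    intro i
    induction i with
    | zero => exact ⟨1, one_mem _, by simp [T1]⟩
    | succ i ih =>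
      obtain ⟨z, hz, e⟩ := ih
      have h1 := hc (g ^ i) g (pow_ne_zero _ hg0) hg0
      change T (g ^ i) * T g * (T (g ^ i * g))⁻¹ ∈ _ at h1
      set D := T (g ^ i) * T g * (T (g ^ i * g))⁻¹ with hD
      refine ⟨D⁻¹ * z, mul_mem (inv_mem h1) hz, ?_⟩
      have e2 : T (g ^ i * g) = D⁻¹ * T (g ^ i) * T g := by
        rw [hD]
        group
      rw [pow_succ g i, e2, e, pow_succ (T g) i]
      simp only [mul_assoc]
  have comm : ∀ x y : K, x ≠ 0 → y ≠ 0 → T x * T y = T y * T x := by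
    intro x y hx hy
    obtain ⟨i, rfl⟩ := hg x hx
    obtain ⟨j, rfl⟩ := hg y hy
    obtain ⟨z, hz, e⟩ := step1 i
    obtain ⟨z', hz', e'⟩ := step1 j
    rw [e, e']
    have h1 : ∀ g, Commute z g := fun g => (Subgroup.mem_center_iff.mp hz g).symm
    have h2 : ∀ g, Commute z' g := fun g => (Subgroup.mem_center_iff.mp hz' g).symm
    have h3 : Commute (z * T g ^ i) (z' * T g ^ j) :=
      Commute.mul_left (h1 _) (Commute.mul_right (h2 _).symm ((Commute.refl (T g)).pow_pow i j))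
    exact h3
  have w1c : ∀ y : K, y ≠ 0 → w 1 * w y * (w 1)⁻¹ = w y⁻¹ := by
    intro y hy
    have := F1 1 y one_ne hy
    rwa [one_mul, one_mul] at this
  have w1c' : ∀ y : K, y ≠ 0 → (w 1)⁻¹ * w y * w 1 = w y⁻¹ := by
    intro y hy
    have := F1 (-1) y neg_one_ne hy
    rw [← F2 1 one_ne, inv_inv] at this
    have e : (-1 : K) * -1 * y⁻¹ = y⁻¹ := by ring
    rwa [e] at this
  have Tc : ∀ y : K, y ≠ 0 → w 1 * T y * (w 1)⁻¹ = T y⁻¹ := by
    intro y hy
    simp only [hT]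
    rw [← w1c y hy]
    group
  have star : ∀ x y : K, x ≠ 0 → y ≠ 0 → T x * T y * (T x⁻¹)⁻¹ = T (x * x * y) := by
    intro x y hx hy
    have e1 : T x * w y * (T x)⁻¹ = w (x * x * y) := by
      have e0 : T x * w y * (T x)⁻¹ = w x * ((w 1)⁻¹ * w y * w 1) * (w x)⁻¹ := by
        simp only [hT]
        group
      rw [e0, w1c' y hy, F1 x y⁻¹ hx (inv_ne_zero hy), inv_inv]
    have e2 : (T x⁻¹)⁻¹ = w 1 * (T x)⁻¹ * (w 1)⁻¹ := by
      rw [← Tc x hx]
      group
    calc T x * T y * (T x⁻¹)⁻¹ = (T x * w y * (T x)⁻¹) * (w 1)⁻¹ := by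
          rw [e2]
          simp only [hT]
          group
      _ = T (x * x * y) := by rw [e1]
  have sq0 : ∀ x : K, x ≠ 0 → T x * (T x⁻¹)⁻¹ = T (x * x) := by
    intro x hx
    have h1 := star x 1 hx one_ne
    rwa [T1, mul_one, mul_one] at h1
  have sq : ∀ x y : K, x ≠ 0 → y ≠ 0 → T y * T (x * x) = T (x * x * y) := by
    intro x y hx hy
    rw [← sq0 x hx, ← star x y hx hy, ← mul_assoc, comm y x hy hx]
  have neg : ∀ x : K, x ≠ 0 → (T x)⁻¹ = T (-x⁻¹) * (T (-1))⁻¹ := by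
    intro x hx
    have e1 : T (-1) = (w 1)⁻¹ * (w 1)⁻¹ := by
      simp only [hT]
      rw [← F2 1 one_ne]
    have e2 := w1c (-x) (neg_ne_zero.mpr hx)
    rw [inv_neg, mul_inv_eq_iff_eq_mul] at e2
    rw [e1]
    simp only [hT]
    rw [_root_.mul_inv_rev, inv_inv, F2 x hx, e2]
    group
  have invT : ∀ x : K, x ≠ 0 → T x⁻¹ = (T x)⁻¹ := by
    intro x hx
    obtain ⟨r, hr⟩ := hm1
    have hr0 : r ≠ 0 := by
      rintro rfl
      rw [mul_zero] at hr
      exact neg_one_ne hr.symm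
    have h1 := sq r x⁻¹ hr0 (inv_ne_zero hx)
    rw [hr, neg_one_mul] at h1
    rw [neg x hx, ← h1]
    group
  have sqq : ∀ x : K, x ≠ 0 → T (x * x) = T x * T x := by
    intro x hx
    rw [← sq0 x hx, invT x hx, inv_inv]
  have pow : ∀ i : ℕ, T (g ^ i) = T g ^ i := by
    intro i
    induction i using Nat.twoStepInduction with
    | zero => simp [T1]
    | one => simp
    | more i ih _ =>
      have e : g ^ (i + 2) = g * g * g ^ i := by ring
      rw [e, ← sq g (g ^ i) hg0 (pow_ne_zero _ hg0), ih, sqq g hg0]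
      rw [pow_add, pow_two]
  intro x y hx hy
  obtain ⟨i, rfl⟩ := hg x hx
  obtain ⟨j, rfl⟩ := hg y hy
  change T (g ^ i) * T (g ^ j) = T (g ^ i * g ^ j)
  rw [← pow_add, pow, pow, pow, pow_add]

end Torus

end Cfsg.Agent.Lib.SpinM
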