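import Mathlib
import Cfsg.Agent.Lib.SpinM.Bruhat
import Cfsg.Agent.Lib.SpinM.Torus
import Cfsg.Agent.Lib.SpinB.NForm

/-!
# Central extensions of the orthogonal groups of minus type: the monomial part
-/

set_option autoImplicit false
set_option linter.unusedSectionVars false
set_option linter.unusedSimpArgs false
set_option linter.unusedVariables false

namespace Cfsg.Agent.Lib.SpinM

open Matrix QuadraticMap Equiv
open Cfsg.Agent.Lib.Classical.Orth.Basic
open Cfsg.Agent.Lib.Classical.Orth.Models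
open Cfsg.Agent.Lib.Classical.Orth.Siegel
open Cfsg.Agent.Lib.Classical.Orth.Generation
open Cfsg.Agent.Lib.Sporadic.Stem
open Cfsg.Agent.Lib.Steinberg.Family Cfsg.Agent.Lib.Steinberg.LinearStem Cfsg.Agent.Lib.Steinberg.CTR
open Cfsg.Agent.Lib.SpinB (X_w_w X_h_swap)

variable {m : ℕ} {F : Type*} [Field F] {a b : F}

theorem iv_smul [Fact (∀ r : F, r ^ 2 ≠ -b + a * r)] (κ : F) (z : KK a b) : iv (κ • z) = κ⁻¹ • iv z := by
  unfold iv
  rw [N_smul, smul_smul, smul_smul]
  by_cases h : κ = 0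
  · simp [h]
  · congr 1
    rw [mul_inv, mul_inv]
    field_simp

theorem IsM.r_iv [Fact (∀ r : F, r ^ 2 ≠ -b + a * r)] {g : OO m a b} {π : Perm (Ip m)} {c : Ip m → F} {r : Perm (KK a b)}
    (h : IsM g π c r) (y : KK a b) : r (iv y) = iv (r y) := by
  unfold iv
  rw [h.r_smul, h.r_N]

/-- Monomial elements with the same data are the same. -/
theorem IsM.unique {g g' : OO m a b} {π : Perm (Ip m)} {c c' : Ip m → F} {r r' : Perm (KK a b)} (h : IsM g π c r)
    (h' : IsM g' π c' r') (hc : ∀ u, c u = c' u) (hr : ∀ y, r y = r' y) : g = g' := by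
  apply ext_M
  · intro u
    rw [h.inl, h'.inl, hc]
  · intro y
    rw [h.inr, h'.inr, hr]

theorem IsM.eq_one {g : OO m a b} {c : Ip m → F} {r : Perm (KK a b)} (h : IsM g 1 c r) (hc : ∀ u, c u = 1)
    (hr : ∀ y, r y = y) : g = 1 :=
  h.unique IsM.one hc hr

theorem X_h_trans {i j k : Fin m} (hij : i ≠ j) (hjk : j ≠ k) (hik : i ≠ k) {u : F} (hu : u ≠ 0) :
    (X (Fin m) F).h i j u * (X (Fin m) F).h j k u = (X (Fin m) F).h i k u := by
  rw [X_h hij hu, X_h hjk hu, X_h hik hu]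
  apply SpecialLinearGroup.coeMonoidHom_injective
  simp only [map_mul, SpecialLinearGroup.coeMonoidHom_apply, SpecialLinearGroup.diag2n_coe, diagonal_mul_diagonal]
  congr 1
  funext l
  by_cases h1 : l = i
  · subst h1
    simp [hij, hik]
  by_cases h2 : l = j
  · subst h2
    simp [h1, hjk, hu]
  by_cases h3 : l = k
  · subst h3
    simp [h1, h2]
  · simp [h1, h2, h3]

/-- The product of two long Weyl elements for the same root. -/
theorem isM_NL_mul {u v : Ip m} (huv : u ≠ v) (huv' : u ≠ v.swap) {s t : F} (hs : s ≠ 0) (ht : t ≠ 0) :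
    IsM (NL u v s * NL u v t : OO m a b) 1 (dL u v (-(s * t⁻¹))) 1 := by
  have h1 := (isM_NL (a := a) (b := b) huv huv' hs).mul (isM_NL (a := a) (b := b) huv huv' ht)
  have e1 : piL u v * piL u v = 1 := by
    have := piL_inv huv huv'
    nth_rw 1 [← this]
    exact inv_mul_cancel _
  have e2 : (fun w => cL u v t w * cL u v s (piL u v w)) = dL u v (-(s * t⁻¹)) := by
    funext w
    by_cases h1 : w = u
    · subst h1
      rw [piL_u huv huv', cL_vb huv huv', cL_u huv huv']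
      simp [dL]
      ring
    by_cases h3 : w = v
    · subst h3
      rw [piL_v huv huv', cL_ub huv huv', cL_v huv huv']
      simp [dL]
      ring
    by_cases h4 : w = u.swap
    · subst h4
      rw [piL_ub huv huv', cL_v huv huv', cL_ub huv huv']
      simp [dL, swap_ne u, bne2 huv', h3]
    by_cases h2 : w = v.swap
    · subst h2
      rw [piL_vb huv huv', cL_u huv huv', cL_vb huv huv']
      simp [dL, h1, h3]
    · rw [piL_o huv huv' h1 h2 h3 h4, cL_o huv huv' s h1 h2 h3 h4, cL_o huv huv' t h1 h2 h3 h4]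
      simp [dL, h1, h2, h3, h4]
  rw [e1, e2, mul_one] at h1
  exact h1

theorem piL_sum {i j : Fin m} : piL (.inl i : Ip m) (.inr j) = Perm.sumCongr (swap i j) (swap i j) := by
  rw [piL]
  simp only [Sum.swap_inr, Sum.swap_inl]
  rw [← Perm.sumCongr_swap_refl, ← Perm.sumCongr_refl_swap, Perm.sumCongr_mul, swap_comm j i]
  rfl

section Units

variable [Fact (∀ r : F, r ^ 2 ≠ -b + a * r)] [Fintype F]

theorem exists_gen : ∃ g : KK a b, g ≠ 0 ∧ ∀ x : KK a b, x ≠ 0 → ∃ i : ℕ, x = g ^ i := by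
  haveI : Finite (KK a b) := Finite.of_equiv _ (QuadraticAlgebra.equivProd (-b) a).symm
  obtain ⟨g, hg⟩ := IsCyclic.exists_generator (α := (KK a b)ˣ)
  refine ⟨g, g.ne_zero, fun x hx => ?_⟩
  have h1 := hg (Units.mk0 x hx)
  rw [← mem_powers_iff_mem_zpowers] at h1
  obtain ⟨i, hi⟩ := h1
  refine ⟨i, ?_⟩
  have := congrArg Units.val hi
  simpa using this.symm

theorem exists_sqrt_neg_one : ∃ r : KK a b, r * r = -1 := by
  classical
  haveI : Fintype (KK a b) := Fintype.ofEquiv _ (QuadraticAlgebra.equivProd (-b) a).symm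
  have hc : Fintype.card (KK a b) = Fintype.card F * Fintype.card F := by
    rw [Fintype.card_congr (QuadraticAlgebra.equivProd (-b) a), Fintype.card_prod]
  have h : IsSquare (-1 : KK a b) := by
    rw [FiniteField.isSquare_neg_one_iff, hc]
    rw [Nat.mul_mod]
    have : Fintype.card F % 4 < 4 := Nat.mod_lt _ (by norm_num)
    interval_cases Fintype.card F % 4 <;> norm_num
  obtain ⟨r, hr⟩ := h
  exact ⟨r, hr.symm⟩

end Units

namespace CE

variable {Γ : Type*} [Group Γ] (C : CE m a b Γ) [Fact (∀ r : F, r ^ 2 ≠ -b + a * r)] [Fintype F]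

theorem nl_conj {u v : Ip m} (h : idx u ≠ idx v) {γ : Γ} {π : Perm (Ip m)} {c : Ip m → F} {r : Perm (KK a b)}
    (hγ : IsM (C.σ γ) π c r) (s : F) : γ * C.nl u v s * γ⁻¹ = C.nl (π u) (π v) (c u * c v * s) := by
  have h' : idx u.swap ≠ idx v.swap := by simpa using h
  have e : γ * C.nl u v s * γ⁻¹ = (γ * C.xl u v s * γ⁻¹) * (γ * C.xl u.swap v.swap s⁻¹ * γ⁻¹) * (γ * C.xl u v s * γ⁻¹) := by
    simp only [nl]
    group
  rw [e, C.xl_conj h hγ, C.xl_conj h' hγ, nl, hγ.swap_eq, hγ.swap_eq]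
  have e2 : c u.swap = (c u)⁻¹ := eq_inv_of_mul_eq_one_right (hγ.mul_swap u)
  have e3 : c v.swap = (c v)⁻¹ := eq_inv_of_mul_eq_one_right (hγ.mul_swap v)
  rw [e2, e3, mul_inv, mul_inv]

theorem ns_conj (u : Ip m) {γ : Γ} {π : Perm (Ip m)} {c : Ip m → F} {r : Perm (KK a b)}
    (hγ : IsM (C.σ γ) π c r) (y : KK a b) : γ * C.ns u y * γ⁻¹ = C.ns (π u) (c u • r y) := by
  have e : γ * C.ns u y * γ⁻¹ = (γ * C.xs u y * γ⁻¹) * (γ * C.xs u.swap (iv y) * γ⁻¹) * (γ * C.xs u y * γ⁻¹) := by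
    simp only [ns]
    group
  rw [e, C.xs_conj u hγ, C.xs_conj u.swap hγ, ns, hγ.swap_eq]
  have e2 : c u.swap = (c u)⁻¹ := eq_inv_of_mul_eq_one_right (hγ.mul_swap u)
  rw [e2, hγ.r_iv, iv_smul]

theorem nl_symm {u v : Ip m} (h : idx u ≠ idx v) (t : F) : C.nl u v t = C.nl v u (-t) := by
  have h' : idx u.swap ≠ idx v.swap := by simpa using h
  simp only [nl]
  rw [C.xl_symm h t, C.xl_symm h' t⁻¹, inv_neg]

/-- The two descriptions of a short Weyl element. -/
theorem ns_swap (u : Ip m) {y : KK a b} (hy : y ≠ 0) : C.ns u.swap (iv y) = C.ns u y := by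
  have hM := isM_NS u hy
  rw [← C.ns_map u y] at hM
  have hn := N_ne_zero hy
  set n := C.ns u y with hnd
  have e1 : n * C.xs u y * n⁻¹ = C.xs u.swap (iv y) := by
    rw [C.xs_conj u hM, swap_apply_left, cS_u, tauP_self hy]
    congr 1
    rw [iv, smul_neg, neg_smul, neg_neg]
  have e2 : n * C.xs u.swap (iv y) * n⁻¹ = C.xs u y := by
    rw [C.xs_conj u.swap hM, swap_apply_right, cS_ub]
    congr 1
    rw [iv, hM.r_smul, tauP_self hy]
    simp only [smul_neg, neg_smul, neg_neg, smul_smul, neg_mul, mul_inv_cancel₀ hn, one_smul]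
  calc C.ns u.swap (iv y) = C.xs u.swap (iv y) * C.xs u.swap.swap (iv (iv y)) * C.xs u.swap (iv y) := rfl
    _ = (n * C.xs u y * n⁻¹) * (n * C.xs u.swap (iv y) * n⁻¹) * (n * C.xs u y * n⁻¹) := by
        rw [e1, e2, Sum.swap_swap, iv_iv]
    _ = n * (C.xs u y * C.xs u.swap (iv y) * C.xs u y) * n⁻¹ := by group
    _ = n * n * n⁻¹ := rfl
    _ = n := by group

/-- The Steinberg family of the Levi factor. -/
noncomputable def Yf : SFam (Fin m) F Γ where
  y i j t := C.xl (.inl i) (.inr j) (-t)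
  add i j h s t := by
    rw [neg_add, C.xl_add (by simpa using h)]
  comm i j k hij hjk hik s t := by
    have := C.rel_T2 (u := .inl i) (v := .inr j) (w := .inr k) (by simpa using hij) (by simpa using hik) (by simpa using hjk) (-s) (-t)
    simp only [cm, Sum.swap_inr] at this
    rw [this]
    congr 1
    ring
  comm' i j k l hij hkl hjk hil s t := by
    by_cases hik : i = k
    · subst hik
      by_cases hjl : j = l
      · subst hjl
        have hv : idx (.inl i : Ip m) ≠ idx (.inr j : Ip m) := by simpa using hij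
        rw [← C.xl_add hv, ← C.xl_add hv, add_comm]
      · exact C.comm_ll (u := .inl i) (v := .inr j) (w := .inr l) (by simpa using hij) (by simpa using hil) (by simpa using hjl) _ _
    · by_cases hjl : j = l
      · subst hjl
        rw [C.xl_symm (u := .inl i) (v := .inr j) (by simpa using hij), C.xl_symm (u := .inl k) (v := .inr j) (by simpa using hkl)]
        exact C.comm_ll (u := .inr j) (v := .inl i) (w := .inl k) (by simpa using hij.symm) (by simpa using hjk) (by simpa using hik) _ _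
      · exact C.comm_far_l (u := .inl i) (v := .inr j) (w := .inl k) (x := .inr l) (by simpa using hij) (by simpa using hik) (by simpa using hil)
          (by simpa using hjk) (by simpa using hjl) (by simpa using hkl) _ _

/-- The Levi factor. -/
noncomputable def psi : SpecialLinearGroup (Fin m) F →* Γ := Classical.choose (exists_hom_fam C.h3 C.Yf)

theorem psi_y {i j : Fin m} (h : i ≠ j) (t : F) : C.psi ((X (Fin m) F).y i j t) = C.xl (.inl i) (.inr j) (-t) :=
  Classical.choose_spec (exists_hom_fam C.h3 C.Yf) i j h t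

theorem psi_w {i j : Fin m} (h : i ≠ j) (t : F) : C.psi ((X (Fin m) F).w i j t) = C.nl (.inl i) (.inr j) (-t) := by
  simp only [SFam.w, map_mul, C.psi_y h, C.psi_y h.symm, nl, Sum.swap_inl, Sum.swap_inr]
  rw [C.xl_symm (u := .inl j) (v := .inr i) (by simpa using h.symm)]
  congr 2
  rw [inv_neg]
  ring

omit [Fact (∀ r : F, r ^ 2 ≠ -b + a * r)] [Fintype F] in
theorem idx_lr {i j : Fin m} (h : i ≠ j) : idx (.inl i : Ip m) ≠ idx (.inr j : Ip m) := by simpa using h

omit [Fact (∀ r : F, r ^ 2 ≠ -b + a * r)] [Fintype F] in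
theorem idx_rr {i j : Fin m} (h : i ≠ j) : idx (.inr i : Ip m) ≠ idx (.inr j : Ip m) := by simpa using h

theorem psi_w_map {i j : Fin m} (h : i ≠ j) (t : F) : C.σ (C.psi ((X (Fin m) F).w i j t)) = NL (.inl i) (.inr j) (-t) := by
  rw [C.psi_w h, C.nl_map (idx_lr h)]

/-- Diagonal elements of the Levi factor. -/
theorem isM_psi_h {i j : Fin m} (h : i ≠ j) {t : F} (ht : t ≠ 0) :
    IsM (C.σ (C.psi ((X (Fin m) F).h i j t))) 1 (dL (.inl i) (.inr j) t) 1 := by
  have b1 : (.inl i : Ip m) ≠ .inr j := by simp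
  have b2 : (.inl i : Ip m) ≠ Sum.swap (.inr j) := by simpa using h
  have := isM_NL_mul (a := a) (b := b) b1 b2 (neg_ne_zero.mpr ht) (t := 1) one_ne_zero
  simp only [SFam.h, map_mul, C.psi_w_map h, neg_neg]
  have e : -(-t * (1 : F)⁻¹) = t := by simp
  rw [e] at this
  exact this

/-! ### The short Weyl elements -/

/-- The Weyl elements of the short roots. -/
noncomputable def fz (i : Fin m) (y : KK a b) : Γ := C.ns (.inl i) y

/-- The torus elements of the short roots. -/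
noncomputable def ef (i : Fin m) (y : KK a b) : Γ := C.fz i y * (C.fz i 1)⁻¹

theorem fz_map (i : Fin m) (y : KK a b) : C.σ (C.fz i y) = NS (.inl i) y := C.ns_map _ y

theorem isM_fz (i : Fin m) {y : KK a b} (hy : y ≠ 0) :
    IsM (C.σ (C.fz i y)) (swap (.inl i) (.inr i)) (cS (.inl i) y) (tauP y) := by
  rw [fz_map]
  exact isM_NS _ hy

theorem fz_inv (i : Fin m) (y : KK a b) : (C.fz i y)⁻¹ = C.fz i (-y) := C.ns_inv _ y

theorem ef_map (i : Fin m) (y : KK a b) : C.σ (C.ef i y) = HS (.inl i) y := by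
  simp only [ef, map_mul, map_inv, fz_map, HS]

theorem isM_ef (i : Fin m) {y : KK a b} (hy : y ≠ 0) : IsM (C.σ (C.ef i y)) 1 (dS (.inl i) y) (rotP y hy) := by
  rw [ef_map]
  exact isM_HS _ hy

theorem ef_one (i : Fin m) : C.ef i (1 : KK a b) = 1 := by
  simp [ef]

theorem fz_eq_ef (i : Fin m) (y : KK a b) : C.fz i y = C.ef i y * C.fz i 1 := by
  simp [ef]

/-- The Weyl relation. -/
theorem fz_conj_fz (i : Fin m) {x y : KK a b} (hx : x ≠ 0) (hy : y ≠ 0) :
    C.fz i x * C.fz i y * (C.fz i x)⁻¹ = C.fz i (x * x * y⁻¹) := by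
  have hM := C.isM_fz i hx
  have e := C.ns_conj (.inl i) hM y
  change C.fz i x * C.ns (.inl i) y * (C.fz i x)⁻¹ = C.ns (.inl i) (x * x * y⁻¹)
  rw [e, swap_apply_left, cS_u]
  have hz : x * x * y⁻¹ ≠ 0 := mul_ne_zero (mul_ne_zero hx hx) (inv_ne_zero hy)
  have e2 := C.ns_swap (.inl i) hz
  rw [← e2]
  congr 1
  rw [iv_eq, tauF_eq hx, neg_smul, smul_neg, neg_neg]
  have hs : star x ≠ 0 := star_ne_zero' hx
  have hs' : star y ≠ 0 := star_ne_zero' hy
  have e3 : ∀ (t : F) (z : KK a b), t • z = algebraMap F (KK a b) t * z := fun t z => (Algebra.smul_def t z)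
  rw [e3, map_inv₀, coe_N, star_mul', star_mul', star_inv₀]
  field_simp

/-- The torus elements are multiplicative up to the kernel. -/
theorem ef_map_mul (i : Fin m) {x y : KK a b} (hx : x ≠ 0) (hy : y ≠ 0) :
    C.σ (C.ef i x) * C.σ (C.ef i y) = C.σ (C.ef i (x * y)) := by
  have h1 := (C.isM_ef i hx).mul (C.isM_ef i hy)
  have h2 := C.isM_ef i (mul_ne_zero hx hy)
  rw [mul_one] at h1
  refine h1.unique h2 ?_ ?_
  · intro u
    by_cases c1 : u = .inl i
    · subst c1
      simp [dS, N_mul, mul_comm]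
    by_cases c2 : u = .inr i
    · subst c2
      simp [dS, N_mul, mul_comm]
    · simp [dS, c1, c2]
  · intro z
    simp only [Perm.mul_apply, rotP, mulP_apply]
    rw [star_mul']
    have hs : star x ≠ 0 := star_ne_zero' hx
    have hs' : star y ≠ 0 := star_ne_zero' hy
    field_simp

/-- **The torus elements are multiplicative.** -/
theorem ef_mul (i : Fin m) {x y : KK a b} (hx : x ≠ 0) (hy : y ≠ 0) : C.ef i x * C.ef i y = C.ef i (x * y) := by
  obtain ⟨g, hg0, hg⟩ := exists_gen (a := a) (b := b)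
  refine torus_mul (C.fz i) g hg0 hg exists_sqrt_neg_one (fun x y hx hy => C.fz_conj_fz i hx hy) (fun x _ => C.fz_inv i x) ?_ x y hx hy
  intro x y hx hy
  apply C.mem_center
  rw [map_mul, map_mul, map_inv]
  change C.σ (C.ef i x) * C.σ (C.ef i y) * (C.σ (C.ef i (x * y)))⁻¹ = 1
  rw [C.ef_map_mul i hx hy, mul_inv_cancel]

/-- A long Weyl element of parameter one. -/
noncomputable def gm (i j : Fin m) : Γ := C.nl (.inl i) (.inr j) 1

theorem isM_gm {i j : Fin m} (h : i ≠ j) : IsM (C.σ (C.gm i j)) (piL (.inl i) (.inr j)) (cL (.inl i) (.inr j) 1) 1 := by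
  have b1 : (.inl i : Ip m) ≠ .inr j := by simp
  have b2 : (.inl i : Ip m) ≠ Sum.swap (.inr j) := by simpa using h
  rw [gm, C.nl_map (idx_lr h)]
  exact isM_NL b1 b2 one_ne_zero

theorem gm_fz_self {i j : Fin m} (h : i ≠ j) (y : KK a b) : C.gm i j * C.fz i y * (C.gm i j)⁻¹ = C.fz j y := by
  have b1 : (.inl i : Ip m) ≠ .inr j := by simp
  have b2 : (.inl i : Ip m) ≠ Sum.swap (.inr j) := by simpa using h
  have e := C.ns_conj (.inl i) (C.isM_gm h) y
  unfold fz
  rw [e, piL_u b1 b2, cL_u b1 b2]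
  simp

theorem gm_fz_other {i j k : Fin m} (h : i ≠ j) (h1 : k ≠ i) (h2 : k ≠ j) (y : KK a b) :
    C.gm i j * C.fz k y * (C.gm i j)⁻¹ = C.fz k y := by
  have b1 : (.inl i : Ip m) ≠ .inr j := by simp
  have b2 : (.inl i : Ip m) ≠ Sum.swap (.inr j) := by simpa using h
  have e := C.ns_conj (.inl k) (C.isM_gm h) y
  unfold fz
  have n1 : (.inl k : Ip m) ≠ .inl i := by simpa using h1
  have n2 : (.inl k : Ip m) ≠ Sum.swap (.inr j) := by simpa using h2
  have n3 : (.inl k : Ip m) ≠ .inr j := by simp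
  have n4 : (.inl k : Ip m) ≠ Sum.swap (.inl i) := by simp
  rw [e, piL_o b1 b2 n1 n2 n3 n4, cL_o b1 b2 _ n1 n2 n3 n4]
  simp

theorem gm_ef_self {i j : Fin m} (h : i ≠ j) (y : KK a b) : C.gm i j * C.ef i y * (C.gm i j)⁻¹ = C.ef j y := by
  have e : C.gm i j * C.ef i y * (C.gm i j)⁻¹ = (C.gm i j * C.fz i y * (C.gm i j)⁻¹) * (C.gm i j * C.fz i 1 * (C.gm i j)⁻¹)⁻¹ := by
    simp only [ef]
    group
  rw [e, C.gm_fz_self h, C.gm_fz_self h]
  rfl

theorem gm_ef_other {i j k : Fin m} (h : i ≠ j) (h1 : k ≠ i) (h2 : k ≠ j) (y : KK a b) :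
    C.gm i j * C.ef k y * (C.gm i j)⁻¹ = C.ef k y := by
  have e : C.gm i j * C.ef k y * (C.gm i j)⁻¹ = (C.gm i j * C.fz k y * (C.gm i j)⁻¹) * (C.gm i j * C.fz k 1 * (C.gm i j)⁻¹)⁻¹ := by
    simp only [ef]
    group
  rw [e, C.gm_fz_other h h1 h2, C.gm_fz_other h h1 h2]
  rfl

/-- Conjugation of the second index. -/
theorem gm_w_right {i j k : Fin m} (hij : i ≠ j) (hjk : j ≠ k) (hik : i ≠ k) (t : F) :
    C.gm j k * C.psi ((X (Fin m) F).w i j t) * (C.gm j k)⁻¹ = C.psi ((X (Fin m) F).w i k t) := by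
  have b1 : (.inl j : Ip m) ≠ .inr k := by simp
  have b2 : (.inl j : Ip m) ≠ Sum.swap (.inr k) := by simpa using hjk
  have n1 : (.inl i : Ip m) ≠ .inl j := by simpa using hij
  have n2 : (.inl i : Ip m) ≠ Sum.swap (.inr k) := by simpa using hik
  have n3 : (.inl i : Ip m) ≠ .inr k := by simp
  have n4 : (.inl i : Ip m) ≠ Sum.swap (.inl j) := by simp
  have n5 : (.inr j : Ip m) = Sum.swap (.inl j) := rfl
  rw [C.psi_w hij, C.psi_w hik, C.nl_conj (idx_lr hij) (C.isM_gm hjk), piL_o b1 b2 n1 n2 n3 n4, cL_o b1 b2 _ n1 n2 n3 n4,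
    n5, piL_ub b1 b2, cL_ub b1 b2]
  simp

/-- Conjugation of the first index. -/
theorem gm_w_left {i j k : Fin m} (hij : i ≠ j) (hjk : j ≠ k) (hik : i ≠ k) (t : F) :
    C.gm i k * C.psi ((X (Fin m) F).w i j t) * (C.gm i k)⁻¹ = C.psi ((X (Fin m) F).w k j t) := by
  have b1 : (.inl i : Ip m) ≠ .inr k := by simp
  have b2 : (.inl i : Ip m) ≠ Sum.swap (.inr k) := by simpa using hik
  have n1 : (.inr j : Ip m) ≠ .inl i := by simp
  have n2 : (.inr j : Ip m) ≠ Sum.swap (.inr k) := by simp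
  have n3 : (.inr j : Ip m) ≠ .inr k := by simpa using hjk
  have n4 : (.inr j : Ip m) ≠ Sum.swap (.inl i) := by simpa using hij.symm
  rw [C.psi_w hij, C.psi_w hjk.symm.symm.symm |> fun _ => C.psi_w (i := k) (j := j) (Ne.symm hjk), C.nl_conj (idx_lr hij) (C.isM_gm hik), piL_o b1 b2 n1 n2 n3 n4, cL_o b1 b2 _ n1 n2 n3 n4,
    piL_u b1 b2, cL_u b1 b2]
  simp

theorem gm_h_right {i j k : Fin m} (hij : i ≠ j) (hjk : j ≠ k) (hik : i ≠ k) (t : F) :
    C.gm j k * C.psi ((X (Fin m) F).h i j t) * (C.gm j k)⁻¹ = C.psi ((X (Fin m) F).h i k t) := by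
  have e : C.gm j k * C.psi ((X (Fin m) F).h i j t) * (C.gm j k)⁻¹ =
      (C.gm j k * C.psi ((X (Fin m) F).w i j t) * (C.gm j k)⁻¹) * (C.gm j k * C.psi ((X (Fin m) F).w i j (-1)) * (C.gm j k)⁻¹) := by
    simp only [SFam.h, map_mul]
    group
  rw [e, C.gm_w_right hij hjk hik, C.gm_w_right hij hjk hik]
  simp only [SFam.h, map_mul]

theorem gm_h_left {i j k : Fin m} (hij : i ≠ j) (hjk : j ≠ k) (hik : i ≠ k) (t : F) :
    C.gm i k * C.psi ((X (Fin m) F).h i j t) * (C.gm i k)⁻¹ = C.psi ((X (Fin m) F).h k j t) := by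
  have e : C.gm i k * C.psi ((X (Fin m) F).h i j t) * (C.gm i k)⁻¹ =
      (C.gm i k * C.psi ((X (Fin m) F).w i j t) * (C.gm i k)⁻¹) * (C.gm i k * C.psi ((X (Fin m) F).w i j (-1)) * (C.gm i k)⁻¹) := by
    simp only [SFam.h, map_mul]
    group
  rw [e, C.gm_w_left hij hjk hik, C.gm_w_left hij hjk hik]
  simp only [SFam.h, map_mul]

/-- The defect. -/
noncomputable def Zt (i j : Fin m) (y : KK a b) : Γ :=
  C.ef i y * (C.psi ((X (Fin m) F).h i j (NN' y)) * C.ef j y)⁻¹

theorem Zt_map {i j : Fin m} (h : i ≠ j) {y : KK a b} (hy : y ≠ 0) : C.σ (C.Zt i j y) = 1 := by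
  have hn := N_ne_zero hy
  have h1 := C.isM_ef i hy
  have h2 := (C.isM_psi_h h hn).mul (C.isM_ef j hy)
  rw [one_mul, one_mul] at h2
  have e := h1.unique h2 ?_ ?_
  · rw [Zt, map_mul, map_inv, map_mul, e, mul_inv_cancel]
  · intro u
    have i1 : (.inl i : Ip m) ≠ .inl j := by simpa using h
    have i2 : (.inr i : Ip m) ≠ .inr j := by simpa using h
    have hni : (NN' y)⁻¹ * NN' y = 1 := inv_mul_cancel₀ hn
    have hni' : NN' y * (NN' y)⁻¹ = 1 := mul_inv_cancel₀ hn
    simp only [dS, dL, Perm.one_apply, Sum.swap_inl, Sum.swap_inr]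
    by_cases c1 : u = .inl i
    · subst c1
      simp [i1, h]
    by_cases c2 : u = .inl j
    · subst c2
      simp [i1.symm, Ne.symm h, hni, hni']
    by_cases c3 : u = .inr i
    · subst c3
      simp [i2]
    by_cases c4 : u = .inr j
    · subst c4
      simp [i2.symm, Ne.symm h, hni, hni']
    · simp [c1, c2, c3, c4]
  · intro z
    simp

theorem Zt_center {i j : Fin m} (h : i ≠ j) {y : KK a b} (hy : y ≠ 0) : C.Zt i j y ∈ Subgroup.center Γ :=
  C.mem_center (C.Zt_map h hy)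

theorem ef_eq_Zt (i j : Fin m) (y : KK a b) :
    C.ef i y = C.Zt i j y * (C.psi ((X (Fin m) F).h i j (NN' y)) * C.ef j y) := by
  rw [Zt, inv_mul_cancel_right]

theorem Zt_right {i j k : Fin m} (hij : i ≠ j) (hjk : j ≠ k) (hik : i ≠ k) {y : KK a b} (hy : y ≠ 0) :
    C.Zt i j y = C.Zt i k y := by
  have h1 := (Subgroup.mem_center_iff.mp (C.Zt_center hij hy)) (C.gm j k)
  have e : C.Zt i j y = C.gm j k * C.Zt i j y * (C.gm j k)⁻¹ := by
    rw [h1]
    group
  rw [e]
  have e2 : C.gm j k * C.Zt i j y * (C.gm j k)⁻¹ =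
      (C.gm j k * C.ef i y * (C.gm j k)⁻¹) *
      ((C.gm j k * C.psi ((X (Fin m) F).h i j (NN' y)) * (C.gm j k)⁻¹) * (C.gm j k * C.ef j y * (C.gm j k)⁻¹))⁻¹ := by
    simp only [Zt]
    group
  rw [e2, C.gm_ef_other hjk hij hik, C.gm_h_right hij hjk hik, C.gm_ef_self hjk]
  rfl

theorem Zt_left {i j k : Fin m} (hij : i ≠ j) (hjk : j ≠ k) (hik : i ≠ k) {y : KK a b} (hy : y ≠ 0) :
    C.Zt i j y = C.Zt k j y := by
  have h1 := (Subgroup.mem_center_iff.mp (C.Zt_center hij hy)) (C.gm i k)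
  have e : C.Zt i j y = C.gm i k * C.Zt i j y * (C.gm i k)⁻¹ := by
    rw [h1]
    group
  rw [e]
  have e2 : C.gm i k * C.Zt i j y * (C.gm i k)⁻¹ =
      (C.gm i k * C.ef i y * (C.gm i k)⁻¹) *
      ((C.gm i k * C.psi ((X (Fin m) F).h i j (NN' y)) * (C.gm i k)⁻¹) * (C.gm i k * C.ef j y * (C.gm i k)⁻¹))⁻¹ := by
    simp only [Zt]
    group
  rw [e2, C.gm_ef_self hik, C.gm_h_left hij hjk hik, C.gm_ef_other hik hij.symm hjk]
  rfl

/-- The torus elements of the short roots are related through the Levi factor. -/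
theorem ef_eq_psi {i j : Fin m} (hij : i ≠ j) {y : KK a b} (hy : y ≠ 0) :
    C.ef i y = C.psi ((X (Fin m) F).h i j (NN' y)) * C.ef j y := by
  obtain ⟨k, hk1, hk2⟩ := exists_third C.h3 i j
  have hn := N_ne_zero hy
  have hik : i ≠ k := hk1.symm
  have hjk : j ≠ k := hk2.symm
  have z1 := C.Zt_right hij hjk hik hy
  have z2 := C.Zt_left hik hjk.symm hij hy
  set z := C.Zt i j y with hz
  have e1 := C.ef_eq_Zt i j y
  have e2 := C.ef_eq_Zt j k y
  have e3 := C.ef_eq_Zt i k y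
  rw [← z2, ← z1] at e2
  rw [← z1] at e3
  rw [← hz] at e1
  have hc := Subgroup.mem_center_iff.mp (C.Zt_center hij hy)
  have e4 : C.psi ((X (Fin m) F).h i k (NN' y)) = C.psi ((X (Fin m) F).h i j (NN' y)) * C.psi ((X (Fin m) F).h j k (NN' y)) := by
    rw [← map_mul, X_h_trans hij hjk hik hn]
  have e5 : z = 1 := by
    rw [e1, e2, e4] at e3
    have e6 := mul_left_cancel e3
    rw [mul_assoc (C.psi ((X (Fin m) F).h i j (NN' y)))] at e6
    have e7 := mul_left_cancel e6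
    exact mul_eq_right.mp e7
  rw [e1, e5, one_mul]

end CE

end Cfsg.Agent.Lib.SpinM
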