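import Mathlib
import Cfsg.Agent.Lib.SpinM.NPart

/-!
# Central extensions of the orthogonal groups of minus type: the normal form in the monomial part
-/

set_option autoImplicit false
set_option linter.unusedSectionVars false
set_option linter.unusedSimpArgs false
set_option linter.unusedVariables false

namespace Cfsg.Agent.Lib.SpinM

open Matrix QuadraticMap Equiv
open Cfsg.Agent.Lib.Classical.Orth.Basic
open Cfsg.Agent.Lib.Classical.Orth.Models
open Cfsg.Agent.Lib.Classical.Orth.Siegel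
open Cfsg.Agent.Lib.Classical.Orth.Generation
open Cfsg.Agent.Lib.Sporadic.Stem
open Cfsg.Agent.Lib.Steinberg.Family Cfsg.Agent.Lib.Steinberg.LinearStem Cfsg.Agent.Lib.Steinberg.CTR
open Cfsg.Agent.Lib.SpinB (X_w_w X_h_swap Fl Fl_nil Fl_cons mem_closure_Fl)

variable {m : ℕ} {F : Type*} [Field F] {a b : F}

theorem IsM.perm_one {π : Perm (Ip m)} {c : Ip m → F} {r : Perm (KK a b)} (h : IsM (1 : OO m a b) π c r) : π = 1 := by
  ext1 u
  have h1 := h.inl u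
  rw [act_one] at h1
  have h2 := congrFun h1 (.inl u)
  rw [ee_self, Pi.smul_apply, ee_apply, smul_eq_mul] at h2
  by_cases e : u = π u
  · exact e.symm
  · rw [if_neg (fun e' => e (Sum.inl_injective e'))] at h2
    simp at h2

namespace CE

variable {Γ : Type*} [Group Γ] (C : CE m a b Γ) [Fact (∀ r : F, r ^ 2 ≠ -b + a * r)] [Fintype F]

/-- Monomial elements of the Levi factor. -/
def Lam (M : SpecialLinearGroup (Fin m) F) : Prop :=
  ∃ (r : Perm (Fin m)) (c : Ip m → F), IsM (C.σ (C.psi M)) (Perm.sumCongr r r) c 1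

theorem lam_one : C.Lam 1 := by
  refine ⟨1, fun _ => 1, ?_⟩
  rw [map_one, map_one, Perm.sumCongr_one]
  exact IsM.one

theorem Lam.mul {C : CE m a b Γ} {M M' : SpecialLinearGroup (Fin m) F} (h : C.Lam M) (h' : C.Lam M') : C.Lam (M * M') := by
  obtain ⟨r, c, h⟩ := h
  obtain ⟨r', c', h'⟩ := h'
  refine ⟨r * r', fun u => c' u * c (Perm.sumCongr r' r' u), ?_⟩
  rw [map_mul, map_mul, ← Perm.sumCongr_mul]
  have := h.mul h'
  rwa [mul_one] at this

theorem lam_w {i j : Fin m} (hij : i ≠ j) {t : F} (ht : t ≠ 0) : C.Lam ((X (Fin m) F).w i j t) := by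
  have b1 : (.inl i : Ip m) ≠ .inr j := by simp
  have b2 : (.inl i : Ip m) ≠ Sum.swap (.inr j) := by simpa using hij
  refine ⟨swap i j, cL (.inl i) (.inr j) (-t), ?_⟩
  rw [C.psi_w_map hij, ← piL_sum]
  exact isM_NL b1 b2 (neg_ne_zero.mpr ht)

theorem lam_h {i j : Fin m} (hij : i ≠ j) {t : F} (ht : t ≠ 0) : C.Lam ((X (Fin m) F).h i j t) :=
  (C.lam_w hij ht).mul (C.lam_w hij (neg_ne_zero.mpr one_ne_zero))

theorem lam_fz {M : SpecialLinearGroup (Fin m) F} (h : C.Lam M) (i : Fin m) {r : KK a b} (hr : r ≠ 0) :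
    ∃ (j : Fin m) (r' : KK a b), r' ≠ 0 ∧ C.fz i r * C.psi M = C.psi M * C.fz j r' := by
  obtain ⟨p, c, hM⟩ := h
  have hM' : IsM (C.σ (C.psi M)⁻¹) (Perm.sumCongr p p)⁻¹ (fun u => (c ((Perm.sumCongr p p)⁻¹ u))⁻¹) (1 : Perm (KK a b))⁻¹ := by
    rw [map_inv]
    exact hM.inv
  have e := C.ns_conj (.inl i) hM' r
  rw [inv_inv] at e
  refine ⟨p⁻¹ i, (c ((Perm.sumCongr p p)⁻¹ (.inl i)))⁻¹ • r, smul_ne_zero (hM'.ne (.inl i)) hr, ?_⟩
  have e2 : C.fz (p⁻¹ i) ((c ((Perm.sumCongr p p)⁻¹ (.inl i)))⁻¹ • r) =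
      (C.psi M)⁻¹ * C.fz i r * C.psi M := by
    unfold fz
    rw [e]
    rfl
  rw [e2]
  group

theorem fz_ef (j l : Fin m) {s r : KK a b} (hs : s ≠ 0) (hr : r ≠ 0) :
    ∃ r' : KK a b, r' ≠ 0 ∧ C.fz j r * C.ef l s = C.ef l s * C.fz j r' := by
  have h := C.isM_ef l hs
  have hd := h.ne (.inl j)
  refine ⟨(rotP s hs)⁻¹ ((dS (.inl l) s (.inl j))⁻¹ • r), ?_, ?_⟩
  · intro h0
    have h1 : (rotP s hs) ((rotP s hs)⁻¹ ((dS (.inl l) s (.inl j))⁻¹ • r)) = (dS (.inl l) s (.inl j))⁻¹ • r := by simp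
    rw [h0, rotP, mulP_apply, mul_zero] at h1
    exact smul_ne_zero (inv_ne_zero hd) hr h1.symm
  · have e := C.ns_conj (.inl j) h ((rotP s hs)⁻¹ ((dS (.inl l) s (.inl j))⁻¹ • r))
    have e2 : C.ef l s * C.fz j ((rotP s hs)⁻¹ ((dS (.inl l) s (.inl j))⁻¹ • r)) * (C.ef l s)⁻¹ = C.fz j r := by
      unfold fz at e ⊢
      have h1 : (rotP s hs) ((rotP s hs)⁻¹ ((dS (.inl l) s (.inl j))⁻¹ • r)) = (dS (.inl l) s (.inl j))⁻¹ • r := by simp
      rw [e, h1, smul_smul, mul_inv_cancel₀ hd, one_smul]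
      rfl
    rw [← e2]
    group

theorem ef_comm_psi {j l : Fin m} (hjl : j ≠ l) {s : KK a b} {u : F} (hs : s ≠ 0) (hu : u ≠ 0) :
    C.ef l s * C.psi ((X (Fin m) F).h j l u) = C.psi ((X (Fin m) F).h j l u) * C.ef l s := by
  have h := C.isM_ef l hs
  have hκ : (NN' s)⁻¹ ≠ 0 := inv_ne_zero (N_ne_zero hs)
  have e1 : ∀ t : F, C.ef l s * C.psi ((X (Fin m) F).w j l t) * (C.ef l s)⁻¹ = C.psi ((X (Fin m) F).w j l ((NN' s)⁻¹ * t)) := by
    intro t
    rw [C.psi_w hjl, C.psi_w hjl, C.nl_conj (idx_lr hjl) h]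
    simp only [Perm.one_apply]
    congr 1
    simp [dS, hjl]
  have e2 := X_w_w (F := F) hjl hκ hu
  have e3 : C.ef l s * C.psi ((X (Fin m) F).h j l u) * (C.ef l s)⁻¹ = C.psi ((X (Fin m) F).h j l u) := by
    have e0 : (X (Fin m) F).h j l u = (X (Fin m) F).w j l u * (X (Fin m) F).w j l (-1) := rfl
    calc C.ef l s * C.psi ((X (Fin m) F).h j l u) * (C.ef l s)⁻¹
        = (C.ef l s * C.psi ((X (Fin m) F).w j l u) * (C.ef l s)⁻¹) * (C.ef l s * C.psi ((X (Fin m) F).w j l (-1)) * (C.ef l s)⁻¹) := by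
          rw [e0, map_mul]
          group
      _ = C.psi ((X (Fin m) F).w j l ((NN' s)⁻¹ * u) * (X (Fin m) F).w j l (-(NN' s)⁻¹)) := by
          rw [e1, e1, map_mul, mul_neg_one]
      _ = _ := by rw [e2]
  rw [mul_inv_eq_iff_eq_mul] at e3
  exact e3

theorem ef_eq_psi' (j l : Fin m) {r : KK a b} (hr : r ≠ 0) :
    ∃ H, C.Lam H ∧ (∀ s : KK a b, s ≠ 0 → C.ef l s * C.psi H = C.psi H * C.ef l s) ∧ C.ef j r = C.psi H * C.ef l r := by
  by_cases h : j = l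
  · subst h
    exact ⟨1, C.lam_one, fun s _ => by simp, by simp⟩
  · exact ⟨(X (Fin m) F).h j l (NN' r), C.lam_h h (N_ne_zero hr), fun s hs => C.ef_comm_psi h hs (N_ne_zero hr),
      C.ef_eq_psi h hr⟩

/-- The group generated by the short Weyl elements of parameter one. -/
def EE : Subgroup Γ := Subgroup.closure (Set.range fun i : Fin m => C.fz i (1 : KK a b))

/-- The normal form. -/
def NF (l : Fin m) (n : Γ) : Prop :=
  ∃ (M : SpecialLinearGroup (Fin m) F) (s : KK a b) (E : Γ), C.Lam M ∧ s ≠ 0 ∧ E ∈ C.EE ∧ n = C.psi M * C.ef l s * E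

theorem NF_one (l : Fin m) : C.NF l 1 :=
  ⟨1, 1, 1, C.lam_one, one_ne_zero, one_mem _, by simp [ef_one]⟩

theorem NF_psi {l i j : Fin m} (hij : i ≠ j) {t : F} (ht : t ≠ 0) {n : Γ} (h : C.NF l n) :
    C.NF l (C.psi ((X (Fin m) F).w i j t) * n) := by
  obtain ⟨M, s, E, hM, hs, hE, rfl⟩ := h
  refine ⟨_ * M, s, E, (C.lam_w hij ht).mul hM, hs, hE, ?_⟩
  rw [map_mul]
  group

theorem NF_fz {l i : Fin m} {r : KK a b} (hr : r ≠ 0) {n : Γ} (h : C.NF l n) : C.NF l (C.fz i r * n) := by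
  obtain ⟨M, s, E, hM, hs, hE, rfl⟩ := h
  obtain ⟨j, r₁, hr₁, e1⟩ := C.lam_fz hM i hr
  obtain ⟨r₂, hr₂, e2⟩ := C.fz_ef j l hs hr₁
  obtain ⟨H, hH, hc, e3⟩ := C.ef_eq_psi' j l hr₂
  refine ⟨M * H, s * r₂, C.fz j 1 * E, hM.mul hH, mul_ne_zero hs hr₂, mul_mem (Subgroup.subset_closure ⟨j, rfl⟩) hE, ?_⟩
  calc C.fz i r * (C.psi M * C.ef l s * E) = (C.fz i r * C.psi M) * C.ef l s * E := by group
    _ = C.psi M * (C.fz j r₁ * C.ef l s) * E := by rw [e1]; group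
    _ = C.psi M * (C.ef l s * C.fz j r₂) * E := by rw [e2]
    _ = C.psi M * (C.ef l s * C.psi H) * C.ef l r₂ * (C.fz j 1 * E) := by
      rw [C.fz_eq_ef j r₂, e3]
      group
    _ = C.psi M * C.psi H * (C.ef l s * C.ef l r₂) * (C.fz j 1 * E) := by
      rw [hc s hs]
      group
    _ = _ := by
      rw [C.ef_mul l hs hr₂, map_mul]

/-- The monomial part. -/
def NG : Subgroup Γ :=
  Subgroup.closure ({n | ∃ (i j : Fin m) (t : F), i ≠ j ∧ t ≠ 0 ∧ n = C.psi ((X (Fin m) F).w i j t)} ∪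
    {n | ∃ (i : Fin m) (s : KK a b), s ≠ 0 ∧ n = C.fz i s})

theorem mem_NF (l : Fin m) {n : Γ} (hn : n ∈ C.NG) : C.NF l n := by
  induction hn using Subgroup.closure_induction_left with
  | one => exact C.NF_one l
  | mul_left c hc g _ hg =>
    rcases hc with ⟨i, j, t, hij, ht, rfl⟩ | ⟨i, s, hs, rfl⟩
    · exact C.NF_psi hij ht hg
    · exact C.NF_fz hs hg
  | inv_mul_cancel c hc g _ hg =>
    rcases hc with ⟨i, j, t, hij, ht, rfl⟩ | ⟨i, s, hs, rfl⟩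
    · rw [← map_inv, SFam.w_inv _ hij]
      exact C.NF_psi hij (neg_ne_zero.mpr ht) hg
    · rw [C.fz_inv]
      exact C.NF_fz (neg_ne_zero.mpr hs) hg

theorem NG_isM {n : Γ} (hn : n ∈ C.NG) : ∃ (π : Perm (Ip m)) (c : Ip m → F) (r : Perm (KK a b)), IsM (C.σ n) π c r := by
  induction hn using Subgroup.closure_induction with
  | mem y hy =>
    rcases hy with ⟨i, j, t, hij, ht, rfl⟩ | ⟨i, s, hs, rfl⟩
    · have b1 : (.inl i : Ip m) ≠ .inr j := by simp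
      have b2 : (.inl i : Ip m) ≠ Sum.swap (.inr j) := by simpa using hij
      rw [C.psi_w_map hij]
      exact ⟨_, _, _, isM_NL b1 b2 (neg_ne_zero.mpr ht)⟩
    · exact ⟨_, _, _, C.isM_fz i hs⟩
  | one =>
    rw [map_one]
    exact ⟨_, _, _, IsM.one⟩
  | mul x y _ _ hx hy =>
    obtain ⟨π, c, r, h⟩ := hx
    obtain ⟨π', c', r', h'⟩ := hy
    rw [map_mul]
    exact ⟨_, _, _, h.mul h'⟩
  | inv x _ hx =>
    obtain ⟨π, c, r, h⟩ := hx
    rw [map_inv]
    exact ⟨_, _, _, h.inv⟩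

theorem simple_mem_NG (i : Fin m) {s : KK a b} (hs : ¬ Par0 (ak i) s) : C.nt (.inl i) (ak i) s ∈ C.NG := by
  by_cases h : i.1 + 1 < m
  · rw [ak_long h] at hs ⊢
    have hne : i ≠ ⟨i.1 + 1, h⟩ := fun e => by
      have := congrArg Fin.val e
      simp at this
    refine Subgroup.subset_closure (Or.inl ⟨i, ⟨i.1 + 1, h⟩, -s.re, hne, neg_ne_zero.mpr hs, ?_⟩)
    rw [C.psi_w hne, neg_neg, nt_inr]
  · rw [ak_short h] at hs ⊢
    exact Subgroup.subset_closure (Or.inr ⟨i, s, hs, rfl⟩)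

/-! ### The central element -/

/-- The central element. -/
noncomputable def zz (l : Fin m) : Γ := C.ef l (-1)

theorem ef_neg_one (i j : Fin m) : C.ef i (-1 : KK a b) = C.ef j (-1) := by
  by_cases h : i = j
  · rw [h]
  · rw [C.ef_eq_psi h (neg_ne_zero.mpr one_ne_zero), N_neg, N_one, SFam.h_one _ h, map_one, one_mul]

theorem zz_sq (l : Fin m) : C.zz l * C.zz l = 1 := by
  have h1 : (-1 : KK a b) ≠ 0 := neg_ne_zero.mpr one_ne_zero
  rw [zz, C.ef_mul l h1 h1]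
  have e : (-1 : KK a b) * -1 = 1 := by ring
  rw [e, ef_one]

theorem zz_map (l : Fin m) : C.σ (C.zz l) = 1 := by
  have h1 : (-1 : KK a b) ≠ 0 := neg_ne_zero.mpr one_ne_zero
  refine (C.isM_ef l h1).eq_one ?_ ?_
  · intro u
    simp [dS, N_neg, N_one]
  · intro y
    simp only [rotP, mulP_apply]
    rw [star_neg, star_one, neg_div_neg_eq, one_div_one, one_mul]

theorem zz_center (l : Fin m) : C.zz l ∈ Subgroup.center Γ := C.mem_center (C.zz_map l)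

theorem fz_sq (l i : Fin m) : C.fz i 1 * C.fz i 1 = C.zz l := by
  have e1 : C.ef i (-1 : KK a b) = (C.fz i 1 * C.fz i 1)⁻¹ := by
    rw [ef, ← C.fz_inv, _root_.mul_inv_rev]
  have e2 : C.zz l = C.ef i (-1) := C.ef_neg_one l i
  have e3 := C.zz_sq l
  rw [e2, e1] at e3
  rw [e2, e1]
  have e4 := mul_eq_one_iff_eq_inv.mp e3
  rw [inv_inv] at e4
  exact e4.symm

theorem fz_comm (l : Fin m) {i j : Fin m} (h : i ≠ j) : C.fz i 1 * C.fz j 1 = C.zz l * (C.fz j 1 * C.fz i 1) := by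
  have e1 := C.ns_conj (.inl j) (C.isM_fz i (one_ne_zero (α := KK a b))) 1
  have e2 : (swap (.inl i : Ip m) (.inr i)) (.inl j) = .inl j := swap_apply_of_ne_of_ne (by simpa using h.symm) (by simp)
  rw [e2] at e1
  have e3 : C.fz i 1 * C.fz j 1 * (C.fz i 1)⁻¹ = C.fz j (-1) := by
    change C.fz i 1 * C.ns (.inl j) 1 * (C.fz i 1)⁻¹ = C.ns (.inl j) (-1)
    rw [e1, tauP_self one_ne_zero]
    simp [cS, h.symm]
  rw [mul_inv_eq_iff_eq_mul] at e3
  rw [e3, ← C.fz_inv]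
  have e4 : (C.fz j 1)⁻¹ = C.zz l * C.fz j 1 := by
    apply inv_eq_of_mul_eq_one_left
    rw [mul_assoc, C.fz_sq l j, C.zz_sq]
  rw [e4]
  group

end CE

end Cfsg.Agent.Lib.SpinM
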