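import Mathlib
import Cfsg.Agent.Lib.SpinM.NForm

/-!
# Central extensions of the orthogonal groups of minus type: the kernel has order at most two
-/

set_option autoImplicit false
set_option linter.unusedSectionVars false
set_option linter.unusedSimpArgs false
set_option linter.unusedVariables false

namespace Cfsg.Agent.Lib.SpinM

open Matrix QuadraticMap Equiv
open Cfsg.Agent.Lib.Classical.Orth.Basic
open Cfsg.Agent.Lib.Classical.Orth.Models
open Cfsg.Agent.Lib.Classical.Orth.Siegel
open Cfsg.Agent.Lib.Classical.Orth.Generation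
open Cfsg.Agent.Lib.Sporadic.Stem
open Cfsg.Agent.Lib.Steinberg.Family Cfsg.Agent.Lib.Steinberg.LinearStem Cfsg.Agent.Lib.Steinberg.CTR
open Cfsg.Agent.Lib.SpinB (Fl Fl_nil Fl_cons mem_closure_Fl)

variable {m : ℕ} {F : Type*} [Field F] {a b : F}

theorem act_sum (g : OO m a b) {α : Type*} (S : Finset α) (x : α → Cd m → F) :
    act g (∑ i ∈ S, x i) = ∑ i ∈ S, act g (x i) := by
  classical
  induction S using Finset.induction_on with
  | empty => simp [act_zero]
  | insert i S ha ih => rw [Finset.sum_insert ha, Finset.sum_insert ha, act_add, ih]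

namespace CE

variable {Γ : Type*} [Group Γ] (C : CE m a b Γ) [Fact (∀ r : F, r ^ 2 ≠ -b + a * r)] [Fintype F]

/-- The action of the Levi factor on the first half of the coordinates. -/
def PA (M : SpecialLinearGroup (Fin m) F) : Prop :=
  ∀ j, act (C.σ (C.psi M)) (ee (.inl (.inl j))) = ∑ i, (M : Matrix (Fin m) (Fin m) F) i j • ee (.inl (.inl i))

theorem PA_gen {i k : Fin m} (hik : i ≠ k) (t : F) : C.PA (SpecialLinearGroup.transvection hik t) := by
  intro j
  rw [← X_y hik t, C.psi_y hik, C.xl_map (idx_lr hik), X_y hik t, SpecialLinearGroup.transvection_coe]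
  have e : ∑ l, (1 + Matrix.single i k t : Matrix (Fin m) (Fin m) F) l j • (ee (.inl (.inl l)) : Cd m → F) =
      ee (.inl (.inl j)) + (if j = k then t else 0) • ee (.inl (.inl i)) := by
    simp only [Matrix.add_apply, add_smul, Finset.sum_add_distrib]
    congr 1
    · rw [Finset.sum_eq_single j]
      · simp
      · intro l _ h
        simp [Matrix.one_apply, h]
      · simp
    · rw [Finset.sum_eq_single i]
      · by_cases hj : j = k
        · subst hj
          simp
        · simp [Matrix.single_apply, hj, Ne.symm hj]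
      · intro l _ h
        simp [Matrix.single_apply, h.symm]
      · simp
  rw [e]
  have hne : (.inr k : Ip m) ≠ Sum.swap (.inl i) := by simpa using hik.symm
  rw [act_XL hne]
  have e1 : (ee (.inl (.inl j)) : Cd m → F) (.inl (Sum.swap (.inl i))) = 0 := by simp [ee_apply]
  have e2 : (ee (.inl (.inl j)) : Cd m → F) (.inl (Sum.swap (.inr k))) = if j = k then 1 else 0 := by
    simp [ee_apply, eq_comm]
  rw [e1, e2]
  by_cases hj : j = k
  · simp [hj]
  · simp [hj]

theorem PA_mul {M M' : SpecialLinearGroup (Fin m) F} (h : C.PA M) (h' : C.PA M') : C.PA (M * M') := by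
  intro j
  have h0 : ∀ j, act (C.σ (C.psi M)) (ee (.inl (.inl j))) = ∑ i, (M : Matrix (Fin m) (Fin m) F) i j • ee (.inl (.inl i)) := h
  rw [map_mul, map_mul, act_mul, h' j, act_sum]
  simp only [act_smul, h0]
  have e : ((M * M' : SpecialLinearGroup (Fin m) F) : Matrix (Fin m) (Fin m) F) = (M : Matrix (Fin m) (Fin m) F) * (M' : Matrix (Fin m) (Fin m) F) := rfl
  simp only [Finset.smul_sum, smul_smul]
  rw [Finset.sum_comm]
  refine Finset.sum_congr rfl fun k _ => ?_
  rw [e, Matrix.mul_apply, Finset.sum_smul]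
  refine Finset.sum_congr rfl fun i _ => ?_
  rw [mul_comm]

theorem PA_all (M : SpecialLinearGroup (Fin m) F) : C.PA M := by
  have hM : M ∈ Subgroup.closure {t : SpecialLinearGroup (Fin m) F | ∃ (i j : Fin m) (hij : i ≠ j) (a : F),
      t = SpecialLinearGroup.transvection hij a} := by
    rw [Cfsg.Agent.Lib.Linalg.Transvection.closure_transvections]
    trivial
  induction hM using Subgroup.closure_induction_left with
  | one =>
    intro j
    rw [map_one, map_one, act_one, Finset.sum_eq_single j]
    · simp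
    · intro i _ h
      simp [h]
    · simp
  | mul_left c hc g _ hg =>
    obtain ⟨i, k, hik, t, rfl⟩ := hc
    exact C.PA_mul (C.PA_gen hik t) hg
  | inv_mul_cancel c hc g _ hg =>
    obtain ⟨i, k, hik, t, rfl⟩ := hc
    have e : (SpecialLinearGroup.transvection hik t)⁻¹ = SpecialLinearGroup.transvection hik (-t) := by
      rw [← X_y hik, ← X_y hik, SFam.y_neg _ hik]
    rw [e]
    exact C.PA_mul (C.PA_gen hik _) hg

theorem isM_Fl (L : List (Fin m)) (hL : L.Nodup) : ∃ (π : Perm (Ip m)) (c : Ip m → F) (r : Perm (KK a b)),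
    IsM (C.σ (Fl (fun i => C.fz i (1 : KK a b)) L)) π c r ∧ (∀ i ∈ L, π (.inl i) = .inr i) ∧ (∀ i, i ∉ L → π (.inl i) = .inl i) := by
  induction L with
  | nil =>
    refine ⟨1, fun _ => 1, 1, ?_, by simp, by simp⟩
    rw [Fl_nil, map_one]
    exact IsM.one
  | cons x L ih =>
    rw [List.nodup_cons] at hL
    obtain ⟨hx, hL⟩ := hL
    obtain ⟨π, c, r, hM, h1, h2⟩ := ih hL
    refine ⟨swap (.inl x) (.inr x) * π, fun u => c u * cS (.inl x) (1 : KK a b) (π u), tauP 1 * r, ?_, ?_, ?_⟩
    · rw [Fl_cons, map_mul]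
      exact (C.isM_fz x one_ne_zero).mul hM
    · intro i ha
      rcases List.mem_cons.mp ha with rfl | ha
      · rw [Perm.mul_apply, h2 _ hx, swap_apply_left]
      · rw [Perm.mul_apply, h1 i ha]
        have : i ≠ x := fun e => hx (e ▸ ha)
        exact swap_apply_of_ne_of_ne (by simp) (by simpa using this)
    · intro i ha
      have h3 : i ≠ x := fun e => ha (e ▸ List.mem_cons_self ..)
      have h4 : i ∉ L := fun e => ha (List.mem_cons_of_mem _ e)
      rw [Perm.mul_apply, h2 i h4]
      exact swap_apply_of_ne_of_ne (by simpa using h3) (by simp)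

/-- **The kernel of a perfect central extension has order at most two.** -/
theorem ker_zz (hp : commutator Γ = ⊤) (l : Fin m) {x : Γ} (hx : C.σ x = 1) : x = 1 ∨ x = C.zz l := by
  have hN : x ∈ C.NG := C.ker_mem_N hp (fun n hn => C.NG_isM hn) (fun i s hs => C.simple_mem_NG i hs) hx
  obtain ⟨M, s, E, hM, hs, hE, rfl⟩ := C.mem_NF l hN
  obtain ⟨p, ε, hε, rfl⟩ := mem_closure_Fl (C.zz_center l) (C.zz_sq l) (C.fz_sq l) (fun i j h => C.fz_comm l h)
    (List.finRange m) (List.nodup_finRange m) (List.mem_finRange) hE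
  have hσε : C.σ ε = 1 := by
    rcases hε with rfl | rfl
    · exact map_one _
    · exact C.zz_map l
  have hLn : ((List.finRange m).filter p).Nodup := (List.nodup_finRange m).filter p
  obtain ⟨π, c, r', hF, h1, h2⟩ := C.isM_Fl _ hLn
  obtain ⟨r, c', hM'⟩ := hM
  have hef := C.isM_ef l hs
  have hx' : C.σ (C.psi M) * C.σ (C.ef l s) * C.σ (Fl (fun i => C.fz i (1 : KK a b)) ((List.finRange m).filter p)) = 1 := by
    simpa [map_mul, hσε] using hx
  have h3 := (hM'.mul hef).mul hF
  rw [hx'] at h3
  have h4 := h3.perm_one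
  have hL0 : (List.finRange m).filter p = [] := by
    apply List.eq_nil_iff_forall_not_mem.mpr
    intro i ha
    have e := DFunLike.congr_fun h4 (.inl i)
    simp [Perm.mul_apply, h1 i ha] at e
  rw [hL0] at hx' ⊢
  rw [Fl_nil, map_one, mul_one] at hx'
  rw [Fl_nil, mul_one]
  -- the matrix
  have hj : ∀ j, dS (.inl l) s (.inl j) • act (C.σ (C.psi M)) (ee (.inl (.inl j))) = ee (.inl (.inl j)) := by
    intro j
    have e1 := act_mul (C.σ (C.psi M)) (C.σ (C.ef l s)) (ee (.inl (.inl j)))
    rw [hx', act_one, hef.inl, act_smul] at e1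
    exact e1.symm
  have hd : ∀ j, dS (.inl l) s (.inl j) ≠ 0 := fun j => hef.ne _
  have hMe : ∀ i j, dS (.inl l) s (.inl j) * (M : Matrix (Fin m) (Fin m) F) i j = if i = j then 1 else 0 := by
    intro i j
    have e1 := hj j
    rw [C.PA_all M j] at e1
    have e2 := congrFun e1 (.inl (.inl i))
    simp only [Pi.smul_apply, Finset.sum_apply, smul_eq_mul, ee_apply] at e2
    rw [Finset.sum_eq_single i] at e2
    · simpa using e2
    · intro k _ hk
      simp [hk.symm]
    · simp
  have hMd : (M : Matrix (Fin m) (Fin m) F) = diagonal fun j => (dS (.inl l) s (.inl j))⁻¹ := by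
    ext i j
    by_cases hij : i = j
    · subst hij
      have := hMe i i
      rw [if_pos rfl] at this
      rw [diagonal_apply_eq]
      exact eq_inv_of_mul_eq_one_right this
    · have := hMe i j
      rw [if_neg hij] at this
      rw [diagonal_apply_ne _ hij]
      exact (mul_eq_zero.mp this).resolve_left (hd j)
  have hdv : ∀ j, dS (.inl l) s (.inl j) = if j = l then NN' s else 1 := by
    intro j
    by_cases hjl : j = l
    · subst hjl
      simp [dS]
    · simp [dS, hjl]
  have hss : NN' s = 1 := by
    have e1 := M.2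
    rw [hMd, det_diagonal, Finset.prod_eq_single l] at e1
    · rw [hdv, if_pos rfl] at e1
      exact inv_eq_one.mp e1
    · intro j _ hjl
      rw [hdv, if_neg hjl, inv_one]
    · simp
  have hM1 : M = 1 := by
    apply Subtype.ext
    rw [hMd]
    change diagonal _ = (1 : Matrix (Fin m) (Fin m) F)
    rw [← diagonal_one]
    congr 1
    funext j
    rw [hdv]
    split_ifs
    · rw [hss, inv_one]
    · rw [inv_one]
  rw [hM1, map_one, map_one, one_mul] at hx'
  rw [hM1, map_one, one_mul]
  have hsq : s * s = 1 := by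
    have e1 := hef.inr 1
    rw [hx', act_one] at e1
    have e2 := emb_inj e1
    simp only [rotP, mulP_apply, mul_one] at e2
    have hs' : star s ≠ 0 := star_ne_zero' hs
    have e3 : s = star s := by
      field_simp at e2
      exact e2.symm
    have e4 := coe_N s
    rw [hss, map_one, ← e3] at e4
    exact e4.symm
  have hcz : ∀ g : Γ, C.zz l * g = g * C.zz l := fun g => (Subgroup.mem_center_iff.mp (C.zz_center l) g).symm
  rcases mul_self_eq_one_iff.mp hsq with rfl | rfl
  · rw [ef_one, one_mul]
    exact hε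
  · change C.zz l * ε = 1 ∨ C.zz l * ε = C.zz l
    rcases hε with rfl | rfl
    · right
      rw [mul_one]
    · left
      exact C.zz_sq l

end CE

end Cfsg.Agent.Lib.SpinM
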