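import Mathlib
import Cfsg.Agent.Lib.SpinM.Ker
import Cfsg.Agent.Lib.Steinberg.Cover

/-!
# The double cover of the orthogonal group of minus type inside the Clifford algebra
-/

set_option autoImplicit false
set_option linter.unusedSectionVars false
set_option linter.unusedSimpArgs false
set_option linter.unusedVariables false

namespace Cfsg.Agent.Lib.SpinM

open Matrix QuadraticMap Equiv
open Cfsg.Agent.Lib.Classical.Orth.Basic
open Cfsg.Agent.Lib.Classical.Orth.Models
open Cfsg.Agent.Lib.Classical.Orth.Siegel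
open Cfsg.Agent.Lib.Classical.Orth.Generation
open scoped commutatorElement

variable {m : ℕ} {F : Type*} [Field F] {a b : F}

set_option quotPrecheck false in
local notation "𝔣" => polar (⇑(minusForm m F a b))

/-- The Clifford algebra. -/
abbrev Cl (m : ℕ) (a b : F) := CliffordAlgebra (minusForm m F a b)

/-- The vectors in the Clifford algebra. -/
noncomputable def vi (w : Cd m → F) : Cl m a b := CliffordAlgebra.ι (minusForm m F a b) w

theorem vi_add (w z : Cd m → F) : (vi (w + z) : Cl m a b) = vi w + vi z := map_add _ _ _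

theorem vi_sub (w z : Cd m → F) : (vi (w - z) : Cl m a b) = vi w - vi z := map_sub _ _ _

theorem vi_smul (c : F) (w : Cd m → F) : (vi (c • w) : Cl m a b) = c • vi w := map_smul _ _ _

theorem vi_sq (w : Cd m → F) : (vi w * vi w : Cl m a b) = (minusForm m F a b w) • (1 : Cl m a b) := by
  rw [vi, CliffordAlgebra.ι_sq_scalar, Algebra.smul_def, mul_one]

theorem vi_anti (w z : Cd m → F) : (vi w * vi z + vi z * vi w : Cl m a b) = (𝔣 w z) • (1 : Cl m a b) := by
  rw [vi, vi, CliffordAlgebra.ι_mul_ι_add_swap, Algebra.smul_def, mul_one]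

section Finite

variable [Fintype F]

theorem finite_exterior : Module.Finite F (ExteriorAlgebra F (Cd m → F)) := by
  set V := Cd m → F
  set N := Module.finrank F V with hN
  have h0 : ∀ i, N < i → ⋀[F]^i V = ⊥ := by
    intro i hi
    have h1 : Module.finrank F (⋀[F]^i V) = 0 := by
      rw [exteriorPower.finrank_eq, ← hN, Nat.choose_eq_zero_of_lt hi]
    exact Submodule.finrank_eq_zero.mp h1
  have h2 : (⨆ i, ⋀[F]^i V) = ⊤ :=
    (DirectSum.Decomposition.isInternal (fun i : ℕ => ⋀[F]^i V)).submodule_iSup_eq_top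
  have h3 : (⊤ : Submodule F (ExteriorAlgebra F V)) = ⨆ i ∈ Finset.range (N + 1), ⋀[F]^i V := by
    rw [← h2]
    apply le_antisymm
    · refine iSup_le fun i => ?_
      by_cases hi : i ∈ Finset.range (N + 1)
      · exact le_iSup₂_of_le i hi le_rfl
      · rw [h0 i (by simpa [Nat.lt_succ_iff] using hi)]
        exact bot_le
    · exact iSup₂_le fun i _ => le_iSup _ i
  rw [Module.finite_def, h3]
  exact Submodule.fg_biSup _ _ fun i _ => by
    have := (inferInstance : Module.Finite F (⋀[F]^i V))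
    exact Module.Finite.iff_fg.mp this

theorem finite_cl (h2 : (2 : F) ≠ 0) : Finite (Cl m a b) := by
  haveI := invertibleOfNonzero h2
  haveI := finite_exterior (m := m) (F := F)
  haveI : Module.Finite F (Cl m a b) := Module.Finite.equiv (CliffordAlgebra.equivExterior (minusForm m F a b)).symm
  exact Module.finite_of_finite F

theorem nontrivial_cl (h2 : (2 : F) ≠ 0) : Nontrivial (Cl m a b) := by
  haveI := invertibleOfNonzero h2
  infer_instance

end Finite

section Eich

variable {z c : Cd m → F}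

theorem sq0 (hz : minusForm m F a b z = 0) (hb : 𝔣 z c = 0) : (vi z * vi c) * (vi z * vi c) = (0 : Cl m a b) := by
  have h1 : vi z * vi c = - (vi c * vi z : Cl m a b) := by
    have := vi_anti (a := a) (b := b) z c
    rw [hb, zero_smul] at this
    exact eq_neg_of_add_eq_zero_left this
  have h2 : (vi z * vi z : Cl m a b) = 0 := by rw [vi_sq, hz, zero_smul]
  calc (vi z * vi c) * (vi z * vi c) = vi z * (vi c * vi z) * vi c := by simp only [mul_assoc]
    _ = vi z * (- (vi z * vi c)) * vi c := by rw [h1, neg_neg]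
    _ = - ((vi z * vi z) * (vi c * vi c)) := by
      simp only [mul_neg, neg_mul, mul_assoc]
    _ = 0 := by rw [h2, zero_mul, neg_zero]

/-- The action of an Eichler transformation. -/
theorem U_act (hz : minusForm m F a b z = 0) (hb : 𝔣 z c = 0) (w : Cd m → F) :
    (1 - vi z * vi c) * (vi w : Cl m a b) =
      vi (w + (𝔣 z w) • c - (𝔣 c w) • z - (minusForm m F a b c * 𝔣 z w) • z) * (1 - vi z * vi c) := by
  set Z : Cl m a b := vi z with hZ
  set B : Cl m a b := vi c with hB
  set W : Cl m a b := vi w with hW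
  set c1 := 𝔣 z w with hc1
  set c2 := 𝔣 c w with hc2
  set q := minusForm m F a b c with hq
  have hZZ : Z * Z = 0 := by rw [hZ, vi_sq, hz, zero_smul]
  have hBB : B * B = q • 1 := vi_sq c
  have hZB : Z * B = - (B * Z) := by
    have := vi_anti (a := a) (b := b) z c
    rw [hb, zero_smul] at this
    exact eq_neg_of_add_eq_zero_left this
  have h1 : Z * W = c1 • 1 - W * Z := eq_sub_of_add_eq (vi_anti z w)
  have h2 : B * W = c2 • 1 - W * B := eq_sub_of_add_eq (vi_anti c w)
  have e1 : Z * B * W = c2 • Z - c1 • B + W * (Z * B) := by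
    rw [mul_assoc, h2, mul_sub, mul_smul_comm, mul_one, ← mul_assoc Z W B, h1, sub_mul, smul_mul_assoc, one_mul,
      mul_assoc]
    abel
  have e2 : B * (Z * B) = - (q • Z) := by
    calc B * (Z * B) = (B * Z) * B := by rw [mul_assoc]
      _ = - (Z * B) * B := by rw [hZB, neg_neg]
      _ = - (Z * (B * B)) := by rw [neg_mul, mul_assoc]
      _ = _ := by rw [hBB, mul_smul_comm, mul_one]
  have e3 : Z * (Z * B) = 0 := by rw [← mul_assoc, hZZ, zero_mul]
  have e4 : (vi (w + c1 • c - c2 • z - (q * c1) • z) : Cl m a b) = W + c1 • B - c2 • Z - (q * c1) • Z := by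
    rw [vi_sub, vi_sub, vi_add, vi_smul, vi_smul, vi_smul]
  rw [e4]
  simp only [add_mul, sub_mul, mul_sub, one_mul, mul_one, smul_mul_assoc, e1, e2, e3, smul_zero, smul_neg]
  module

/-- The lift of an Eichler transformation as a unit. -/
noncomputable def Lu (hz : minusForm m F a b z = 0) (hb : 𝔣 z c = 0) : (Cl m a b)ˣ where
  val := 1 - vi z * vi c
  inv := 1 + vi z * vi c
  val_inv := by
    have := sq0 hz hb
    calc (1 - vi z * vi c) * (1 + vi z * vi c) = 1 - (vi z * vi c) * (vi z * vi c) := by noncomm_ring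
      _ = 1 := by rw [this, sub_zero]
  inv_val := by
    have := sq0 hz hb
    calc (1 + vi z * vi c) * (1 - vi z * vi c) = 1 - (vi z * vi c) * (vi z * vi c) := by noncomm_ring
      _ = 1 := by rw [this, sub_zero]

theorem Lu_coe (hz : minusForm m F a b z = 0) (hb : 𝔣 z c = 0) : ((Lu hz hb : (Cl m a b)ˣ) : Cl m a b) = 1 - vi z * vi c := rfl

end Eich

/-- Pairs of units and elements of `Ω` acting compatibly on the vectors. -/
noncomputable def Pre (m : ℕ) (a b : F) : Subgroup ((Cl m a b)ˣ × OO m a b) where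
  carrier := {x | x.2 ∈ Om m a b ∧ ∀ w, (x.1 : Cl m a b) * vi w = vi (act x.2 w) * (x.1 : Cl m a b)}
  mul_mem' := by
    rintro ⟨u, g⟩ ⟨u', g'⟩ ⟨h1, h2⟩ ⟨h1', h2'⟩
    refine ⟨mul_mem h1 h1', fun w => ?_⟩
    show ((u * u' : (Cl m a b)ˣ) : Cl m a b) * vi w = vi (act (g * g') w) * ((u * u' : (Cl m a b)ˣ) : Cl m a b)
    rw [Units.val_mul, mul_assoc, h2', ← mul_assoc, h2, act_mul, mul_assoc]
  one_mem' := ⟨one_mem _, fun w => by simp [act_one]⟩
  inv_mem' := by
    rintro ⟨u, g⟩ ⟨h1, h2⟩
    refine ⟨inv_mem h1, fun w => ?_⟩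
    show ((u⁻¹ : (Cl m a b)ˣ) : Cl m a b) * vi w = vi (act g⁻¹ w) * ((u⁻¹ : (Cl m a b)ˣ) : Cl m a b)
    have h3 := h2 (act g⁻¹ w)
    rw [act_act_inv] at h3
    calc ((u⁻¹ : (Cl m a b)ˣ) : Cl m a b) * vi w = ((u⁻¹ : (Cl m a b)ˣ) : Cl m a b) * (vi w * (u : Cl m a b)) * ((u⁻¹ : (Cl m a b)ˣ) : Cl m a b) := by
          simp [mul_assoc]
      _ = ((u⁻¹ : (Cl m a b)ˣ) : Cl m a b) * ((u : Cl m a b) * vi (act g⁻¹ w)) * ((u⁻¹ : (Cl m a b)ˣ) : Cl m a b) := by rw [h3]
      _ = _ := by rw [← mul_assoc, Units.inv_mul, one_mul]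

/-- The map to `Ω`. -/
noncomputable def fPre (m : ℕ) (a b : F) : Pre m a b →* Om m a b :=
  ((MonoidHom.snd _ _).comp (Pre m a b).subtype).codRestrict _ (fun x => x.2.1)

theorem fPre_ker : (fPre m a b).ker ≤ Subgroup.center (Pre m a b) := by
  rintro x hx
  have h1 : x.1.2 = 1 := congrArg Subtype.val (MonoidHom.mem_ker.mp hx)
  have h2 : ∀ w, ((x.1.1 : (Cl m a b)ˣ) : Cl m a b) * vi w = vi w * ((x.1.1 : (Cl m a b)ˣ) : Cl m a b) := by
    intro w
    have := x.2.2 w
    rw [h1, act_one] at this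
    exact this
  have h3 : ∀ y : Cl m a b, ((x.1.1 : (Cl m a b)ˣ) : Cl m a b) * y = y * ((x.1.1 : (Cl m a b)ˣ) : Cl m a b) := by
    intro y
    induction y using CliffordAlgebra.induction with
    | algebraMap r => exact (Algebra.commutes _ _).symm
    | ι w => exact h2 w
    | mul a b ha hb => rw [← mul_assoc, ha, mul_assoc, hb, mul_assoc]
    | add a b ha hb => rw [mul_add, add_mul, ha, hb]
  rw [Subgroup.mem_center_iff]
  intro y
  apply Subtype.ext
  apply Prod.ext
  · apply Units.ext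
    exact (h3 _).symm
  · show y.1.2 * x.1.2 = x.1.2 * y.1.2
    rw [h1, mul_one, one_mul]

/-- The spin group. -/
noncomputable abbrev Sp (m : ℕ) (a b : F) : Subgroup (Pre m a b) := commutator (Pre m a b)

/-- The map from the spin group to `Ω`. -/
noncomputable def tSp (m : ℕ) (a b : F) : Sp m a b →* Om m a b := (fPre m a b).comp (Sp m a b).subtype

section Lift

variable [Fintype F] [Fact (∀ r : F, r ^ 2 ≠ -b + a * r)]

/-- The lift of a long root element. -/
noncomputable def LxL (hm : 2 ≤ m) (u : Ip m) {v : Ip m} (h : v ≠ u.swap) (t : F) : Pre m a b :=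
  ⟨(Lu (Q_eu u) (pol_eu_long h t), XL u v t), XL_mem hm u v t, fun w => by
    show ((Lu (Q_eu u) (pol_eu_long h t) : (Cl m a b)ˣ) : Cl m a b) * vi w = vi (act (XL u v t) w) * ((Lu (Q_eu u) (pol_eu_long h t) : (Cl m a b)ˣ) : Cl m a b)
    rw [XL_of h, act_eichlerIso]
    exact U_act (Q_eu u) (pol_eu_long h t) w⟩

/-- The lift of a short root element. -/
noncomputable def LxS (hm : 2 ≤ m) (u : Ip m) (y : KK a b) : Pre m a b :=
  ⟨(Lu (Q_eu u) (pol_eu_emb u y), XS u y), XS_mem hm u y, fun w => by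
    show ((Lu (Q_eu u) (pol_eu_emb u y) : (Cl m a b)ˣ) : Cl m a b) * vi w = vi (act (XS u y) w) * ((Lu (Q_eu u) (pol_eu_emb u y) : (Cl m a b)ˣ) : Cl m a b)
    rw [XS, act_eichlerIso]
    exact U_act (Q_eu u) (pol_eu_emb u y) w⟩

theorem fPre_surj (hm : 2 ≤ m) : Function.Surjective (fPre m a b) := by
  rintro ⟨g, hg⟩
  have : ∃ x : Pre m a b, x.1.2 = g := by
    rw [Om_eq_LL hm] at hg
    induction hg using Subgroup.closure_induction with
    | mem y hy =>
      rcases hy with ⟨u, v, t, rfl⟩ | ⟨u, y, rfl⟩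
      · by_cases h : v = u.swap
        · exact ⟨1, by rw [XL_not h]; rfl⟩
        · exact ⟨LxL hm u h t, rfl⟩
      · exact ⟨LxS hm u y, rfl⟩
    | one => exact ⟨1, rfl⟩
    | mul a b _ _ ha hb =>
      obtain ⟨x, rfl⟩ := ha
      obtain ⟨y, rfl⟩ := hb
      exact ⟨x * y, rfl⟩
    | inv a _ ha =>
      obtain ⟨x, rfl⟩ := ha
      exact ⟨x⁻¹, rfl⟩
  obtain ⟨x, hx⟩ := this
  exact ⟨x, Subtype.ext hx⟩

theorem tSp_stem (hm : 2 ≤ m) : Cfsg.IsStemExtension (tSp m a b) :=
  Cfsg.Agent.Lib.Steinberg.Cover.comm_stem _ (fPre_surj hm) fPre_ker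
    (commutator_omega_eq_top (nondeg m a b) (card_Cd hm))

theorem finite_Sp (h2 : (2 : F) ≠ 0) : Finite (Sp m a b) := by
  haveI := finite_cl (m := m) (a := a) (b := b) h2
  infer_instance

/-! ### The kernel -/

/-- The basis vectors in the Clifford algebra. -/
noncomputable def ga (u : Ip m) : Cl m a b := vi (ee (.inl u))

/-- The vector of norm one in the Clifford algebra. -/
noncomputable def g0 : Cl m a b := vi (emb (1 : KK a b))

theorem ga_sq (u : Ip m) : (ga u * ga u : Cl m a b) = 0 := by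
  rw [ga, vi_sq, Q_eu, zero_smul]

theorem g0_sq : (g0 * g0 : Cl m a b) = 1 := by
  rw [g0, vi_sq, Q_emb, N_one, one_smul]

theorem ga_g0 (u : Ip m) : (ga u * g0 : Cl m a b) = - (g0 * ga u) := by
  have := vi_anti (a := a) (b := b) (ee (.inl u)) (emb (1 : KK a b))
  rw [pol_eu_emb, zero_smul] at this
  exact eq_neg_of_add_eq_zero_left this

theorem ga_swap (u : Ip m) : (ga u * ga u.swap + ga u.swap * ga u : Cl m a b) = 1 := by
  have := vi_anti (a := a) (b := b) (ee (.inl u)) (ee (.inl u.swap))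
  rw [pol_eu, ee_self, one_smul] at this
  exact this

theorem ga_anti {u v : Ip m} (h : v ≠ u.swap) : (ga u * ga v : Cl m a b) = - (ga v * ga u) := by
  have := vi_anti (a := a) (b := b) (ee (.inl u)) (ee (.inl v))
  rw [pol_eu, ee_apply, if_neg (fun e => h (Sum.inl_injective e).symm), zero_smul] at this
  exact eq_neg_of_add_eq_zero_left this

/-- The lift of the Weyl element. -/
theorem w_id {x y e : Cl m a b} (hx : x * x = 0) (hy : y * y = 0) (he : e * e = 1) (hxe : x * e = - (e * x)) (hye : y * e = - (e * y))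
    (hxy : x * y + y * x = 1) : (1 - x * e) * (1 - y * e) * (1 - x * e) = - ((x + y) * e) := by
  have h1 : (x * e) * (x * e) = 0 := by
    calc (x * e) * (x * e) = x * (e * x) * e := by simp only [mul_assoc]
      _ = x * (- (x * e)) * e := by rw [hxe, neg_neg]
      _ = - ((x * x) * (e * e)) := by simp only [mul_neg, neg_mul, mul_assoc]
      _ = 0 := by rw [hx, zero_mul, neg_zero]
  have h2 : (x * e) * (y * e) = - (x * y) := by
    calc (x * e) * (y * e) = x * (e * y) * e := by simp only [mul_assoc]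
      _ = x * (- (y * e)) * e := by rw [hye, neg_neg]
      _ = - ((x * y) * (e * e)) := by simp only [mul_neg, neg_mul, mul_assoc]
      _ = _ := by rw [he, mul_one]
  have h3 : (y * e) * (x * e) = - (y * x) := by
    calc (y * e) * (x * e) = y * (e * x) * e := by simp only [mul_assoc]
      _ = y * (- (x * e)) * e := by rw [hxe, neg_neg]
      _ = - ((y * x) * (e * e)) := by simp only [mul_neg, neg_mul, mul_assoc]
      _ = _ := by rw [he, mul_one]
  have h4 : (x * e) * (y * e) * (x * e) = - (x * e) := by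
    rw [h2]
    have e5 : y * x = 1 - x * y := eq_sub_of_add_eq' hxy
    calc - (x * y) * (x * e) = - (x * (y * x) * e) := by simp only [neg_mul, mul_assoc]
      _ = - (x * e) + (x * x) * (y * e) := by
        rw [e5]
        noncomm_ring
      _ = _ := by rw [hx, zero_mul, add_zero]
  have e6 : (1 - x * e) * (1 - y * e) * (1 - x * e) =
      1 - y * e - (x * e) - (x * e) + ((x * e) * (y * e) + (y * e) * (x * e)) + (x * e) * (x * e) - (x * e) * (y * e) * (x * e) := by
    noncomm_ring
  rw [e6, h1, h4, h2, h3, ← neg_add, hxy]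
  noncomm_ring

/-- The lift of the short Weyl element of parameter one. -/
noncomputable def Wa (hm : 2 ≤ m) (i : Fin m) : Pre m a b :=
  LxS hm (.inl i) 1 * LxS hm (.inr i) 1 * LxS hm (.inl i) 1

theorem Wa_real (hm : 2 ≤ m) (i : Fin m) : (Wa (a := a) (b := b) hm i).1.2 = NS (.inl i) (1 : KK a b) := by
  simp only [NS, iv_one]
  rfl

theorem Wa_val (hm : 2 ≤ m) (i : Fin m) :
    (((Wa (a := a) (b := b) hm i).1.1 : (Cl m a b)ˣ) : Cl m a b) = - ((ga (.inl i) + ga (.inr i)) * g0) := by
  have e : (((Wa (a := a) (b := b) hm i).1.1 : (Cl m a b)ˣ) : Cl m a b) =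
      (1 - vi (ee (.inl (.inl i))) * vi (emb (1 : KK a b))) * (1 - vi (ee (.inl (.inr i))) * vi (emb (1 : KK a b))) *
        (1 - vi (ee (.inl (.inl i))) * vi (emb (1 : KK a b))) := rfl
  rw [e]
  exact w_id (ga_sq _) (ga_sq _) g0_sq (ga_g0 _) (ga_g0 _) (ga_swap (.inl i))

theorem Wa_anti (hm : 2 ≤ m) {i j : Fin m} (hij : i ≠ j) :
    (((Wa (a := a) (b := b) hm i).1.1 : (Cl m a b)ˣ) : Cl m a b) * (((Wa (a := a) (b := b) hm j).1.1 : (Cl m a b)ˣ) : Cl m a b) =
      - ((((Wa (a := a) (b := b) hm j).1.1 : (Cl m a b)ˣ) : Cl m a b) * (((Wa (a := a) (b := b) hm i).1.1 : (Cl m a b)ˣ) : Cl m a b)) := by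
  rw [Wa_val, Wa_val]
  set v : Cl m a b := ga (.inl i) + ga (.inr i) with hv
  set w : Cl m a b := ga (.inl j) + ga (.inr j) with hw
  have h1 : v * w = - (w * v) := by
    rw [hv, hw]
    simp only [mul_add, add_mul]
    rw [ga_anti (u := .inl i) (v := .inl j) (by simp), ga_anti (u := .inl i) (v := .inr j) (by simpa using hij.symm),
      ga_anti (u := .inr i) (v := .inl j) (by simpa using hij.symm), ga_anti (u := .inr i) (v := .inr j) (by simp)]
    abel
  have h3 : v * g0 = - (g0 * v) := by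
    rw [hv, add_mul, mul_add, ga_g0, ga_g0]
    abel
  have h4 : w * g0 = - (g0 * w) := by
    rw [hw, add_mul, mul_add, ga_g0, ga_g0]
    abel
  have e1 : (v * g0) * (w * g0) = - (v * w) := by
    calc (v * g0) * (w * g0) = v * (g0 * w) * g0 := by simp only [mul_assoc]
      _ = v * (- (w * g0)) * g0 := by rw [h4, neg_neg]
      _ = - ((v * w) * (g0 * g0)) := by simp only [mul_neg, neg_mul, mul_assoc]
      _ = _ := by rw [g0_sq, mul_one]
  have e2 : (w * g0) * (v * g0) = - (w * v) := by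
    calc (w * g0) * (v * g0) = w * (g0 * v) * g0 := by simp only [mul_assoc]
      _ = w * (- (v * g0)) * g0 := by rw [h3, neg_neg]
      _ = - ((w * v) * (g0 * g0)) := by simp only [mul_neg, neg_mul, mul_assoc]
      _ = _ := by rw [g0_sq, mul_one]
  rw [neg_mul_neg, neg_mul_neg, e1, e2, h1]

/-- The short Weyl elements commute in the orthogonal group. -/
theorem NS_short_comm {i j : Fin m} (hij : i ≠ j) :
    NS (.inl i) (1 : KK a b) * NS (.inl j) (1 : KK a b) = NS (.inl j) (1 : KK a b) * NS (.inl i) (1 : KK a b) := by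
  have ha := isM_NS (.inl i : Ip m) (one_ne_zero (α := KK a b))
  have hb := isM_NS (.inl j : Ip m) (one_ne_zero (α := KK a b))
  have s : ∀ (i : Fin m) (w : Ip m), idx w ≠ i → swap (.inl i : Ip m) (Sum.swap (.inl i)) w = w := by
    intro i w h
    apply swap_apply_of_ne_of_ne
    · rintro rfl
      exact h rfl
    · rintro rfl
      exact h rfl
  have c : ∀ (i : Fin m) (w : Ip m), idx w ≠ i → cS (.inl i) (1 : KK a b) w = 1 := by
    intro i w h
    have h1 : w ≠ .inl i := by
      rintro rfl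
      exact h rfl
    have h2 : w ≠ Sum.swap (.inl i) := by
      rintro rfl
      exact h rfl
    exact cS_o (.inl i) 1 h1 h2
  have d : ∀ (i : Fin m) (w : Ip m), idx (swap (.inl i : Ip m) (Sum.swap (.inl i)) w) = idx w := by
    intro i w
    by_cases h1 : w = .inl i
    · rw [h1, swap_apply_left]
      rfl
    by_cases h2 : w = Sum.swap (.inl i)
    · rw [h2, swap_apply_right]
      rfl
    · rw [swap_apply_of_ne_of_ne h1 h2]
  apply ext_M
  · intro w
    rw [act_mul, act_mul, hb.inl w, act_smul, ha.inl, ha.inl w, act_smul, hb.inl, smul_smul, smul_smul]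
    by_cases h1 : idx w = i
    · have h3 : idx w ≠ j := by
        rw [h1]
        exact hij
      have h4 := d i w
      have h5 : idx (swap (.inl i : Ip m) (Sum.swap (.inl i)) w) ≠ j := by rwa [h4]
      rw [c j _ h3, s j _ h3, c j _ h5, s j _ h5, one_mul, mul_one]
    · by_cases h2 : idx w = j
      · have h4 := d j w
        have h5 : idx (swap (.inl j : Ip m) (Sum.swap (.inl j)) w) ≠ i := by
          rw [h4, h2]
          exact hij.symm
        rw [c i _ h1, s i _ h1, c i _ h5, s i _ h5, one_mul, mul_one]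
      · rw [c i _ h1, s i _ h1, c j _ h2, s j _ h2, c i _ h1, s i _ h1]
  · intro y
    rw [act_mul, act_mul, hb.inr, ha.inr, ha.inr, hb.inr]

/-- The central element of the spin group. -/
theorem exists_ker (h2 : (2 : F) ≠ 0) (hm : 2 ≤ m) : ∃ x : Sp m a b, tSp m a b x = 1 ∧ x ≠ 1 := by
  haveI := nontrivial_cl (m := m) (a := a) (b := b) h2
  have ham : 0 < m := by omega
  let i : Fin m := ⟨0, ham⟩
  let j : Fin m := ⟨1, by omega⟩
  have hij : i ≠ j := by
    intro e
    have := congrArg Fin.val e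
    simp [i, j] at this
  let A := Wa (a := a) (b := b) hm i
  let B := Wa (a := a) (b := b) hm j
  have hmem : ⁅A, B⁆ ∈ Sp m a b := Subgroup.commutator_mem_commutator (Subgroup.mem_top _) (Subgroup.mem_top _)
  refine ⟨⟨⁅A, B⁆, hmem⟩, ?_, ?_⟩
  · apply Subtype.ext
    change (⁅A, B⁆ : Pre m a b).1.2 = 1
    rw [commutatorElement_def]
    change A.1.2 * B.1.2 * (A.1.2)⁻¹ * (B.1.2)⁻¹ = 1
    rw [Wa_real, Wa_real, NS_short_comm hij]
    group
  · intro e
    have e1 : ((⁅A, B⁆ : Pre m a b).1.1 : (Cl m a b)ˣ) = 1 := by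
      have := congrArg (fun x : Sp m a b => (x.1.1.1 : (Cl m a b)ˣ)) e
      exact this
    have e2 : ((⁅A, B⁆ : Pre m a b).1.1 : (Cl m a b)ˣ) = A.1.1 * B.1.1 * (A.1.1)⁻¹ * (B.1.1)⁻¹ := by
      rw [commutatorElement_def]
      rfl
    rw [e2] at e1
    have e3 : A.1.1 * B.1.1 = B.1.1 * A.1.1 := by
      rwa [mul_inv_eq_one, mul_inv_eq_iff_eq_mul] at e1
    have e4 := congrArg (fun u : (Cl m a b)ˣ => (u : Cl m a b)) e3
    simp only [Units.val_mul] at e4
    have e5 := Wa_anti (a := a) (b := b) hm hij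
    change (A.1.1 : Cl m a b) * (B.1.1 : Cl m a b) = - ((B.1.1 : Cl m a b) * (A.1.1 : Cl m a b)) at e5
    rw [e4] at e5
    -- `x = -x` for a unit `x`
    have e6 : (2 : F) • ((B.1.1 : Cl m a b) * (A.1.1 : Cl m a b)) = 0 := by
      rw [two_smul]
      nth_rw 1 [e5]
      exact neg_add_cancel _
    have e7 : (B.1.1 : Cl m a b) * (A.1.1 : Cl m a b) ≠ 0 := by
      have : IsUnit ((B.1.1 : Cl m a b) * (A.1.1 : Cl m a b)) := (B.1.1 * A.1.1).isUnit
      exact this.ne_zero
    rcases smul_eq_zero.mp e6 with h | h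
    · exact h2 h
    · exact e7 h

end Lift

end Cfsg.Agent.Lib.SpinM
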