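import Mathlib
import Cfsg.Agent.Lib.SpinM.Cliff
import Cfsg.Agent.Lib.Classical.Orth.Center

/-!
# Central extensions of the orthogonal groups of minus type: the lift of `-1`
-/

set_option autoImplicit false
set_option linter.unusedSectionVars false
set_option linter.unusedSimpArgs false
set_option linter.unusedVariables false

namespace Cfsg.Agent.Lib.SpinM

open Matrix QuadraticMap Equiv
open Cfsg.Agent.Lib.Classical.Orth.Basic
open Cfsg.Agent.Lib.Classical.Orth.Models
open Cfsg.Agent.Lib.Classical.Orth.Siegel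
open Cfsg.Agent.Lib.Classical.Orth.Generation
open Cfsg.Agent.Lib.Sporadic.Stem
open Cfsg.Agent.Lib.Steinberg.Family Cfsg.Agent.Lib.Steinberg.LinearStem Cfsg.Agent.Lib.Steinberg.CTR

variable {m : ℕ} {F : Type*} [Field F] {a b : F}

set_option quotPrecheck false in
local notation "𝔣" => polar (⇑(minusForm m F a b))

/-- The span of the second half of the hyperbolic coordinates. -/
def InP (x : Cd m → F) : Prop := (∀ w : Fin m, x (.inl (.inl w)) = 0) ∧ ∀ i, x (.inr i) = 0

theorem InP_ee (j : Fin m) : InP (ee (.inl (.inr j)) : Cd m → F) := by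
  constructor
  · intro w
    simp [ee_apply]
  · intro i
    simp [ee_apply]

/-- A monomial element acting as `-1` on the hyperbolic part and negating the anisotropic part. -/
theorem IsM.mx_neg {g : OO m a b} {ρ : Perm (KK a b)} (h : IsM g 1 (fun _ => -1) ρ) (hρ : ∀ y, ρ y = -y) :
    Mx g = -1 := by
  ext l j
  rw [Mx_apply, Matrix.neg_apply, Matrix.one_apply]
  rcases j with u | k
  · rw [h.inl, neg_one_smul, Perm.one_apply, Pi.neg_apply, ee_apply]
  · obtain ⟨y, hy⟩ := ee_inr_emb (a := a) (b := b) (m := m) k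
    rw [hy, h.inr, hρ, emb_neg, Pi.neg_apply, ← hy, ee_apply]

section Units

variable [Fact (∀ r : F, r ^ 2 ≠ -b + a * r)] [Fintype F]

/-- The square root of `-1`. -/
theorem exists_i (hq : Fintype.card F % 4 = 3) : ∃ i : KK a b, i * i = -1 ∧ NN' i = 1 ∧ star i = -i := by
  obtain ⟨r, hr⟩ := exists_sqrt_neg_one (a := a) (b := b)
  have h2 : (2 : F) ≠ 0 := by
    intro h
    obtain ⟨k, hk⟩ := Cfsg.Agent.Lib.Classical.Orth.Center.card_even_iff h
    omega
  have hs : star r * star r = -1 := by
    rw [← star_mul', hr, star_neg, star_one]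
  have h0 : (star r - r) * (star r + r) = 0 := by
    have : (star r - r) * (star r + r) = star r * star r - r * r := by ring
    rw [this, hs, hr, sub_self]
  have hsr : star r = -r := by
    rcases mul_eq_zero.mp h0 with h1 | h1
    · exfalso
      have e1 : star r = r := sub_eq_zero.mp h1
      have e2 := congrArg QuadraticAlgebra.im e1
      rw [QuadraticAlgebra.im_star] at e2
      have e3 : r.im = 0 := by
        have : 2 * r.im = 0 := by linear_combination -e2
        exact (mul_eq_zero.mp this).resolve_left h2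
      have e4 := congrArg QuadraticAlgebra.re hr
      simp only [QuadraticAlgebra.re_mul, QuadraticAlgebra.re_neg, QuadraticAlgebra.re_one, e3, mul_zero, zero_mul, add_zero] at e4
      have h3 : IsSquare (-1 : F) := ⟨r.re, e4.symm⟩
      rw [FiniteField.isSquare_neg_one_iff] at h3
      exact h3 hq
    · exact eq_neg_of_add_eq_zero_left h1
  refine ⟨r, hr, ?_, hsr⟩
  have e := coe_N r
  rw [hsr, mul_neg, hr, neg_neg] at e
  have e1 : algebraMap F (KK a b) (NN' r) = algebraMap F (KK a b) 1 := by
    rw [e, map_one]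
  exact (algebraMap F (KK a b)).injective e1

end Units

namespace CE

variable {Γ : Type*} [Group Γ] (C : CE m a b Γ) [Fact (∀ r : F, r ^ 2 ≠ -b + a * r)] [Fintype F]

/-- Levi elements fix the anisotropic part and preserve the span of the second half of the coordinates. -/
theorem psi_act (M : SpecialLinearGroup (Fin m) F) :
    (∀ y : KK a b, act (C.σ (C.psi M)) (emb y) = emb y) ∧ ∀ x : Cd m → F, InP x → InP (act (C.σ (C.psi M)) x) := by
  have gen : ∀ {i k : Fin m} (hik : i ≠ k) (t : F),
      (∀ y : KK a b, act (C.σ (C.psi (SpecialLinearGroup.transvection hik t))) (emb y) = emb y) ∧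
        ∀ x : Cd m → F, InP x → InP (act (C.σ (C.psi (SpecialLinearGroup.transvection hik t))) x) := by
    intro i k hik t
    rw [← X_y hik t, C.psi_y hik, C.xl_map (idx_lr hik)]
    have hne : (.inr k : Ip m) ≠ Sum.swap (.inl i) := by simpa using hik.symm
    constructor
    · intro y
      rw [act_XL hne]
      simp
    · rintro x ⟨h1, h2⟩
      rw [act_XL hne]
      have e1 : x (.inl (Sum.swap (.inr k))) = 0 := h1 k
      rw [e1]
      constructor
      · intro w
        simp [h1 w, ee_apply]
      · intro j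
        simp [h2 j, ee_apply]
  have hM : M ∈ Subgroup.closure {t : SpecialLinearGroup (Fin m) F | ∃ (i j : Fin m) (hij : i ≠ j) (a : F),
      t = SpecialLinearGroup.transvection hij a} := by
    rw [Cfsg.Agent.Lib.Linalg.Transvection.closure_transvections]
    trivial
  have hmul : ∀ {A B : SpecialLinearGroup (Fin m) F},
      ((∀ y : KK a b, act (C.σ (C.psi A)) (emb y) = emb y) ∧ ∀ x : Cd m → F, InP x → InP (act (C.σ (C.psi A)) x)) →
      ((∀ y : KK a b, act (C.σ (C.psi B)) (emb y) = emb y) ∧ ∀ x : Cd m → F, InP x → InP (act (C.σ (C.psi B)) x)) →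
      ((∀ y : KK a b, act (C.σ (C.psi (A * B))) (emb y) = emb y) ∧ ∀ x : Cd m → F, InP x → InP (act (C.σ (C.psi (A * B))) x)) := by
    intro A B hA hB
    rw [map_mul, map_mul]
    constructor
    · intro y
      rw [act_mul, hB.1, hA.1]
    · intro x hx
      rw [act_mul]
      exact hA.2 _ (hB.2 _ hx)
  induction hM using Subgroup.closure_induction_left with
  | one =>
    rw [map_one, map_one]
    exact ⟨fun y => act_one _, fun x hx => by rwa [act_one]⟩
  | mul_left c hc g _ hg =>
    obtain ⟨i, k, hik, t, rfl⟩ := hc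
    exact hmul (gen hik t) hg
  | inv_mul_cancel c hc g _ hg =>
    obtain ⟨i, k, hik, t, rfl⟩ := hc
    have e : (SpecialLinearGroup.transvection hik t)⁻¹ = SpecialLinearGroup.transvection hik (-t) := by
      rw [← X_y hik, ← X_y hik, SFam.y_neg _ hik]
    rw [e]
    exact hmul (gen hik _) hg

/-- The matrix `-1`. -/
noncomputable def negI (he : Even m) : SpecialLinearGroup (Fin m) F :=
  ⟨-1, by
    rw [det_neg, det_one, mul_one, Fintype.card_fin, he.neg_one_pow]⟩

omit [Fact (∀ r : F, r ^ 2 ≠ -b + a * r)] [Fintype F] in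
theorem negI_sq (he : Even m) : (negI he : SpecialLinearGroup (Fin m) F) * negI he = 1 := by
  apply Subtype.ext
  show (-1 : Matrix (Fin m) (Fin m) F) * (-1) = 1
  simp

theorem isM_negI (he : Even m) : IsM (C.σ (C.psi (negI he))) 1 (fun _ => -1) 1 := by
  have hL : ∀ j, act (C.σ (C.psi (negI he))) (ee (.inl (.inl j))) = -ee (.inl (.inl j)) := by
    intro j
    rw [C.PA_all (negI he) j, Finset.sum_eq_single j]
    · show (-1 : Matrix (Fin m) (Fin m) F) j j • _ = _
      simp
    · intro i _ h
      show (-1 : Matrix (Fin m) (Fin m) F) i j • _ = _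
      simp [Matrix.one_apply, h]
    · simp
  constructor
  · intro u
    simp only [Perm.one_apply, neg_one_smul]
    rcases u with j | j
    · exact hL j
    · set x := act (C.σ (C.psi (negI he))) (ee (.inl (.inr j))) with hx
      have h1 := (C.psi_act (negI he)).2 _ (InP_ee j)
      rw [← hx] at h1
      funext l
      rcases l with (w | k) | i
      · rw [h1.1 w, Pi.neg_apply, ee_apply]
        simp
      · have e1 := polar_act (C.σ (C.psi (negI he))) (ee (.inl (.inl k))) (ee (.inl (.inr j)))
        rw [hL k, ← hx, polar_neg_left, pol_eu, pol_eu] at e1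
        have e2 : x (.inl (.inr k)) = x (.inl (Sum.swap (.inl k))) := rfl
        rw [e2, Pi.neg_apply, neg_eq_iff_eq_neg.mp e1]
        simp [ee_apply, eq_comm]
      · rw [h1.2 i, Pi.neg_apply, ee_apply]
        simp
  · intro y
    rw [(C.psi_act (negI he)).1 y]
    rfl

/-- The lift of `-1` commutes with the torus elements. -/
theorem psi_neg_ef (he : Even m) (l : Fin m) {y : KK a b} (hy : y ≠ 0) :
    C.psi (negI he) * C.ef l y * (C.psi (negI he))⁻¹ = C.ef l y := by
  set g := C.psi (negI he) with hg
  have h1 : ∀ z : KK a b, g * C.fz l z * g⁻¹ = C.fz l (-z) := by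
    intro z
    have e := C.ns_conj (.inl l) (C.isM_negI he) z
    change g * C.ns (.inl l) z * g⁻¹ = C.ns (.inl l) (-z)
    rw [e]
    simp
  have e0 : g * C.ef l y * g⁻¹ = (g * C.fz l y * g⁻¹) * (g * C.fz l 1 * g⁻¹)⁻¹ := by
    simp only [ef]
    group
  have h3 : (-1 : KK a b) ≠ 0 := neg_ne_zero.mpr one_ne_zero
  have hc := Subgroup.mem_center_iff.mp (C.zz_center l)
  have e1 : C.ef l (-y) = C.zz l * C.ef l y := by
    rw [zz, C.ef_mul l h3 hy]
    simp
  have e2 : C.fz l (-y) = C.zz l * C.ef l y * C.fz l 1 := by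
    rw [← e1, C.fz_eq_ef]
  rw [e0, h1, h1, e2, ← C.fz_inv, inv_inv]
  calc C.zz l * C.ef l y * C.fz l 1 * C.fz l 1 = C.zz l * C.ef l y * (C.fz l 1 * C.fz l 1) := by group
    _ = C.zz l * C.ef l y * C.zz l := by rw [C.fz_sq l l]
    _ = C.ef l y * (C.zz l * C.zz l) := by
      rw [← hc (C.ef l y), mul_assoc]
    _ = _ := by rw [C.zz_sq, mul_one]

/-- **The lift of `-1` has order four.** -/
theorem exists_neg (hq : Fintype.card F % 4 = 3) (he : Even m) (l : Fin m) :
    ∃ e : Γ, Mx (C.σ e) = -1 ∧ e * e = C.zz l := by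
  obtain ⟨i, hi, hN, hs⟩ := exists_i (a := a) (b := b) hq
  have hi0 : i ≠ 0 := by
    rintro rfl
    rw [mul_zero] at hi
    exact neg_ne_zero.mpr one_ne_zero hi.symm
  refine ⟨C.ef l i * C.psi (negI he), ?_, ?_⟩
  · rw [map_mul]
    have h1 := (C.isM_ef l hi0).mul (C.isM_negI he)
    have e0 : (fun u => -1 * dS (.inl l) i ((1 : Perm (Ip m)) u)) = fun _ : Ip m => (-1 : F) := by
      funext u
      by_cases c1 : u = .inl l
      · subst c1
        simp [dS, hN]
      by_cases c2 : u = .inr l
      · subst c2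
        simp [dS, hN]
      · simp [dS, c1, c2]
    rw [one_mul, e0] at h1
    refine h1.mx_neg ?_
    intro y
    simp only [mul_one, rotP, mulP_apply]
    rw [hs]
    rw [div_neg, div_self hi0]
    ring
  · have h3 := C.psi_neg_ef he l hi0
    have e1 : C.psi (negI he) * C.psi (negI he) = 1 := by
      rw [← map_mul, negI_sq, map_one]
    calc C.ef l i * C.psi (negI he) * (C.ef l i * C.psi (negI he))
        = C.ef l i * (C.psi (negI he) * C.ef l i * (C.psi (negI he))⁻¹) * (C.psi (negI he) * C.psi (negI he)) := by group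
      _ = C.ef l i * C.ef l i := by rw [h3, e1, mul_one]
      _ = C.zz l := by rw [C.ef_mul l hi0 hi0, hi]; rfl

/-- In characteristic two the central element is trivial. -/
theorem zz_char2 (h2 : (2 : F) = 0) (l : Fin m) : C.zz l = 1 := by
  have e : (2 : KK a b) = 0 := by
    have := congrArg (algebraMap F (KK a b)) h2
    rwa [map_ofNat, map_zero] at this
  have e1 : (-1 : KK a b) = 1 := by
    linear_combination -e
  rw [zz, e1, ef_one]

end CE

end Cfsg.Agent.Lib.SpinM
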